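/-
Project PEN (S3321), job FN: the Janko-four type conditions.
-/
import Cfsg.Agent.Pen.D
import Cfsg.Agent.L10.SCQ
import Cfsg.Agent.Grp.ExtraBasic
import Cfsg.Agent.Grp.Cores
import Cfsg.Agent.Grp.PNilp

set_option autoImplicit false

namespace CL.Pen

open Cfsg Subgroup Matrix CL.Cls CL.Grp CL.Even CL.L10 CL.Mx QuadraticMap
open scoped MatrixGroups commutatorElement

universe u

section
variable {G : Type u} [Group G] {z : G} {Q : Subgroup G} {π : G → V0} {ρ : KK z Q →* OG q0} (h : QM q0 z Q π ρ)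
include h

theorem fn_card : Nat.card Q = 2 ^ 13 := by
  rw [Scq.card_pi h h.zQ le_rfl, (eq_top_iff.2 fun v _ => let ⟨a, ha, e⟩ := h.surj v; ⟨a, ⟨ha, ha⟩, e⟩ :
    Scq.pi h Q = ⊤), Nat.card_congr Submodule.topEquiv.toEquiv, card_V0]
  rfl

theorem fn_extra [Finite G] : IsExtraspecial 2 Q := by
  have q := h.toQP
  have e : center Q = zpowers ⟨z, q.zQ⟩ := le_antisymm (fun x hx => by
    rcases (q.π_zero x.2).1 (nondeg_iff.1 q.nd _ fun v => by
      obtain ⟨a, ha, rfl⟩ := q.surj v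
      exact (q.b_zero x.2 ha).2 (congrArg Subtype.val (mem_center_iff.1 hx ⟨a, ha⟩)).symm) with e | e
    exacts [(Subtype.ext e : x = 1) ▸ one_mem _, (Subtype.ext e : x = ⟨_, q.zQ⟩) ▸ mem_zpowers _])
    (zpowers_le.2 (mem_center_iff.2 fun y => Subtype.ext (q.cz y.2)))
  refine isExtraspecial_of_center ?_ ?_ (fun c => ?_) (IsPGroup.of_card (fn_card h))
  · rw [e, Nat.card_zpowers]
    exact orderOf_eq_prime (Subtype.ext ((pow_two _).trans q.zz)) fun e => q.z1 (congrArg Subtype.val e)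
  · rw [e, _root_.commutator_def, commutator_le]
    intro a _ b _
    rcases Scq.cm h (one_mem _) (a := a.1) (b := b.1) (by simp) (by simp) with e | e
    exacts [(Subtype.ext e : ⁅a, b⁆ = 1) ▸ one_mem _, (Subtype.ext e : ⁅a, b⁆ = ⟨_, q.zQ⟩) ▸ mem_zpowers _]
  · obtain ⟨a, ha, e⟩ := q.surj 1
    have := nondeg_iff.1 q.nd (π a) fun v => by
      obtain ⟨b, hb, rfl⟩ := q.surj v
      exact (q.b_zero ha hb).2 (congrArg Subtype.val (c.1.1 ⟨a, ha⟩ ⟨b, hb⟩))
    exact absurd (e.symm.trans this) (by decide)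

end

theorem fn : FN.{u} := by
  intro G _ _ z Q π ρ h hC ker nd ⟨_, ⟨s0, rfl⟩, hs⟩ m ⟨k, k3, dD⟩
  have := Fact.mk Nat.prime_two
  have := Fact.mk Nat.prime_three
  have cQ := fn_card h
  have D3 : dO ^ 3 = 1 := by rw [pow_three', d_cube]
  have D1 : dO ≠ 1 := fun e => absurd (d_fpf (v := 1) (by rw [e]; rfl)) one_ne_zero
  have e : centralizer ({z} : Set G) = KK z Q := le_antisymm (le_inf le_rfl hC) inf_le_left
  have QK : Q ≤ KK z Q := h.le_KK
  have hE : twoCoreOfCentralizer z = Q := by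
    change pCoreOf 2 (centralizer ({z} : Set G)) = Q
    rw [e]
    refine le_antisymm (fun y hy => ?_) (le_pCoreOf QK inf_le_right (IsPGroup.of_card cQ))
    have k := m.o2 (im ρ (pCoreOf 2 (KK z Q))) (map_le_range _ _) (le_normalizer_iff.2 <| by
        rintro _ ⟨g, rfl⟩ _ ⟨a, ha, rfl⟩
        exact ⟨g * a * g⁻¹, (mem_normalizer_iff.1 (le_normalizer_pCoreOf 2 _ g.2) a).1 ha, by
          rw [map_mul, map_mul, map_inv]⟩) ((pCoreOf_isPGroup 2 _).comap_subtype.map _)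
    exact ker ⟨y, pCoreOf_le 2 _ hy⟩ (mem_bot.1 (k.le ⟨⟨y, pCoreOf_le 2 _ hy⟩, hy, rfl⟩))
  have k1 : k ≠ 1 := fun a => D1 (by rw [← dD, a, map_one])
  have d1 : k.1 ≠ 1 := fun a => k1 (Subtype.ext a)
  have d3 : k.1 ^ 3 = 1 := congrArg Subtype.val k3
  have dz : k.1 * z = z * k.1 := mem_centralizer_singleton_iff.1 k.2.1
  have cp : centralizer (zpowers k.1 : Set G) = centralizer {k.1} := by rw [zpowers_eq_closure, centralizer_closure]
  have cd : ∀ a ∈ Q, a * k = k * a → a = 1 ∨ a = z := fun a ha e => by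
    have := h.π_conj k ha
    rw [dD, ← e, mul_inv_cancel_right] at this
    exact (h.π_zero ha).1 (d_fpf this.symm)
  obtain ⟨_, ⟨ψ⟩⟩ := m.iso
  let φ := (ψ.toMonoidHom.comp (QuotientGroup.mk' _)).comp ρ.rangeRestrict
  have φs : Function.Surjective φ :=
    (ψ.surjective.comp (QuotientGroup.mk'_surjective _)).comp ρ.rangeRestrict_surjective
  let C : Subgroup (KK z Q) := (zpowers dO).comap ρ
  have cs : C = φ.ker := by
    ext c
    exact ((map_eq_one_iff ψ ψ.injective).trans (QuotientGroup.eq_one_iff (ρ.rangeRestrict c))).symm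
  have cs' : (C.map (KK z Q).subtype).subgroupOf (KK z Q) = φ.ker :=
    (comap_map_eq_self_of_injective (subtype_injective _) _).trans cs
  have nr : ((C.map (KK z Q).subtype).subgroupOf (KK z Q)).Normal := cs' ▸ inferInstance
  have pK : C.map (KK z Q).subtype ≤ KK z Q := map_subtype_le _
  have cN : Nat.card C = 3 * Nat.card Q := by
    have k1 : ρ.ker = Q.subgroupOf _ := by
      ext c; exact ⟨ker c, Scq.rho_Q h c⟩
    rw [card_comap, inf_eq_left.2 (zpowers_le.2 (show dO ∈ ρ.range from ⟨_, dD⟩)), Nat.card_zpowers, orderOf_eq_prime D3 D1, k1,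
      card_subgroupOf_of_le QK, mul_comm]
  have kC : zpowers k ≤ C := zpowers_le.2 (by change ρ k ∈ zpowers dO; rw [dD]; exact mem_zpowers _)
  have cP : Nat.card (zpowers k) = 3 := by rw [Nat.card_zpowers, orderOf_eq_prime k3 k1]
  have fr : ∀ c x, x ∈ zpowers k → ρ c * dO * (ρ c)⁻¹ = ρ x → ∃ c', ρ c' = ρ c ∧ c' * k * c'⁻¹ = x := by
    intro c x hx e
    have hS : IsSylowIn 3 (zpowers k) C := ⟨kC, IsPGroup.of_card (n := 1) cP, by
      have := card_mul_relIndex kC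
      rw [cP, cN, cQ] at this
      rw [Nat.eq_of_mul_eq_mul_left (by norm_num) this]; norm_num⟩
    haveI : C.Normal := cs ▸ inferInstance
    obtain ⟨n, ⟨i, hi⟩, hn⟩ := hS.frattini (H := ⊤) le_normalizer_of_normal (mem_top c)
    have hi : dO ^ i = ρ n := hi
    have h1 := mul_mem (le_normalizer (inv_mem (zpow_mem_zpowers k i))) hn
    have h2 : ρ ((k ^ i)⁻¹ * (n * c)) = ρ c := by
      rw [map_mul, map_mul, map_inv, map_zpow, dD, hi, inv_mul_cancel_left]
    generalize (k ^ i)⁻¹ * (n * c) = c' at h1 h2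
    refine ⟨c', h2, mul_inv_eq_one.1 ?_⟩
    have h3 := mul_mem ((mem_normalizer_iff.1 h1 k).1 (mem_zpowers k)) (inv_mem hx)
    refine Subtype.ext (eq_one_of_coprime_of_mem (IsPGroup.of_card cQ) (ker _ ?_) ?_)
    · rw [map_mul, map_mul, map_mul, map_inv, map_inv, h2, dD, e, mul_inv_cancel]
    · rw [orderOf_coe]
      exact Nat.Coprime.coprime_dvd_left (cP ▸ Subgroup.orderOf_dvd_natCard _ h3) (by decide)
  obtain ⟨s, -, sd⟩ := fr s0 k⁻¹ (inv_mem (mem_zpowers k)) (by rw [hs, map_inv, dD])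
  have sd : s.1 * k.1 * s.1⁻¹ = k.1⁻¹ := congrArg Subtype.val sd
  refine ⟨z, zpowers k.1, ?_⟩
  rw [IsOfJankoFourTypeWith, hE, e, cp]
  refine ⟨orderOf_eq_prime (by rw [pow_two, h.zz]) h.z1, fn_extra h, cQ, fun c hc => ?_,
    ⟨C.map (KK z Q).subtype, fun a ha => ?_, pK, (normal_subgroupOf_iff_le_normalizer pK).1 nr,
      by rw [card_map_subtype, cN], ⟨nr, ⟨(QuotientGroup.quotientMulEquivOfEq cs').trans
      (QuotientGroup.quotientKerEquivOfSurjective _ φs)⟩⟩, zpowers_le.2 ⟨k, kC (mem_zpowers k), rfl⟩⟩,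
    by rw [Nat.card_zpowers, orderOf_eq_prime d3 d1], ?_, fun e => d1 ?_, zpowers_le.2 ?_⟩
  · refine ker ⟨c, hc.1⟩ (OG.ext' fun v => ?_)
    obtain ⟨a, ha, rfl⟩ := h.surj v
    rw [← h.π_conj _ ha, ← hc.2 a ha, mul_inv_cancel_right]; rfl
  · exact ⟨⟨a, QK ha⟩, by change ρ _ ∈ zpowers dO; rw [Scq.rho_Q h ⟨a, QK ha⟩ ha]; exact one_mem _, rfl⟩
  · refine le_antisymm (fun a ha => ?_) (zpowers_le.2 ⟨h.zQ, mem_centralizer_singleton_iff.2 dz.symm⟩)
    rcases cd a ha.1 (mem_centralizer_singleton_iff.1 ha.2) with rfl | rfl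
    exacts [one_mem _, mem_zpowers _]
  · have k1 : s.1 ∈ normalizer (zpowers k.1 : Set G) := mem_normalizer_fintype (by
      rintro _ ⟨i, rfl⟩
      rw [← conj_zpow, sd]
      exact zpow_mem (inv_mem (mem_zpowers _)) i)
    have k2 := mem_centralizer_singleton_iff.1 (e.le ⟨s.2, k1⟩).2
    rw [k2, mul_inv_cancel_right] at sd
    rw [← d3, pow_three]
    nth_rewrite 3 [sd]
    rw [inv_mul_cancel, mul_one]
  · let Y : Subgroup (KK z Q) := (centralizer ({k.1} : Set G)).subgroupOf _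
    have k1 : ρ.range ⊓ centralizer {dO} ≤ Y.map ρ := by
      rintro _ ⟨⟨c, rfl⟩, hg⟩
      obtain ⟨c', c1, c2⟩ := fr c k (mem_zpowers k) (by
        rw [mem_centralizer_singleton_iff.1 hg, mul_inv_cancel_right, dD])
      exact ⟨c', mem_centralizer_singleton_iff.2 (congrArg Subtype.val (mul_inv_eq_iff_eq_mul.1 c2)), c1⟩
    have k2 := commutator_mono k1 k1 m.der
    rw [← map_commutator] at k2
    obtain ⟨y, y1, y2⟩ := k2
    have y3 : y.1 ∈ ⁅Y, Y⁆.map (KK z Q).subtype := ⟨y, y1, rfl⟩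
    rw [map_commutator, subgroupOf_map_subtype, inf_comm] at y3
    have y4 : y ∈ Y := (commutator_le.2 fun a ha b hb =>
      mul_mem (mul_mem (mul_mem ha hb) (inv_mem ha)) (inv_mem hb)) y1
    have y5 : y.1 * k.1 = k.1 * y.1 := mem_centralizer_singleton_iff.1 y4
    have y6 := ker (k⁻¹ * y) (by rw [map_mul, map_inv, dD, y2, inv_mul_cancel])
    rcases cd _ y6 (by
      change k.1⁻¹ * y.1 * k.1 = k.1 * (k.1⁻¹ * y.1)
      rw [mul_assoc, y5, inv_mul_cancel_left, mul_inv_cancel_left]) with a | a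
    · exact Eq.mp (congrArg (· ∈ _) (inv_mul_eq_one.1 a).symm) y3
    · have a : y.1 = k.1 * z := inv_mul_eq_iff_eq_mul.1 a
      have k4 : k.1 = y.1 ^ 4 := by
        rw [a, Commute.mul_pow dz, pow_succ k.1, d3, one_mul, show 4 = 2 * 2 from rfl, pow_mul, pow_two z, h.zz,
          one_pow, mul_one]
      exact Eq.mp (congrArg (· ∈ _) k4.symm) (pow_mem y3 4)

end CL.Pen
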