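/-
Project PEN (S3321): coordinates for the action of `K` on `Z`.
-/
import Cfsg.Agent.Pen.D
import Cfsg.Agent.Grp.PGroupFrattini

set_option autoImplicit false

namespace CL.Pen

open Cfsg Subgroup Matrix CL.Cls CL.Grp CL.Even CL.L10 CL.Mx QuadraticMap
open scoped MatrixGroups

universe u

namespace KAx

variable {G : Type u} [Group G]

theorem coords [Finite G] {Z : Subgroup G} (hZ : IsElementaryAbelian 2 Z) (hc : Nat.card Z = 8) :
    ∃ ι : W3 → G, (∀ c c', ι (c + c') = ι c * ι c') ∧ Function.Injective ι ∧ ∀ g, g ∈ Z ↔ ∃ c, ι c = g := by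
  letI : CommGroup Z := { (inferInstance : Group Z) with mul_comm := hZ.1.1.1 }
  letI : Module F (Additive Z) := AddCommGroup.zmodModule fun m => by
    change Additive.ofMul (m.toMul ^ 2) = 0
    exact congrArg Additive.ofMul (Subtype.ext (hZ.2 _ m.toMul.2))
  have h3 : Module.finrank F (Additive Z) = 3 := by
    have := Module.natCard_eq_pow_finrank (K := F) (V := Additive Z)
    rw [Nat.card_congr Additive.toMul, hc, Nat.card_zmod] at this
    exact (Nat.pow_right_injective le_rfl (show 2 ^ 3 = _ from this)).symm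
  let e := (Module.finBasisOfFinrankEq F (Additive Z) h3).equivFun
  refine ⟨fun c => ((e.symm c).toMul : Z), fun c c' => by simp only [map_add]; rfl, fun c c' h => ?_, fun g => ?_⟩
  · exact e.symm.injective (Additive.toMul.injective (Subtype.ext h))
  · exact ⟨fun h => ⟨e (Additive.ofMul ⟨g, h⟩), by simp only [e.symm_apply_apply]; rfl⟩,
      by rintro ⟨c, rfl⟩; exact Subtype.property _⟩

theorem action {K Z : Subgroup G} {ι : W3 → G} (ha : ∀ c c', ι (c + c') = ι c * ι c') (hi : Function.Injective ι)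
    (hm : ∀ g, g ∈ Z ↔ ∃ c, ι c = g) (hK : ∀ k ∈ K, ∀ z ∈ Z, k * z * k⁻¹ ∈ Z) :
    ∃ ζ : K →* SL3, ∀ (k : K) c, k * ι c * (k : G)⁻¹ = ι ((ζ k).1 *ᵥ c) := by
  choose φ hφ using fun (k : K) c => (hm _).1 (hK k k.2 _ ((hm _).2 ⟨c, rfl⟩))
  let A : K → Matrix (Fin 3) (Fin 3) F := fun k => LinearMap.toMatrix'
    ((AddMonoidHom.mk' (φ k) fun c c' => hi (by rw [ha, hφ, hφ, hφ, ha, conj_mul])).toZModLinearMap 2)
  have hA : ∀ (k : K) c, ι (A k *ᵥ c) = k * ι c * (k : G)⁻¹ := fun k c => by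
    rw [← hφ]
    exact congrArg ι (LinearMap.toMatrix'_mulVec _ _)
  have A1 : A 1 = 1 := mulVec_injective (funext fun c => hi (by rw [hA, one_mulVec]; simp))
  have Am : ∀ k k', A (k * k') = A k * A k' := fun k k' => mulVec_injective (funext fun c => hi (by
    rw [← mulVec_mulVec, hA, hA, hA, coe_mul]
    group))
  have hd : ∀ k, (A k).det = 1 := fun k => by
    have := congrArg det (Am k k⁻¹)
    rw [mul_inv_cancel, A1, det_one, det_mul] at this
    exact (by decide : ∀ a b : F, 1 = a * b → a = 1) _ _ this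
  exact ⟨⟨⟨fun k => ⟨A k, hd k⟩, Subtype.ext A1⟩, fun k k' => Subtype.ext (Am k k')⟩, fun k c => (hA k c).symm⟩

theorem center_SL3 : center SL3 = ⊥ := eq_bot_iff.2 fun A hA => by
  obtain ⟨r, h1, h2⟩ := Matrix.SpecialLinearGroup.mem_center_iff.1 hA
  obtain rfl : r = 1 := (by decide : ∀ r : F, r ^ 3 = 1 → r = 1) r h1
  exact Subtype.ext (h2.symm.trans (map_one _))

theorem simple_SL3 : IsSimpleGroup SL3 := by
  have : IsSimpleGroup (SL3 ⧸ center SL3) := CL.SLn.isSimpleGroup_PSL (Or.inl (by simp))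
  exact ((QuotientGroup.quotientMulEquivOfEq center_SL3).trans QuotientGroup.quotientBot).symm.isSimpleGroup

def y0 : SL3 := ⟨!![0, 0, 1; 1, 0, 1; 0, 1, 0], by decide⟩

theorem y0_spec : y0 ^ 7 = 1 ∧ y0 ≠ 1 := by decide

theorem comm_eq {y w l : G} (h : y * w * y⁻¹ * w⁻¹ = y * l * y⁻¹ * l⁻¹) : l⁻¹ * w * y = y * (l⁻¹ * w) :=
  calc l⁻¹ * w * y = y * l⁻¹ * y⁻¹ * (y * l * y⁻¹ * l⁻¹) * w * y := by group
    _ = _ := by rw [← h]; group

end KAx

open KAx in
theorem ka : KA.{u} := by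
  intro G _ _ K L Z hL hZ hs cL eZ cZ ⟨hn, ⟨e0⟩⟩ hxy
  have LK : L ≤ K := hL ▸ map_subtype_le _
  have mZ : ∀ z, z ∈ Z ↔ z ∈ L ∧ ∀ l ∈ L, l * z = z * l := fun z => by
    rw [hZ]
    exact ⟨by
      rintro ⟨z, hz, rfl⟩
      exact ⟨z.2, fun l hl => congrArg Subtype.val (mem_center_iff.1 hz ⟨l, hl⟩)⟩,
      fun ⟨a, b⟩ => ⟨⟨z, a⟩, mem_center_iff.2 fun l => Subtype.ext (b l l.2), rfl⟩⟩
  have mZ' : ∀ z : L, z ∈ center L → (z : G) ∈ Z := fun z hz => hZ ▸ mem_map_of_mem _ hz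
  have ZL : Z ≤ L := fun z hz => ((mZ z).1 hz).1
  have nL : K ≤ 𝒩(L) := (normal_subgroupOf_iff_le_normalizer LK).1 hn
  have nZ : ∀ k ∈ K, ∀ z ∈ Z, k * z * k⁻¹ ∈ Z := fun k hk z hz => (mZ _).2 ⟨conj_mem (nL hk) (ZL hz), fun l hl =>
    calc l * (k * z * k⁻¹) = k * (k⁻¹ * l * k * z) * k⁻¹ := by group
      _ = _ := by rw [((mZ z).1 hz).2 _ (conj_mem' (nL hk) hl)]; group⟩
  obtain ⟨ι, ia, ii, im⟩ := coords eZ cZ
  have i0 : ι 0 = 1 := by simpa using ia 0 0
  obtain ⟨ζ, hζ⟩ := action ia ii im nZ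
  have o1 : ∀ c : W3, (1 : SL3).1 *ᵥ c = c := one_mulVec
  have ζ1 : ∀ k : K, ζ k = 1 ↔ ∀ z ∈ Z, z * k = k * z := fun k =>
    ⟨fun h z hz => by
      obtain ⟨c, rfl⟩ := (im z).1 hz
      have := hζ k c
      rw [h, o1] at this
      exact (mul_inv_eq_iff_eq_mul.1 this).symm,
    fun h => Subtype.ext (mulVec_injective (funext fun c => ii (by
      rw [← hζ, ← h _ ((im _).2 ⟨c, rfl⟩), mul_inv_cancel_right, o1])))⟩
  let e : K →* S5 × SL3 := e0.toMonoidHom.comp (QuotientGroup.mk' _)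
  have es : Function.Surjective e := e0.surjective.comp (QuotientGroup.mk'_surjective _)
  have ek : ∀ k, e k = 1 ↔ (k : G) ∈ L := fun k => e0.map_eq_one_iff.trans (QuotientGroup.eq_one_iff k)
  let ζ' : S5 × SL3 →* SL3 := (QuotientGroup.lift (L.subgroupOf K) ζ fun k hk =>
    (ζ1 k).2 fun z hz => (((mZ z).1 hz).2 k hk).symm).comp e0.symm.toMonoidHom
  have ζe : ∀ k, ζ' (e k) = ζ k := fun k => congrArg _ (e0.symm_apply_apply _)
  -- the lifts
  obtain ⟨k0, hk0⟩ := es (x5, y0)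
  have p21 : ((x5, y0) : S5 × SL3) ^ 21 = 1 :=
    Prod.ext (by decide +kernel) (by rw [Prod.pow_snd, show 21 = 7 * 3 from rfl, pow_mul, y0_spec.1, one_pow]; rfl)
  obtain ⟨k, ek1, k21⟩ : ∃ k : K, e k = (x5, y0) ∧ k ^ 21 = 1 := by
    refine ⟨k0 ^ 2 ^ 18, by rw [map_pow, hk0, pow_eq_pow_mod _ p21]; exact pow_one _, Subtype.ext ?_⟩
    have h1 := congrArg Subtype.val (pow_card_eq_one' (x := (⟨_, (ek (k0 ^ 21)).1 (by rw [map_pow, hk0, p21])⟩ : L)))
    rw [cL] at h1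
    rw [← pow_mul, mul_comm, pow_mul, show 2 ^ 18 = 2 ^ 15 * 8 from rfl, pow_mul]
    exact (congrArg (· ^ 8) h1).trans (one_pow 8)
  have ex : e (k ^ 7) = (x5, 1) := by
    rw [map_pow, ek1]
    exact Prod.ext (by decide) y0_spec.1
  have ey : e (k ^ 15) = (1, y0) := by
    rw [map_pow, ek1]
    exact Prod.ext (by decide) (by rw [Prod.pow_snd, pow_eq_pow_mod _ y0_spec.1]; exact pow_one _)
  have x3 : (k ^ 7) ^ 3 = 1 := by rw [← pow_mul, k21]
  have y7 : (k ^ 15) ^ 7 = 1 := by rw [← pow_mul, show 15 * 7 = 21 * 5 from rfl, pow_mul, k21, one_pow]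
  have : Fact (Nat.Prime 7) := ⟨by norm_num⟩
  obtain ⟨cx, cy⟩ := hxy (k ^ 7 : K) (k ^ 15 : K) (k ^ 7).2 (k ^ 15).2
    ((orderOf_coe _).trans (orderOf_eq_prime x3 fun h => by
      rw [h, map_one] at ex
      exact absurd (congrArg Prod.fst ex) (by decide)))
    ((orderOf_coe _).trans (orderOf_eq_prime y7 fun h => by
      rw [h, map_one] at ey
      exact y0_spec.2 (congrArg Prod.snd ey).symm))
    (congrArg Subtype.val (pow_mul_comm k 7 15))
  generalize k ^ 7 = x at ex x3 cx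
  generalize k ^ 15 = y at ey y7 cy
  have cy' : ∀ l ∈ L, l * y = y * l → l = 1 := fun l hl h =>
    mem_bot.1 (cy.le ⟨hl, mem_centralizer_singleton_iff.2 h⟩)
  have Z1 : Z ≠ ⊥ := fun h => by
    rw [h, card_bot] at cZ
    exact absurd cZ (by decide)
  let β : SL3 →* SL3 := ζ'.comp (MonoidHom.inr _ _)
  have βi : Function.Injective β := by
    have := simple_SL3
    refine (MonoidHom.ker_eq_bot_iff _).1 ((β.normal_ker.eq_bot_or_eq_top).resolve_right fun h => Z1 ?_)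
    have h1 : ζ y = 1 := by
      rw [← ζe, ey]
      exact (h ▸ mem_top y0 : y0 ∈ β.ker)
    exact eq_bot_iff.2 fun z hz => cy' z (ZL hz) ((ζ1 y).1 h1 z hz)
  have βs : Function.Surjective β := Finite.surjective_of_injective βi
  have ζβ : ∀ g, ζ' g = β g.2 := fun g => by
    have h1 : ζ' (g.1, 1) ∈ center SL3 := mem_center_iff.2 fun γ => by
      obtain ⟨δ, rfl⟩ := βs γ
      change ζ' (1, δ) * _ = _ * ζ' (1, δ)
      simp [← map_mul]
    rw [center_SL3, mem_bot] at h1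
    rw [← one_mul (β _), ← h1]
    change _ = _ * ζ' (1, g.2)
    simp [← map_mul]
  let p : K →* S5 × SL3 := ((MonoidHom.id _).prodMap β).comp e
  have hp : ∀ k, p k = ((e k).1, β (e k).2) := fun _ => rfl
  refine ⟨p, ι,
    { LK := LK
      ZL := ZL
      surj := (Function.surjective_id.prodMap βs).comp es
      ker := fun k => by rw [← ek, hp, Prod.mk_eq_one, map_eq_one_iff β βi, Prod.ext_iff]; rfl
      ι_add := ia
      ι_inj := fun h => ii (h.trans i0.symm)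
      mem_Z := im _
      ι_conj := fun k c => by rw [hp, ← ζβ, ζe, hζ]
      card := cL
      comm := fun {a b} ha hb => mZ' (⟨a, ha⟩ * ⟨b, hb⟩ * (⟨a, ha⟩ : L)⁻¹ * (⟨b, hb⟩ : L)⁻¹)
        (hs.2.2 ▸ commutator_mem_commutator (mem_top _) (mem_top _))
      sq := fun {l} hl => by
        have := mZ' _ (hs.2.1 ▸ pow_mem_frattini hs.1 ⟨l, hl⟩)
        rwa [pow_two] at this
      nab := ?_
      xf := ⟨x, by rw [hp, ex, map_one], fun l hl h => ?_⟩
      yf := ⟨y, by rw [hp, ey], ?_, fun l hl h => ?_⟩ }⟩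
  · by_contra h
    push Not at h
    refine Z1 ?_
    rw [hZ, ← hs.2.2, _root_.commutator, commutator_eq_bot_iff_le_centralizer.2
      fun a _ b _ => Subtype.ext (h b b.2 a a.2), Subgroup.map_bot]
  · obtain ⟨c, hc⟩ : ∃ c, c = (x : G) * l * (x : G)⁻¹ * l⁻¹ := ⟨_, rfl⟩
    rw [← hc] at h
    have h1 : (x : G) * l * (x : G)⁻¹ = c * l := by rw [hc, inv_mul_cancel_right]
    have h2 : (x : G) * c * (x : G)⁻¹ = c :=
      mul_inv_eq_iff_eq_mul.2 (mem_centralizer_singleton_iff.1 (cx.ge h).2).symm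
    have h4 : ∀ a b : G, (x : G) * (a * b) * (x : G)⁻¹ = x * a * (x : G)⁻¹ * (x * b * (x : G)⁻¹) :=
      fun _ _ => conj_mul.symm
    have h3 : (x : G) ^ 3 * l * ((x : G) ^ 3)⁻¹ = c ^ 2 * c * l := by
      rw [show (x : G) ^ 3 * l * ((x : G) ^ 3)⁻¹ = x * (x * (x * l * (x : G)⁻¹) * (x : G)⁻¹) * (x : G)⁻¹ by
        rw [pow_succ, pow_two]; group, h1, h4 c l, h1, h2, h4 c, h4 c l, h1, h2, pow_two]
      group
    rw [← coe_pow, x3, eZ.2 c h, coe_one, one_mul, one_mul, inv_one, mul_one, right_eq_mul] at h3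
    rw [h3, one_mul] at h1
    exact cx.le ⟨hl, mem_centralizer_singleton_iff.2 (mul_inv_eq_iff_eq_mul.1 h1).symm⟩
  · rw [hp, ey, orderOf_injective β βi]
    exact orderOf_eq_prime y0_spec.1 y0_spec.2
  · let f : Z → Z := fun w => ⟨y * w * (y : G)⁻¹ * (w : G)⁻¹, mul_mem (nZ y y.2 w w.2) (inv_mem w.2)⟩
    have fi : Function.Injective f := fun w w' h => Subtype.ext (inv_mul_eq_one.1
      (cy' _ (mul_mem (inv_mem (ZL w'.2)) (ZL w.2)) (comm_eq (congrArg Subtype.val h)))).symm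
    obtain ⟨w, hw⟩ := Finite.surjective_of_injective fi ⟨_, h⟩
    rw [inv_mul_eq_one.1 (cy' _ (mul_mem (inv_mem hl) (ZL w.2)) (comm_eq (congrArg Subtype.val hw)))]
    exact w.2

end CL.Pen
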