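/-
Project PEN (S3321): coordinates for `K` from the module theorem.
-/
import Cfsg.Agent.Pen.D

set_option autoImplicit false

namespace CL.Pen

open Cfsg Subgroup Matrix CL.Cls CL.Grp CL.Even CL.L10 CL.Mx QuadraticMap
open scoped MatrixGroups

universe u

namespace KBx

variable {G : Type u} [Group G] {K L Z : Subgroup G} {p : K →* S5 × SL3} {ι : W3 → G}

theorem cen (h : KZ K L Z p ι) {l z : G} (hl : l ∈ L) (hz : z ∈ Z) : l * z = z * l := by
  obtain ⟨c, rfl⟩ := h.mem_Z.1 hz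
  have := h.ι_conj ⟨l, h.LK hl⟩ c
  rw [(h.ker ⟨l, h.LK hl⟩).2 hl] at this
  exact mul_inv_eq_iff_eq_mul.1 (this.trans (congrArg ι (one_mulVec c)))

theorem conjL (h : KZ K L Z p ι) (k : K) {l : G} (hl : l ∈ L) : k * l * (k : G)⁻¹ ∈ L := by
  have := (h.ker (k * ⟨l, h.LK hl⟩ * k⁻¹)).1 (by
    rw [map_mul, map_mul, (h.ker ⟨l, h.LK hl⟩).2 hl, map_inv, mul_one, mul_inv_cancel])
  simpa using this

theorem conjZ (h : KZ K L Z p ι) (k : K) {z : G} (hz : z ∈ Z) : k * z * (k : G)⁻¹ ∈ Z := by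
  obtain ⟨c, rfl⟩ := h.mem_Z.1 hz
  exact h.mem_Z.2 ⟨_, (h.ι_conj k c).symm⟩

theorem ι_zero (h : KZ K L Z p ι) : ι 0 = 1 := by
  have := h.ι_add 0 0
  rw [add_zero] at this
  exact (mul_eq_left.1 this.symm)

theorem w3_two (c : W3) : c + c = 0 := funext fun _ => CharTwo.add_self_eq_zero _

theorem ι_sq (h : KZ K L Z p ι) (c : W3) : ι c * ι c = 1 := by rw [← h.ι_add, w3_two, ι_zero h]

theorem ι_injective (h : KZ K L Z p ι) : Function.Injective ι := fun c c' e => by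
  have : c + c' = 0 := h.ι_inj (by rw [h.ι_add, e, ι_sq h])
  rw [← w3_two c'] at this
  exact add_right_cancel this

theorem card_Z (h : KZ K L Z p ι) : Nat.card Z = 8 := by
  have : Nat.card W3 = Nat.card Z := Nat.card_congr (Equiv.ofBijective (fun c => ⟨ι c, h.mem_Z.2 ⟨c, rfl⟩⟩)
    ⟨fun a b e => ι_injective h (congrArg Subtype.val e), fun z => by
      obtain ⟨c, e⟩ := h.mem_Z.1 z.2
      exact ⟨c, Subtype.ext e⟩⟩)
  rw [← this]; simp

/-- the quotient `L / Z` -/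
structure MQ {M : Type u} [AddCommGroup M] (L Z : Subgroup G) (μ : G → M) : Prop where
  mul : ∀ {a b}, a ∈ L → b ∈ L → μ (a * b) = μ a + μ b
  surj : ∀ m, ∃ l ∈ L, μ l = m
  zero : ∀ {l}, l ∈ L → (μ l = 0 ↔ l ∈ Z)
  card : Nat.card M = 4096

theorem exists_MQ [Finite G] (h : KZ K L Z p ι) : ∃ (M : Type u) (_ : AddCommGroup M) (μ : G → M), MQ L Z μ := by
  classical
  have hn : (Z.subgroupOf L).Normal := ⟨fun z hz l => by
    rw [mem_subgroupOf] at hz ⊢
    simp only [coe_mul, coe_inv]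
    rw [cen h l.2 hz, mul_inv_cancel_right]; exact hz⟩
  let cg : CommGroup (L ⧸ Z.subgroupOf L) :=
    { (inferInstance : Group (L ⧸ Z.subgroupOf L)) with
      mul_comm := fun a b => by
        obtain ⟨a, rfl⟩ := QuotientGroup.mk_surjective a
        obtain ⟨b, rfl⟩ := QuotientGroup.mk_surjective b
        rw [← QuotientGroup.mk_mul, ← QuotientGroup.mk_mul, QuotientGroup.eq, mem_subgroupOf]
        have := h.comm (L.inv_mem b.2) (L.inv_mem a.2)
        simpa [mul_assoc] using this }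
  refine ⟨Additive (L ⧸ Z.subgroupOf L), inferInstance,
    fun l => if hl : l ∈ L then Additive.ofMul (QuotientGroup.mk ⟨l, hl⟩) else 0, fun {a b} ha hb => ?_, fun m => ?_,
    fun {l} hl => ?_, ?_⟩
  · rw [dif_pos ha, dif_pos hb, dif_pos (L.mul_mem ha hb)]; rfl
  · obtain ⟨l, e⟩ := QuotientGroup.mk_surjective (Additive.toMul m)
    exact ⟨l, l.2, by rw [dif_pos l.2]; exact congrArg Additive.ofMul e⟩
  · rw [dif_pos hl]
    exact (QuotientGroup.eq_one_iff (N := Z.subgroupOf L) ⟨l, hl⟩).trans mem_subgroupOf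
  · have e := Subgroup.card_eq_card_quotient_mul_card_subgroup (Z.subgroupOf L)
    rw [h.card, Nat.card_congr (subgroupOfEquivOfLe h.ZL).toEquiv, card_Z h] at e
    change Nat.card (L ⧸ Z.subgroupOf L) = 4096
    omega

variable {M : Type u} [AddCommGroup M] {μ : G → M}

theorem MQ.eq (q : MQ L Z μ) {a b : G} (ha : a ∈ L) (hb : b ∈ L) (e : μ a = μ b) : ∃ z ∈ Z, a = b * z := by
  have h1 : b⁻¹ * a ∈ L := L.mul_mem (L.inv_mem hb) ha
  refine ⟨b⁻¹ * a, (q.zero h1).1 ?_, by group⟩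
  have := q.mul hb h1
  rw [mul_inv_cancel_left, e] at this
  exact left_eq_add.1 this

theorem MQ.mulZ (h : KZ K L Z p ι) (q : MQ L Z μ) {a z : G} (ha : a ∈ L) (hz : z ∈ Z) : μ (a * z) = μ a := by
  rw [q.mul ha (h.ZL hz), (q.zero (h.ZL hz)).2 hz, add_zero]

theorem MQ.act (h : KZ K L Z p ι) (q : MQ L Z μ) (k : K) :
    ∃ A : M →+ M, ∀ l ∈ L, A (μ l) = μ (k * l * (k : G)⁻¹) := by
  choose s hs hs' using q.surj
  have key : ∀ l ∈ L, μ (k * s (μ l) * (k : G)⁻¹) = μ (k * l * (k : G)⁻¹) := fun l hl => by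
    obtain ⟨z, hz, e⟩ := q.eq (hs _) hl (hs' _)
    rw [e, show k * (l * z) * (k : G)⁻¹ = k * l * (k : G)⁻¹ * (k * z * (k : G)⁻¹) by group,
      q.mulZ h (conjL h k hl) (conjZ h k hz)]
  refine ⟨AddMonoidHom.mk' (fun m => μ (k * s m * (k : G)⁻¹)) fun m m' => ?_, key⟩
  conv_lhs => rw [← hs' m, ← hs' m', ← q.mul (hs m) (hs m'), key _ (L.mul_mem (hs m) (hs m'))]
  rw [← q.mul (conjL h k (hs m)) (conjL h k (hs m'))]
  congr 1; group

theorem MQ.exB (h : KZ K L Z p ι) (q : MQ L Z μ) :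
    ∃ B : M →+ M →+ W3, ∀ a ∈ L, ∀ b ∈ L, ι (B (μ a) (μ b)) = a * b * a⁻¹ * b⁻¹ := by
  choose s hs hs' using q.surj
  have ex : ∀ m m', ∃ c, ι c = s m * s m' * (s m)⁻¹ * (s m')⁻¹ := fun m m' => h.mem_Z.1 (h.comm (hs m) (hs m'))
  choose b hb using ex
  have key : ∀ x ∈ L, ∀ y ∈ L, ι (b (μ x) (μ y)) = x * y * x⁻¹ * y⁻¹ := fun x hx y hy => by
    obtain ⟨z, hz, e⟩ := q.eq (hs _) hx (hs' _)
    obtain ⟨w, hw, e'⟩ := q.eq (hs _) hy (hs' _)
    have c1 : Commute (y * w) z := cen h (L.mul_mem hy (h.ZL hw)) hz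
    have c2 : Commute x⁻¹ w := cen h (L.inv_mem hx) hw
    rw [hb, e, e']
    calc x * z * (y * w) * (x * z)⁻¹ * (y * w)⁻¹ = x * (z * (y * w)) * z⁻¹ * x⁻¹ * (y * w)⁻¹ := by group
      _ = x * y * (w * x⁻¹) * (y * w)⁻¹ := by rw [← c1.eq]; group
      _ = _ := by rw [← c2.eq]; group
  refine ⟨AddMonoidHom.mk' (fun m => AddMonoidHom.mk' (b m) fun m' m'' => ?_) fun m m' => ?_, key⟩
  · obtain ⟨x, hx, rfl⟩ := q.surj m
    obtain ⟨y, hy, rfl⟩ := q.surj m'
    obtain ⟨w, hw, rfl⟩ := q.surj m''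
    apply ι_injective h
    rw [← q.mul hy hw, h.ι_add, key x hx _ (L.mul_mem hy hw), key x hx y hy, key x hx w hw]
    have c := cen h hy (h.comm hx hw)
    calc x * (y * w) * x⁻¹ * (y * w)⁻¹ = x * y * x⁻¹ * y⁻¹ * (y * (x * w * x⁻¹ * w⁻¹)) * y⁻¹ := by group
      _ = _ := by rw [c]; group
  · ext1 m''
    obtain ⟨x, hx, rfl⟩ := q.surj m
    obtain ⟨y, hy, rfl⟩ := q.surj m'
    obtain ⟨w, hw, rfl⟩ := q.surj m''
    apply ι_injective h
    simp only [AddMonoidHom.add_apply, AddMonoidHom.mk'_apply]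
    rw [← q.mul hx hy, add_comm, h.ι_add, key _ (L.mul_mem hx hy) w hw, key x hx w hw, key y hy w hw]
    have c := cen h hx (h.comm hy hw)
    calc x * y * w * (x * y)⁻¹ * w⁻¹ = x * (y * w * y⁻¹ * w⁻¹) * (w * x⁻¹ * w⁻¹) := by group
      _ = _ := by rw [c]; group

theorem MQ.exS (h : KZ K L Z p ι) (q : MQ L Z μ) : ∃ s : M → W3, ∀ a ∈ L, ι (s (μ a)) = a * a := by
  choose s hs hs' using q.surj
  have ex : ∀ m, ∃ c, ι c = s m * s m := fun m => h.mem_Z.1 (h.sq (hs m))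
  choose b hb using ex
  refine ⟨b, fun x hx => ?_⟩
  obtain ⟨z, hz, e⟩ := q.eq (hs _) hx (hs' _)
  obtain ⟨c, rfl⟩ := h.mem_Z.1 hz
  rw [hb, e]
  calc x * ι c * (x * ι c) = x * (ι c * x) * ι c := by group
    _ = x * x * (ι c * ι c) := by rw [← cen h hx hz]; group
    _ = _ := by rw [ι_sq h, mul_one]

end KBx

open KBx

theorem kb (hM : MOD.{u}) : KB.{u} := by
  intro G _ _ K L Z p ι h
  obtain ⟨M, _, μ, q⟩ := exists_MQ h
  choose A hA using q.act h
  obtain ⟨B, hB⟩ := q.exB h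
  obtain ⟨s, hs⟩ := q.exS h
  have Amul : ∀ k k' m, A (k * k') m = A k (A k' m) := fun k k' m => by
    obtain ⟨l, hl, rfl⟩ := q.surj m
    rw [hA _ l hl, hA _ l hl, hA _ _ (conjL h k' hl)]
    congr 1; simp only [coe_mul]; group
  have AL1 : ∀ k : K, (k : G) ∈ L → ∀ m, A k m = m := fun k hk m => by
    obtain ⟨l, hl, rfl⟩ := q.surj m
    rw [hA _ l hl, show k * l * (k : G)⁻¹ = k * l * (k : G)⁻¹ * l⁻¹ * l by group,
      q.mul (h.ZL (h.comm hk hl)) hl, (q.zero (h.ZL (h.comm hk hl))).2 (h.comm hk hl), zero_add]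
  have Aeq : ∀ k k' : K, p k = p k' → ∀ m, A k m = A k' m := fun k k' e m => by
    rw [show k = k' * (k'⁻¹ * k) by group, Amul,
      AL1 (k'⁻¹ * k) ((h.ker _).1 (by rw [map_mul, map_inv, e, inv_mul_cancel]))]
  choose t ht using h.surj
  have Afix : ∀ k : K, (∀ l ∈ L, k * l * (k : G)⁻¹ * l⁻¹ ∈ Z → l ∈ Z) → ∀ m, A k m = m → m = 0 := fun k hk m e => by
    obtain ⟨l, hl, rfl⟩ := q.surj m
    rw [hA _ l hl] at e
    obtain ⟨z, hz, e'⟩ := q.eq (conjL h k hl) hl e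
    refine (q.zero hl).2 (hk l hl ?_)
    rw [e', cen h hl hz, mul_inv_cancel_right]; exact hz
  have AB : ∀ (k : K) m m', B (A k m) (A k m') = (p k).2.1 *ᵥ B m m' := fun k m m' => by
    obtain ⟨x, hx, rfl⟩ := q.surj m
    obtain ⟨y, hy, rfl⟩ := q.surj m'
    apply ι_injective h
    rw [hA _ x hx, hA _ y hy, hB _ (conjL h k hx) _ (conjL h k hy), ← h.ι_conj, hB x hx y hy]
    group
  have mg : MG (fun σ => A (t (σ, 1))) (fun γ => A (t (1, γ))) :=
    { a_one := fun m => AL1 _ ((h.ker _).1 (ht _)) m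
      a_mul := fun σ τ m => by
        rw [← Amul]; exact Aeq _ _ (by rw [map_mul, ht, ht, ht, Prod.mk_mul_mk, mul_one]) m
      g_one := fun m => AL1 _ ((h.ker _).1 (ht _)) m
      g_mul := fun σ τ m => by
        rw [← Amul]; exact Aeq _ _ (by rw [map_mul, ht, ht, ht, Prod.mk_mul_mk, mul_one]) m
      comm := fun σ γ m => by
        rw [← Amul, ← Amul]; exact Aeq _ _ (by simp only [map_mul, ht, Prod.mk_mul_mk, mul_one, one_mul]) m
      card := q.card
      two := fun m => by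
        obtain ⟨l, hl, rfl⟩ := q.surj m
        rw [← q.mul hl hl]; exact (q.zero (L.mul_mem hl hl)).2 (h.sq hl)
      xf := fun m e => by
        obtain ⟨x, hx, hf⟩ := h.xf
        exact Afix x hf m ((Aeq _ _ (hx.trans (ht _).symm) m).trans e)
      yf := by
        obtain ⟨y, hy, ho, hf⟩ := h.yf
        exact ⟨(p y).2, ho, fun m e => Afix y hf m ((Aeq _ _ (by rw [ht, ← hy]) m).trans e)⟩ }
  have mb : MB (fun σ => A (t (σ, 1))) (fun γ => A (t (1, γ))) B s :=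
    { B_a := fun σ m m' => by rw [AB, ht]; simp
      B_g := fun γ m m' => by rw [AB, ht]
      B_symm := fun m m' => by
        obtain ⟨x, hx, rfl⟩ := q.surj m
        obtain ⟨y, hy, rfl⟩ := q.surj m'
        apply ι_injective h
        rw [eq_inv_of_mul_eq_one_left (ι_sq h (B (μ x) (μ y))), hB x hx y hy, hB y hy x hx]
        group
      B_ne := by
        obtain ⟨a, ha, b, hb, ne⟩ := h.nab
        refine ⟨μ a, μ b, fun e => ne ?_⟩
        have := hB a ha b hb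
        rw [e, ι_zero h] at this
        calc a * b = a * b * a⁻¹ * b⁻¹ * (b * a) := by group
          _ = _ := by rw [← this, one_mul]
      s_add := fun m m' => by
        obtain ⟨x, hx, rfl⟩ := q.surj m
        obtain ⟨y, hy, rfl⟩ := q.surj m'
        apply ι_injective h
        rw [← q.mul hx hy, h.ι_add, h.ι_add, hs _ (L.mul_mem hx hy), hs x hx, hs y hy,
          eq_inv_of_mul_eq_one_left (ι_sq h (B (μ x) (μ y))), hB x hx y hy]
        have c := cen h (L.mul_mem (L.mul_mem hx hy) hy) (Z.inv_mem (h.comm hx hy))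
        calc x * y * (x * y) = x * ((x * y * x⁻¹ * y⁻¹)⁻¹ * (x * y * y)) := by group
          _ = _ := by rw [← c]; group
      s_g := fun γ m => by
        obtain ⟨x, hx, rfl⟩ := q.surj m
        apply ι_injective h
        have e := h.ι_conj (t (1, γ)) (s (μ x))
        rw [ht] at e
        rw [hA _ x hx, hs _ (conjL h _ hx), ← e, hs x hx]
        group }
  obtain ⟨α, φ, al, e1, e2, e3⟩ := hM M _ _ B s mg mb
  refine ⟨α, fun l => φ (μ l), al, h.LK, h.ZL, h.surj, h.ker, h.ι_add, h.ι_inj, h.mem_Z, h.ι_conj,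
    fun ha hb => by rw [q.mul ha hb, map_add], fun m => ?_, fun hl => by rw [φ.map_eq_zero_iff, q.zero hl],
    fun k l hl => ?_, fun {a b} ha hb => ?_, fun {l} hl => by rw [← e3, hs l hl]⟩
  · obtain ⟨l, hl, e⟩ := q.surj (φ.symm m)
    exact ⟨l, hl, by rw [e, φ.apply_symm_apply]⟩
  · rw [← e1, ← Amul, ← hA k l hl]
    exact congrArg φ (Aeq _ _ (by simp only [map_mul, ht, Prod.mk_mul_mk, mul_one, one_mul]) _)
  · rw [← e2, hB a ha b hb]; group

end CL.Pen
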