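/-
Project PEN (S3321): the action of `S₅ × L₃(2)` on a module of order `2 ^ 12`.
-/
import Cfsg.Agent.Pen.D
import Cfsg.Agent.Cls.SLnBasic

set_option autoImplicit false

namespace CL.Pen

open Cfsg Subgroup Matrix CL.Cls CL.Grp CL.Even CL.L10 CL.Mx QuadraticMap
open scoped MatrixGroups

universe u

namespace MAx

variable {M : Type u} [AddCommGroup M] {a : S5 → M →+ M} {g : SL3 → M →+ M}

theorem cnt [Finite M] {p : ℕ} (hp : p.Prime) (w : M →+ M) (hw : ∀ m, w^[p] m = m) (J K : AddSubgroup M)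
    (hJ : ∀ m ∈ J, w m ∈ J) (hK : ∀ m, m ∈ K ↔ m ∈ J ∧ w m = m) : Nat.card J ≡ Nat.card K [MOD p] := by
  classical
  have := Fact.mk hp
  have := Fintype.ofFinite J
  let f : Function.End J := fun m => ⟨w m, hJ _ m.2⟩
  have h1 : ∀ n (m : J), (f^[n] m).1 = w^[n] m := fun n => by
    induction n with
    | zero => exact fun _ => rfl
    | succ n ih => exact fun m => ih (f m)
  have h2 := Equiv.Perm.card_fixedPoints_modEq (f := f) (p := p) (n := 1) (by
    rw [pow_one]; exact funext fun m => Subtype.ext ((h1 p m).trans (hw m)))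
  rw [← Nat.card_eq_fintype_card, ← Nat.card_eq_fintype_card] at h2
  have e : Function.fixedPoints f ≃ K := ⟨fun m => ⟨m.1.1, (hK _).2 ⟨m.1.2, congrArg Subtype.val m.2⟩⟩,
    fun m => ⟨⟨m.1, ((hK _).1 m.2).1⟩, Subtype.ext ((hK _).1 m.2).2⟩, fun _ => rfl, fun _ => rfl⟩
  rwa [Nat.card_congr e] at h2

/-- commutator space -/
def I (w : M →+ M) : AddSubgroup M := (w + AddMonoidHom.id M).range
/-- fixed space -/
def C (w : M →+ M) : AddSubgroup M := (w + AddMonoidHom.id M).ker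

theorem mem_I {w : M →+ M} {x : M} : x ∈ I w ↔ ∃ m, w m + m = x := Iff.rfl

def f5 : S5 := finRotate 5

theorem pm : ∀ i j k : Fin 3, i ≠ j → k ≠ j → i ≠ k → ∃ δ ∈ [1, t3 0 1 * t3 1 0 * t3 0 1, t3 0 2 * t3 2 0 * t3 0 2,
    t3 1 2 * t3 2 1 * t3 1 2, t3 0 1 * t3 1 0 * t3 0 1 * (t3 1 2 * t3 2 1 * t3 1 2),
    t3 1 2 * t3 2 1 * t3 1 2 * (t3 0 1 * t3 1 0 * t3 0 1)],
    δ * t3 0 1 = t3 i j * δ ∧ δ * t3 2 1 = t3 k j * δ ∧ δ * t3 0 2 = t3 i k * δ := by decide +kernel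

theorem third : ∀ i j : Fin 3, i ≠ j → ∃ k, k ≠ j ∧ i ≠ k := by decide

variable (h : MG a g)
include h

theorem fin : Finite M := Nat.finite_of_card_ne_zero (by rw [h.card]; norm_num)

theorem eq0 {x y : M} : x + y = 0 ↔ x = y :=
  ⟨fun e => by rw [← add_zero x, ← h.two y, ← add_assoc, e, zero_add], fun e => e ▸ h.two x⟩

theorem mem_C {w : M →+ M} {m : M} : m ∈ C w ↔ w m = m := eq0 h

theorem pw (J : AddSubgroup M) : ∃ k ≤ 12, Nat.card J = 2 ^ k :=
  (Nat.dvd_prime_pow Nat.prime_two).1 (by have := J.card_addSubgroup_dvd_card; rwa [h.card] at this)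

theorem IC (w : M →+ M) : Nat.card (C w) * Nat.card (I w) = 4096 := by
  rw [← h.card, AddSubgroup.card_eq_card_quotient_mul_card_addSubgroup (C w), mul_comm]
  exact congrArg (· * _) (Nat.card_congr (QuotientAddGroup.quotientKerEquivRange _).toEquiv.symm)

theorem nt (e : ∀ m : M, m = 0) : False := by
  have : Subsingleton M := ⟨fun x y => (e x).trans (e y).symm⟩
  have := Nat.card_of_subsingleton (0 : M)
  rw [h.card] at this
  omega

theorem f5_it (m : M) : (a f5)^[5] m = m := by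
  change a f5 (a f5 (a f5 (a f5 (a f5 m)))) = m
  simp only [← h.a_mul]
  rw [show f5 * (f5 * (f5 * (f5 * f5))) = 1 by decide, h.a_one]

theorem fpf (m : M) (e : a f5 m = m) : m = 0 := by
  have := fin h
  obtain ⟨y, y7, hy⟩ := h.yf
  have h7 := cnt (p := 7) (by norm_num) (g y) (fun m => by
      change g y (g y (g y (g y (g y (g y (g y m)))))) = m
      simp only [← h.g_mul]
      rw [show y * (y * (y * (y * (y * (y * y))))) = y ^ 7 by simp only [pow_succ', pow_zero, mul_one], ← y7,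
        pow_orderOf_eq_one, h.g_one]) (C (a f5)) ⊥
    (fun m hm => (mem_C h).2 (by rw [h.comm, (mem_C h).1 hm]))
    fun m => ⟨fun e => by rw [AddSubgroup.mem_bot.1 e]; exact ⟨zero_mem _, map_zero _⟩, fun e => hy m e.2⟩
  have h5 := cnt (p := 5) (by norm_num) (a f5) (f5_it h) ⊤ (C (a f5)) (fun _ _ => trivial)
    fun m => by simp [mem_C h]
  obtain ⟨k, hk, ek⟩ := pw h (C (a f5))
  rw [AddSubgroup.card_top, h.card, ek] at h5
  rw [AddSubgroup.card_bot, ek] at h7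
  have : k = 0 ∨ k = 12 := by interval_cases k <;> simp_all [Nat.ModEq]
  rcases this with rfl | rfl
  · exact AddSubgroup.mem_bot.1 (AddSubgroup.card_eq_one.1 ek ▸ (mem_C h).2 e)
  · have ht : C (a f5) = ⊤ := AddSubgroup.eq_top_of_card_eq _ (ek.trans h.card.symm)
    have h1 : ∀ m, a f5 m = m := fun m => (mem_C h).1 (ht ▸ AddSubgroup.mem_top m)
    obtain ⟨σ, hσ⟩ : ∃ σ : S5, x5 * f5 = σ * (f5 * σ⁻¹) := by decide +kernel
    refine h.xf m ?_
    conv_lhs => rw [← h1 m, ← h.a_mul, hσ, h.a_mul, h.a_mul, h1, ← h.a_mul, mul_inv_cancel, h.a_one]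

theorem lA {J : AddSubgroup M} (hJ : ∀ m ∈ J, a f5 m ∈ J) :
    Nat.card J = 1 ∨ Nat.card J = 16 ∨ 256 ≤ Nat.card J := by
  have := fin h
  have h5 := cnt (p := 5) (by norm_num) (a f5) (f5_it h) J ⊥ hJ
    fun m => ⟨fun e => by rw [AddSubgroup.mem_bot.1 e]; exact ⟨zero_mem _, map_zero _⟩, fun e => fpf h m e.2⟩
  obtain ⟨k, hk, ek⟩ := pw h J
  rw [AddSubgroup.card_bot, ek] at h5
  rw [ek]
  interval_cases k <;> simp_all [Nat.ModEq]

theorem lA' {J K : AddSubgroup M} (hK : ∀ m ∈ K, a f5 m ∈ K) (le : K ≤ J) (c : Nat.card J = 16) : K = ⊥ ∨ K = J := by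
  have := fin h
  have := AddSubgroup.card_le_of_le le
  rcases lA h hK with e | e | e
  exacts [.inl (AddSubgroup.card_eq_one.1 e), .inr (AddSubgroup.eq_of_le_of_card_ge le (by omega)), by omega]

theorem fI (γ : SL3) : ∀ m ∈ I (g γ), a f5 m ∈ I (g γ) := by
  rintro _ ⟨m, rfl⟩
  exact ⟨a f5 m, by change _ = a f5 (g γ m + m); rw [map_add, h.comm]; rfl⟩

theorem lB {J : AddSubgroup M} (hJ : ∀ m ∈ J, a f5 m ∈ J) (c : Nat.card J = 16) {γ : SL3} (h2 : γ * γ = 1)
    (hw : ∀ m ∈ J, g γ m ∈ J) : ∀ m ∈ J, g γ m = m := fun m hm => by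
  rcases lA' h (K := J ⊓ C (g γ)) (fun m hm => ⟨hJ m hm.1, (mem_C h).2 (by rw [← h.comm, (mem_C h).1 hm.2])⟩)
    inf_le_left c with e | e
  · refine (eq0 h).1 (AddSubgroup.mem_bot.1 (e ▸ (⟨add_mem (hw m hm) hm, (mem_C h).2 ?_⟩ : _ ∈ J ⊓ C (g γ))))
    rw [map_add, ← h.g_mul, h2, h.g_one, add_comm]
  · exact (mem_C h).1 (e.ge hm).2

theorem inj (δ : SL3) : Function.Injective (g δ) := fun x y e => by
  rw [← h.g_one x, ← h.g_one y, ← inv_mul_cancel δ, h.g_mul, h.g_mul, e]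

theorem surj (δ : SL3) (m : M) : ∃ x, g δ x = m := ⟨g δ⁻¹ m, by rw [← h.g_mul, mul_inv_cancel, h.g_one]⟩

theorem cI {δ γ γ' : SL3} (e : δ * γ = γ' * δ) : I (g γ') = (I (g γ)).map (g δ) := by
  have k : ∀ m, g δ (g γ m + m) = g γ' (g δ m) + g δ m := fun m => by rw [map_add, ← h.g_mul, e, h.g_mul]
  refine le_antisymm ?_ ?_
  · rintro _ ⟨m, rfl⟩
    obtain ⟨x, rfl⟩ := surj h δ m
    exact ⟨_, ⟨x, rfl⟩, k x⟩
  · rintro _ ⟨_, ⟨m, rfl⟩, rfl⟩
    exact ⟨g δ m, (k m).symm⟩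

theorem cC {δ γ γ' : SL3} (e : δ * γ = γ' * δ) : C (g γ') = (C (g γ)).map (g δ) := by
  refine le_antisymm (fun m hm => ?_) ?_
  · obtain ⟨x, rfl⟩ := surj h δ m
    exact ⟨x, (mem_C h).2 (inj h δ (by rw [← h.g_mul, e, h.g_mul, (mem_C h).1 hm])), rfl⟩
  · rintro _ ⟨m, hm, rfl⟩
    exact (mem_C h).2 (by rw [← h.g_mul, ← e, h.g_mul, (mem_C h).1 hm])

theorem cN {δ γ γ' : SL3} (e : δ * γ = γ' * δ) : Nat.card (I (g γ')) = Nat.card (I (g γ)) := by
  rw [cI h e, AddSubgroup.card_map_of_injective (inj h δ)]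

theorem fixall {m : M} (e : ∀ i j, i ≠ j → g (t3 i j) m = m) : m = 0 := by
  obtain ⟨y, -, hy⟩ := h.yf
  let H : Subgroup SL3 :=
    { carrier := {γ | g γ m = m}
      one_mem' := h.g_one m
      mul_mem' := fun {x y} hx hy => by
        change g (x * y) m = m
        rw [h.g_mul, show g y m = m from hy]; exact hx
      inv_mem' := fun {x} hx => inj h x (by rw [← h.g_mul, mul_inv_cancel, h.g_one]; exact hx.symm) }
  have := CL.SLn.eq_top_of_transvection_mem H fun i j hij c => by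
    rcases (by decide : ∀ c : F, c = 0 ∨ c = 1) c with rfl | rfl
    · rw [SpecialLinearGroup.transvection_coeff_zero]; exact one_mem _
    · have := e i j hij
      rwa [t3, dif_pos hij] at this
  exact hy m (show y ∈ H from this ▸ mem_top y)

theorem c01 : Nat.card (I (g (t3 0 1))) = 16 := by
  have := fin h
  have le : I (g (t3 0 1)) ≤ C (g (t3 0 1)) := by
    rintro _ ⟨m, rfl⟩
    refine (mem_C h).2 ?_
    change g _ (g _ m + m) = g _ m + m
    rw [map_add, ← h.g_mul, show t3 0 1 * t3 0 1 = 1 by decide, h.g_one, add_comm]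
  have h1 := AddSubgroup.card_le_of_le le
  have h2 := IC h (g (t3 0 1))
  rcases lA h (fI h (t3 0 1)) with e | e | e
  · refine (nt h fun m => fixall h fun i j hij => (eq0 h).1 ?_).elim
    obtain ⟨k, h1, h2⟩ := third i j hij
    obtain ⟨δ, -, d, -⟩ := pm i j k hij h1 h2
    exact AddSubgroup.mem_bot.1 (AddSubgroup.card_eq_one.1 ((cN h d).trans e) ▸ mem_I.2 ⟨m, rfl⟩)
  · exact e
  · nlinarith

theorem dich {u v : SL3} (v2 : v * v = 1) (c : u * v = v * u) (hu : Nat.card (I (g u)) = 16)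
    (hv : Nat.card (I (g v)) = 16) (huv : Nat.card (I (g (u * v))) = 16) : I (g u) = I (g v) ∨ C (g u) = C (g v) := by
  have := fin h
  have k := lB h (fI h u) hu v2 (by
    rintro _ ⟨m, rfl⟩
    exact ⟨g v m, by change _ = g v (g u m + m); rw [map_add, ← h.g_mul, ← c, h.g_mul]; rfl⟩)
  rcases lA' h (K := I (g u) ⊓ I (g v)) (fun m hm => ⟨fI h u m hm.1, fI h v m hm.2⟩) inf_le_left hu with e | e
  · have k2 : ∀ m ∈ C (g (u * v)), g u m + m = 0 ∧ g v m + m = 0 := fun m hm => by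
      have k1 := k _ ⟨m, rfl⟩
      change g v (g u m + m) = g u m + m at k1
      rw [map_add, ← h.g_mul, ← c, (mem_C h).1 hm, add_comm] at k1
      have : g u m + m = 0 := AddSubgroup.mem_bot.1 (e ▸ (⟨⟨m, rfl⟩, ⟨m, k1⟩⟩ : _ ∈ I (g u) ⊓ I (g v)))
      exact ⟨this, k1.trans this⟩
    have c1 := IC h (g u)
    have c2 := IC h (g v)
    have c3 := IC h (g (u * v))
    rw [hu] at c1
    rw [hv] at c2
    rw [huv] at c3
    exact .inr ((AddSubgroup.eq_of_le_of_card_ge (fun m hm => (k2 m hm).1) (by omega)).symm.trans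
      (AddSubgroup.eq_of_le_of_card_ge (fun m hm => (k2 m hm).2) (by omega)))
  · exact .inl (AddSubgroup.eq_of_le_of_card_ge (e.ge.trans inf_le_right) (by omega))

end MAx

open MAx

theorem ma : MA.{u} := fun M _ a g h => by
  have c : ∀ i j, i ≠ j → Nat.card (I (g (t3 i j))) = 16 := fun i j hij => by
    obtain ⟨k, h1, h2⟩ := third i j hij
    obtain ⟨δ, -, d, -⟩ := pm i j k hij h1 h2
    exact (cN h d).trans (c01 h)
  refine ⟨⟨fpf h, c⟩, ?_⟩
  rcases dich h (u := t3 0 1) (v := t3 2 1) (by decide) (by decide) (c01 h) (c _ _ (by decide))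
    ((cN h (δ := t3 2 0) (by decide)).trans (c01 h)) with e1 | e1
  · refine .inl fun i k j h1 h2 => ?_
    by_cases h3 : i = k
    · rw [h3]
    obtain ⟨δ, -, d1, d2, -⟩ := pm i j k h1 h2 h3
    exact (cI h d1).trans ((congrArg _ e1).trans (cI h d2).symm)
  rcases dich h (u := t3 0 1) (v := t3 0 2) (by decide) (by decide) (c01 h) (c _ _ (by decide))
    ((cN h (δ := t3 1 2) (by decide)).trans (c01 h)) with e2 | e2
  · refine .inr fun i j k h1 h2 => ?_
    by_cases h3 : k = j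
    · rw [h3]
    obtain ⟨δ, -, d1, -, d2⟩ := pm i j k h1 h3 h2
    exact (cI h d1).trans ((congrArg _ e2).trans (cI h d2).symm)
  have k : ∀ i j k, i ≠ j → k ≠ j → i ≠ k → C (g (t3 i j)) = C (g (t3 k j)) ∧ C (g (t3 i j)) = C (g (t3 i k)) :=
    fun i j k h1 h2 h3 => by
      obtain ⟨δ, -, d1, d2, d3⟩ := pm i j k h1 h2 h3
      rw [cC h d1, cC h d2, cC h d3, ← e1, ← e2]
      exact ⟨rfl, rfl⟩
  have k1 := (k 2 1 0 (by decide) (by decide) (by decide)).2
  have k2 := (k 2 0 1 (by decide) (by decide) (by decide)).1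
  have k3 := (k 0 2 1 (by decide) (by decide) (by decide)).1
  have k4 : ∀ i j, i ≠ j → C (g (t3 0 1)) = C (g (t3 i j)) := fun i j hij => by
    fin_cases i <;> fin_cases j
    exacts [absurd rfl hij, rfl, e2, (e1.trans k1).trans k2, absurd rfl hij, e2.trans k3, e1.trans k1, e1,
      absurd rfl hij]
  have k5 : C (g (t3 0 1)) = ⊥ := eq_bot_iff.2 fun m hm => fixall h fun i j hij => (mem_C h).1 (k4 i j hij ▸ hm)
  have := IC h (g (t3 0 1))
  rw [k5, c01 h, AddSubgroup.card_bot] at this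
  omega

end CL.Pen
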