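/-
Project PEN, job PEN-MC: the module `L / Z` is a tensor product.
-/
import Cfsg.Agent.Pen.D
import Cfsg.Agent.Cls.SLnBasic

set_option autoImplicit false

namespace CL.Pen

open Cfsg Subgroup Matrix CL.Cls CL.Grp CL.Even CL.L10 CL.Mx QuadraticMap
open scoped MatrixGroups

universe u

namespace MC

theorem ind (P : SL3 → Prop) (h1 : P 1) (ht : ∀ i j, i ≠ j → P (t3 i j)) (hm : ∀ A B, P A → P B → P (A * B))
    (A : SL3) : P A := by
  refine CL.SLn.transvection_induction P h1 (fun i j h c => ?_) hm A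
  obtain rfl | rfl : c = 0 ∨ c = 1 := by revert c; decide
  · rwa [SpecialLinearGroup.transvection_coeff_zero]
  · have := ht i j h
    rwa [t3, dif_pos h] at this

/-- the permutation matrices -/
def w3 (i j : Fin 3) : SL3 := t3 i j * t3 j i * t3 i j

def c3 (j : Fin 3) : SL3 := ![1, w3 0 1, w3 0 2] j

/-- the inverse transpose -/
def τ : SL3 →* SL3 where
  toFun γ := (γ⁻¹).transpose
  map_one' := by decide
  map_mul' A B := by rw [_root_.mul_inv_rev]; exact Subtype.ext (transpose_mul _ _)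

theorem τ_inv (γ : SL3) : ((τ γ)⁻¹).1 = γ.1ᵀ := by rw [← map_inv]; change ((γ⁻¹⁻¹).transpose).1 = _; rw [inv_inv]; rfl

theorem τ_τ (γ : SL3) : τ (τ γ) = γ := Subtype.ext (by
  change ((τ γ)⁻¹).1ᵀ = _
  rw [τ_inv, transpose_transpose])

theorem τ_t : ∀ i j, τ (t3 i j) = t3 j i := by decide

variable {M : Type u} [AddCommGroup M] {a : S5 → M →+ M} {g : SL3 → M →+ M}

theorem sub5 (h : MG a g) (hf : MF a g) {N P : AddSubgroup M} (hN : Nat.card N = 16) (le : P ≤ N)
    (hP : ∀ m ∈ P, a (finRotate 5) m ∈ P) : P = ⊥ ∨ P = N := by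
  classical
  haveI : Finite M := Nat.finite_of_card_ne_zero (by rw [h.card]; norm_num)
  haveI := Fintype.ofFinite P
  haveI : Fact (Nat.Prime 5) := ⟨by norm_num⟩
  let f : Function.End P := fun m => ⟨_, hP m m.2⟩
  have f5 : f ^ 5 ^ 1 = 1 := funext fun m => Subtype.ext (by
    change a _ (a _ (a _ (a _ (a _ m)))) = m
    simp only [← h.a_mul]
    rw [show finRotate 5 * (finRotate 5 * (finRotate 5 * (finRotate 5 * finRotate 5))) = 1 by decide, h.a_one])
  have k := Equiv.Perm.card_fixedPoints_modEq f5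
  rw [show Fintype.card f.fixedPoints = 1 from Fintype.card_eq_one_iff.2
    ⟨⟨0, Subtype.ext (map_zero _)⟩, fun m => Subtype.ext (Subtype.ext (hf.1 _ (congrArg Subtype.val m.2)))⟩,
    ← Nat.card_eq_fintype_card] at k
  have d := AddSubgroup.card_dvd_of_le le
  rw [hN] at d
  have l := Nat.le_of_dvd (by norm_num) d
  rcases (show Nat.card P = 1 ∨ Nat.card P = 16 by
    generalize Nat.card P = n at k d l
    interval_cases n <;> simp_all [Nat.ModEq]) with e | e
  · exact .inl (AddSubgroup.card_eq_one.1 e)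
  · exact .inr (AddSubgroup.eq_of_le_of_card_ge le (by rw [hN, e]))

theorem sw (h : MG a g) {γ δ γ' δ' : SL3} (e : γ * δ = γ' * δ') (m : M) : g γ (g δ m) = g γ' (g δ' m) := by
  rw [← h.g_mul, e, h.g_mul]

theorem mem_IM {i j : Fin 3} {n : M} : n ∈ IM g i j ↔ ∃ m, g (t3 i j) m + m = n := Iff.rfl

theorem IM_a (h : MG a g) {i j : Fin 3} (σ : S5) {n : M} (hn : n ∈ IM g i j) : a σ n ∈ IM g i j := by
  obtain ⟨m, rfl⟩ := mem_IM.1 hn
  exact mem_IM.2 ⟨a σ m, by rw [map_add, h.comm]⟩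

theorem IM_g (h : MG a g) {i j k l : Fin 3} {γ : SL3} (e : γ * t3 i j = t3 k l * γ) {n : M} (hn : n ∈ IM g i j) :
    g γ n ∈ IM g k l := by
  obtain ⟨m, rfl⟩ := mem_IM.1 hn
  exact mem_IM.2 ⟨g γ m, by rw [map_add, sw h e]⟩

theorem eq_of_add (h : MG a g) {x y : M} (e : x + y = 0) : x = y := by
  rw [← add_zero x, ← h.two y, ← add_assoc, e, zero_add]

theorem lemB (h : MG a g) (hf : MF a g) {i j : Fin 3} (ij : i ≠ j) {γ : SL3} (e1 : γ * γ = 1)
    (e : γ * t3 i j = t3 i j * γ) {n : M} (hn : n ∈ IM g i j) : g γ n = n := by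
  have k : ∀ {m}, m ∈ IM g i j ⊓ (g γ + AddMonoidHom.id M).ker ↔ m ∈ IM g i j ∧ g γ m + m = 0 := Iff.rfl
  rcases sub5 h hf (hf.2 i j ij) (P := IM g i j ⊓ (g γ + AddMonoidHom.id M).ker) inf_le_left (fun m hm =>
    k.2 ⟨IM_a h _ (k.1 hm).1, by rw [← h.comm, ← map_add, (k.1 hm).2, map_zero]⟩) with e' | e'
  · refine eq_of_add h (AddSubgroup.mem_bot.1 (e' ▸ k.2 ⟨add_mem (IM_g h e hn) hn, ?_⟩))
    rw [map_add, ← h.g_mul, e1, h.g_one, add_comm n, h.two]
  · exact eq_of_add h (k.1 (e'.ge hn)).2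

section main
variable (h : MG a g) (hf : MF a g) (ax : ∀ i i' j, i ≠ j → i' ≠ j → IM g i j = IM g i' j)
include h hf ax

theorem fixT {i j k l : Fin 3} (ij : i ≠ j) (kj : k ≠ j) {n : M} (hn : n ∈ IM g i j) : g (t3 k l) n = n := by
  obtain ⟨r, rj, e1, e⟩ := (by decide : ∀ j k l : Fin 3, k ≠ j → ∃ r, r ≠ j ∧ t3 k l * t3 k l = 1 ∧
    t3 k l * t3 r j = t3 r j * t3 k l) j k l kj
  exact lemB h hf rj e1 e (ax i r j ij rj ▸ hn)

theorem moveT {k l : Fin 3} (kl : k ≠ l) {n : M} (hn : n ∈ IM g l k) : g (t3 k l) n = n + g (w3 k l) n := by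
  obtain ⟨e1, e2, e3, e4⟩ := (by decide : ∀ k l : Fin 3, k ≠ l → w3 k l * t3 l k = t3 k l * w3 k l ∧
    t3 l k * t3 k l = w3 k l * (t3 l k * t3 l k * t3 l k) ∧ t3 l k * w3 k l = t3 k l * t3 l k ∧ ∀ r, r = k ∨ r = l ∨
      t3 l r = t3 l k * (t3 k r * (t3 l k * t3 k r))) k l kl
  have m1 : g (t3 k l) n + n + g (w3 k l) n ∈ IM g k l := add_mem (mem_IM.2 ⟨n, rfl⟩) (IM_g h e1 hn)
  have f0 : g (t3 l k) n = n := fixT h hf ax kl.symm kl.symm hn
  generalize hm : g (t3 k l) n + n + g (w3 k l) n = m at m1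
  have f1 : g (t3 l k) m = m := by
    rw [← hm, map_add, map_add, sw h e2, sw h e3, h.g_mul, h.g_mul, f0, f0, f0]
    abel
  obtain ⟨y, -, hy⟩ := h.yf
  have := hy m (ind (fun γ => g γ m = m) (h.g_one m) (fun i j ij => ?_) (fun A B p q => by rw [h.g_mul, q, p]) y)
  · rw [← hm, add_assoc] at this
    exact eq_of_add h this
  by_cases il : i = l
  · subst il
    rcases e4 j with rfl | rfl | e
    · exact f1
    · exact (ij rfl).elim
    · rw [e, h.g_mul, h.g_mul, h.g_mul, fixT h hf ax kl kl m1, f1, fixT h hf ax kl kl m1, f1]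
  · exact fixT h hf ax kl il m1

theorem actT {k l : Fin 3} (kl : k ≠ l) (j : Fin 3) {n : M} (hn : n ∈ IM g 1 0) :
    g (t3 k l) (g (c3 j) n) = g (c3 j) n + if k = j then g (c3 l) n else 0 := by
  obtain ⟨r, rj, e⟩ := (by decide : ∀ j : Fin 3, ∃ r, r ≠ j ∧ c3 j * t3 1 0 = t3 r j * c3 j) j
  have m := IM_g h e hn
  split_ifs with kj
  · subst kj
    rw [moveT h hf ax kl (ax _ _ _ rj kl.symm ▸ m), ← h.g_mul]
    rcases (by decide : ∀ k l : Fin 3, k ≠ l → w3 k l * c3 k = c3 l ∨ w3 k l * c3 k = c3 l * w3 1 2) k l kl with e | e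
    · rw [e]
    · have f : ∀ i j, i ≠ 0 → g (t3 i j) n = n := fun i j i0 => fixT h hf ax (by decide) i0 hn
      rw [e, h.g_mul, w3, h.g_mul, h.g_mul, f 1 2 (by decide), f 2 1 (by decide), f 1 2 (by decide)]
  · rw [fixT h hf ax rj kj m, add_zero]

theorem main : ∃ (N : AddSubgroup M) (ψ : (Fin 3 → N) ≃+ M), Nat.card N = 16 ∧ (∀ σ, ∀ n ∈ N, a σ n ∈ N) ∧
    (∀ σ (v v' : Fin 3 → N), (∀ i, (v' i : M) = a σ (v i)) → a σ (ψ v) = ψ v') ∧
    ∀ γ (v : Fin 3 → N), g γ (ψ v) = ψ fun j => ∑ i, ((γ⁻¹).1 i j).val • v i := by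
  haveI : Finite M := Nat.finite_of_card_ne_zero (by rw [h.card]; norm_num)
  have hN := hf.2 1 0 (by decide)
  let ψ : (Fin 3 → IM g 1 0) →+ M :=
    { toFun := fun v => ∑ j, g (c3 j) (v j)
      map_zero' := by simp
      map_add' := fun v w => by simp [Finset.sum_add_distrib] }
  have hψ : ∀ v, ψ v = ∑ j, g (c3 j) (v j) := fun v => rfl
  have t : ∀ k l, k ≠ l → ∀ v, g (t3 k l) (ψ v) = ψ v + g (c3 l) (v k) := fun k l kl v => by
    rw [hψ, map_sum, Finset.sum_congr rfl fun j _ => actT h hf ax kl j (v j).2, Finset.sum_add_distrib,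
      Finset.sum_ite_eq, if_pos (Finset.mem_univ _)]
  have inj : Function.Injective ψ := (injective_iff_map_eq_zero ψ).2 fun v hv => funext fun k => Subtype.ext (by
    have := t k (k + 1) (by revert k; decide) v
    rw [hv, map_zero, zero_add] at this
    have := congrArg (g (c3 (k + 1))⁻¹) this
    rwa [map_zero, ← h.g_mul, inv_mul_cancel, h.g_one, eq_comm] at this)
  refine ⟨IM g 1 0, AddEquiv.ofBijective ψ (inj.bijective_of_nat_card_le (by simp [h.card, Nat.card_pi, hN])), hN,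
    fun σ n => IM_a h σ, fun σ v v' e => ?_, fun γ => ?_⟩
  · simp only [AddEquiv.ofBijective_apply, hψ, map_sum, e, h.comm]
  simp only [AddEquiv.ofBijective_apply]
  letI : Module F (IM g 1 0) := AddCommGroup.zmodModule fun x => Subtype.ext (by
    rw [two_nsmul]; exact h.two _)
  have sm : ∀ (c : F) (x : IM g 1 0), c.val • x = c • x := fun _ _ => rfl
  simp only [sm]
  induction γ using ind with
  | h1 => intro v; simp [h.g_one, one_apply]
  | ht k l kl =>
    intro v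
    rw [t k l kl, (by decide : ∀ k l, (t3 k l)⁻¹ = t3 k l), t3_val kl,
      show g (c3 l) (v k) = ψ (Pi.single l (v k)) by
        rw [hψ, Finset.sum_eq_single l (fun j _ jl => by simp [jl]) (by simp), Pi.single_eq_same], ← map_add]
    congr 1
    funext j
    simp [one_apply, add_smul, Finset.sum_add_distrib, single_apply, Pi.single_apply, ite_and, eq_comm]
  | hm A B p q =>
    intro v
    rw [h.g_mul, q, p]
    congr 1
    funext j
    rw [_root_.mul_inv_rev, show (B⁻¹ * A⁻¹).1 = (B⁻¹).1 * (A⁻¹).1 from rfl]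
    generalize (A⁻¹).1 = X, (B⁻¹).1 = Y
    simp only [mul_apply, Finset.sum_smul, Finset.smul_sum, smul_smul]
    rw [Finset.sum_comm]
    simp only [mul_comm]

end main

end MC

open MC in
theorem mod1 (h : MA.{u}) : MOD1.{u} := by
  intro M _ a g hg
  obtain ⟨hf, ax | ax⟩ := h M a g hg
  · obtain ⟨N, ψ, k⟩ := main hg hf ax
    exact ⟨N, ψ, false, k⟩
  have e : ∀ i j, IM (fun γ => g (τ γ)) i j = IM g j i := fun i j => by simp only [IM, τ_t]
  obtain ⟨y, y7, hy⟩ := hg.yf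
  obtain ⟨N, ψ, k1, k2, k3, k4⟩ := main (a := a) (g := fun γ => g (τ γ))
    ⟨hg.a_one, hg.a_mul, fun m => by rw [map_one, hg.g_one], fun γ δ m => by rw [map_mul, hg.g_mul],
      fun σ γ => hg.comm σ _, hg.card, hg.two, hg.xf, τ y,
      by rw [orderOf_injective τ (Function.LeftInverse.injective τ_τ), y7], by simpa only [τ_τ] using hy⟩
    ⟨hf.1, fun i j ij => e i j ▸ hf.2 j i ij.symm⟩ fun i i' j p q => by rw [e, e, ax j i i' p.symm q.symm]
  refine ⟨N, ψ, true, k1, k2, k3, fun γ v => ?_⟩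
  have := k4 (τ γ) v
  rwa [τ_τ, τ_inv] at this

end CL.Pen
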