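/-
Project PEN (S3321): the natural module of `S₅ = ΣL₂(4)` and its invariant form.
-/
import Cfsg.Agent.Pen.D

set_option autoImplicit false

namespace CL.Pen

open Cfsg Subgroup Matrix CL.Cls CL.Grp CL.Even CL.L10 CL.Mx QuadraticMap
open scoped MatrixGroups

universe u

namespace Mod2

theorem fN_vW : ∀ (w : List (Fin 4)) (u v : N4), fN (vW w u) (vW w v) = fN u v
  | [], _, _ => rfl
  | i :: w, u, v => by
    rw [← fN_vW w u v, vW, vW]
    generalize vW w u = u', vW w v = v'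
    revert i u' v'
    decide +kernel

theorem fN_inv {α : S5 →* M4} (h : AL α) (σ : S5) (u v : N4) : fN (α σ *ᵥ u) (α σ *ᵥ v) = fN u v := by
  obtain ⟨w, -, rfl⟩ := pW_surj σ
  rw [h.word, mW_mulVec, mW_mulVec, fN_vW]

theorem row (φ : N4 →+ F) (h1 : ∀ w, φ (mS1 *ᵥ w) = φ w) (h4 : ∀ w, φ (mS4 *ᵥ w) = φ w) (w : N4) :
    φ w = φ ![0, 0, 0, 1] * fN ![1, 0, 0, 0] w := by
  obtain ⟨u, u', e⟩ := (by decide +kernel : ∀ w : N4, ∃ u u' : N4,
    w = mS1 *ᵥ u + u + (mS4 *ᵥ u' + u') + fN ![1, 0, 0, 0] w • ![0, 0, 0, 1]) w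
  conv_lhs => rw [e]
  rw [map_add, map_add, map_add, map_add, h1, h4, CharTwo.add_self_eq_zero, CharTwo.add_self_eq_zero, zero_add,
    zero_add, ZMod.map_smul, smul_eq_mul, mul_comm]

theorem forms (α : S5 →* M4) (f : N4 →+ N4 →+ F) (h : AL α) (hf : ∀ σ m m', f (α σ *ᵥ m) (α σ *ᵥ m') = f m m') :
    (∀ m m', f m m' = 0) ∨ ∀ m m', f m m' = fN m m' := by
  have key : ∀ m m', f m m' = f ![1, 0, 0, 0] ![0, 0, 0, 1] * fN m m' := fun m m' => by
    by_cases hm : m = 0
    · rw [hm, map_zero, AddMonoidHom.zero_apply, show fN 0 m' = 0 by simp [fN], mul_zero]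
    obtain ⟨σ, -, rfl⟩ := h.trans hm
    have e : m' = α σ *ᵥ (α σ⁻¹ *ᵥ m') := by rw [mulVec_mulVec, ← map_mul, mul_inv_cancel, map_one, one_mulVec]
    rw [e, hf, fN_inv h]
    refine row _ (fun w => ?_) (fun w => ?_) _
    · have := hf (Equiv.swap 0 1) ![1, 0, 0, 0] w
      rwa [h.s1, show mS1 *ᵥ ![1, 0, 0, 0] = ![1, 0, 0, 0] by decide] at this
    · have := hf (Equiv.swap 3 4) ![1, 0, 0, 0] w
      rwa [h.s4, show mS4 *ᵥ ![1, 0, 0, 0] = ![1, 0, 0, 0] by decide] at this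
  rcases (by decide : ∀ t : F, t = 0 ∨ t = 1) (f ![1, 0, 0, 0] ![0, 0, 0, 1]) with e | e
  · exact .inl fun m m' => by rw [key, e, zero_mul]
  · exact .inr fun m m' => by rw [key, e, one_mul]

/-- matrices commuting with `mS1` -/
def mk (c d : N4) : M4 := !![c 1, c 0, d 1, d 0; 0, c 1, 0, d 1; c 3, c 2, d 3, d 2; 0, c 3, 0, d 3]

set_option synthInstance.maxSize 4000 in
theorem mk_spec : ∀ c d : N4, mk c d * mk c d = 1 → mk c d * mS2 * mk c d = mS2 * mk c d * mS2 →
    mk c d * mS4 * mk c d = mS4 * mk c d * mS4 → mk c d = mS3 ∨ mS4 * mk c d * mS4 = mS3 := by decide +kernel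

theorem eq_mk {E : M4} (h : E * mS1 = mS1 * E) : E = mk (fun i => E i 1) fun i => E i 3 := by
  have k := fun i j => congrFun (congrFun h i) j
  have a := k 0 1
  have b := k 1 1
  have c := k 2 1
  have d := k 3 1
  have a' := k 0 3
  have b' := k 1 3
  have c' := k 2 3
  have d' := k 3 3
  simp [mul_apply, Fin.sum_univ_four, mS1] at a b c d a' b' c' d'
  rw [add_comm, add_right_inj] at a c a' c'
  ext i j
  fin_cases i <;> fin_cases j <;> simp [mk, *]

variable {N : Type u} [AddCommGroup N] {a : S5 → N →+ N}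

theorem exists_α (h1 : ∀ m, a 1 m = m) (hm : ∀ σ τ m, a (σ * τ) m = a σ (a τ m)) (e : N ≃+ N4) :
    ∃ α : S5 →* M4, ∀ σ m, e (a σ m) = α σ *ᵥ e m := by
  let A : S5 → M4 := fun σ => LinearMap.toMatrix'
    ((e.toAddMonoidHom.comp ((a σ).comp e.symm.toAddMonoidHom)).toZModLinearMap 2)
  have hA : ∀ σ v, A σ *ᵥ v = e (a σ (e.symm v)) := fun σ v => LinearMap.toMatrix'_mulVec _ _
  refine ⟨⟨⟨A, mulVec_injective (funext fun v => ?_)⟩, fun σ τ => mulVec_injective (funext fun v => ?_)⟩,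
    fun σ m => ?_⟩
  · rw [hA, h1, e.apply_symm_apply, one_mulVec]
  · rw [← mulVec_mulVec, hA, hA, hA, hm, e.symm_apply_apply]
  · exact ((hA σ _).trans (by rw [e.symm_apply_apply])).symm

theorem module (h1 : ∀ m, a 1 m = m) (hm : ∀ σ τ m, a (σ * τ) m = a σ (a τ m)) (hc : Nat.card N = 16)
    (h2 : ∀ m : N, m + m = 0) (hx : ∀ m, a x5 m = m → m = 0) :
    ∃ (α : S5 →* M4) (e : N ≃+ N4), AL α ∧ ∀ σ m, e (a σ m) = α σ *ᵥ e m := by
  letI : Module F N := AddCommGroup.zmodModule fun m => (two_nsmul m).trans (h2 m)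
  have rel : ∀ σ τ σ' τ' : S5, σ * τ = σ' * τ' → ∀ m, a σ (a τ m) = a σ' (a τ' m) := fun σ τ σ' τ' e m => by
    rw [← hm, ← hm, e]
  have sub : ∀ m m' : N, m + m' = 0 → m = m' := fun m m' e => by
    rw [← add_zero m, ← h2 m', ← add_assoc, e, zero_add]
  set s1 := a (Equiv.swap 0 1) with hs1
  set s4 := a (Equiv.swap 3 4) with hs4
  set x := a x5 with hxx
  have xx : ∀ m, x (x m) = m + x m := fun m => by
    have x3 : x (x (x m)) = m := by rw [← hm, ← hm, show x5 * x5 * x5 = 1 by decide, h1]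
    refine (sub _ _ (hx _ ?_)).symm
    rw [map_add, map_add, x3]
    abel
  have s11 : ∀ m, s1 (s1 m) = m := fun m => by rw [← hm, Equiv.swap_mul_self, h1]
  have s44 : ∀ m, s4 (s4 m) = m := fun m => by rw [← hm, Equiv.swap_mul_self, h1]
  have s1x : ∀ m, s1 (x m) = s1 m + x (s1 m) := fun m => by
    rw [← xx, ← hm x5 x5]
    exact rel _ _ _ _ (by decide) m
  have s4x : ∀ m, s4 (x m) = x (s4 m) := rel _ _ _ _ (by decide)
  have s41 : ∀ m, s4 (s1 m) = s1 (s4 m) := rel _ _ _ _ (by decide)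
  obtain ⟨v, v1, v4⟩ : ∃ v, s1 v = v ∧ s4 v ≠ v := by
    by_contra hn
    push Not at hn
    have f : ∀ m, s4 (m + s1 m) = m + s1 m := fun m => hn _ (by rw [map_add, s11, add_comm])
    have g : ∀ m, s4 m = m := fun m => by
      have e : s1 (s1 m) = x (s1 m) + s1 (x (s1 m)) + x (s1 m + s1 (s1 m)) := by
        rw [s1x, map_add]
        calc _ = s1 (s1 m) + (x (s1 m) + x (s1 m)) + (x (s1 (s1 m)) + x (s1 (s1 m))) := by
              rw [h2, h2, add_zero, add_zero]
          _ = _ := by abel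
      rw [← s11 m, e, map_add, f, s4x, f]
    have t : ∀ σ m, a (σ * Equiv.swap 3 4 * σ⁻¹) m = m := fun σ m => by
      rw [hm, hm, g, ← hm, mul_inv_cancel, h1]
    have : Subsingleton N := ⟨fun m m' => sub _ _ (hx _ (by
      rw [hxx, show x5 = (Equiv.swap 0 3 * Equiv.swap 1 4) * Equiv.swap 3 4 * (Equiv.swap 0 3 * Equiv.swap 1 4)⁻¹ *
        ((Equiv.swap 1 3 * Equiv.swap 2 4) * Equiv.swap 3 4 * (Equiv.swap 1 3 * Equiv.swap 2 4)⁻¹) by decide,
        hm, t, t]))⟩
    exact absurd (Nat.card_unique.symm.trans hc) (by decide)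
  obtain ⟨u, hu⟩ : ∃ u, u = s4 v + v := ⟨_, rfl⟩
  have u0 : u ≠ 0 := fun e => v4 (sub _ _ (hu ▸ e))
  have u1 : s1 u = u := by rw [hu, map_add, ← s41, v1]
  have u4 : s4 u = u := by rw [hu, map_add, s44, add_comm]
  have v4' : s4 v = u + v := by rw [hu, add_assoc, h2, add_zero]
  have ind : ∀ c d : F, c • u + d • x u = 0 → c = 0 ∧ d = 0 := fun c d e => by
    have z : ∀ t : F, t = 0 ∨ t = 1 := by decide
    rcases z c with rfl | rfl <;> rcases z d with rfl | rfl
    · exact ⟨rfl, rfl⟩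
    · rw [zero_smul, zero_add, one_smul] at e
      have := xx u
      rw [e, map_zero, add_zero] at this
      exact absurd this.symm u0
    · rw [zero_smul, add_zero, one_smul] at e
      exact absurd e u0
    · rw [one_smul, one_smul] at e
      exact absurd (hx _ (sub _ _ e).symm) u0
  let b : N4 →+ N :=
    { toFun := fun c => c 0 • u + c 1 • x u + c 2 • v + c 3 • x v
      map_zero' := by simp
      map_add' := fun c d => by
        simp only [Pi.add_apply, add_smul]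
        abel }
  have hb : ∀ c, b c = c 0 • u + c 1 • x u + c 2 • v + c 3 • x v := fun _ => rfl
  have b1 : ∀ c, s1 (b c) = b (mS1 *ᵥ c) := fun c => by
    simp only [hb, map_add, ZMod.map_smul, s1x, u1, v1]
    simp [mS1, mulVec, dotProduct, Fin.sum_univ_four, add_smul]
    abel
  have b4 : ∀ c, s4 (b c) = b (mS4 *ᵥ c) := fun c => by
    simp only [hb, map_add, ZMod.map_smul, s4x, u4, v4']
    simp [mS4, mulVec, dotProduct, Fin.sum_univ_four, add_smul]
    abel
  have bx : ∀ c, x (b c) = b ((mS1 * mS2) *ᵥ c) := fun c => by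
    simp only [hb, map_add, ZMod.map_smul, xx]
    rw [show mS1 * mS2 = !![0, 1, 0, 0; 1, 1, 0, 0; 0, 0, 0, 1; 0, 0, 1, 1] by decide]
    simp [mulVec, dotProduct, Fin.sum_univ_four, add_smul]
    abel
  have inj : Function.Injective b := (injective_iff_map_eq_zero _).2 fun c e => by
    have e1 : b (mS4 *ᵥ c + c) = 0 := by rw [map_add, ← b4, e, map_zero, add_zero]
    rw [(by decide : ∀ c : N4, mS4 *ᵥ c + c = ![c 2, c 3, 0, 0]) c, hb] at e1
    obtain ⟨c2, c3⟩ := ind (c 2) (c 3) (by simpa using e1)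
    rw [hb, c2, c3] at e
    obtain ⟨c0, c1⟩ := ind (c 0) (c 1) (by simpa using e)
    funext i
    fin_cases i <;> assumption
  have : Finite N := Nat.finite_of_card_ne_zero (hc ▸ by decide)
  let e := (AddEquiv.ofBijective b (inj.bijective_of_nat_card_le (by rw [hc]; simp))).symm
  obtain ⟨α, hα⟩ := exists_α h1 hm e
  have eb : ∀ c, e (b c) = c := e.apply_symm_apply
  have val : ∀ σ (A : M4), (∀ c, a σ (b c) = b (A *ᵥ c)) → α σ = A := fun σ A h =>
    mulVec_injective (funext fun c => by rw [← eb (A *ᵥ c), ← h, hα, eb])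
  have a1 := val _ _ b1
  have a4 := val _ _ b4
  have a2 : α (Equiv.swap 1 2) = mS2 := by
    rw [show Equiv.swap (1 : Fin 5) 2 = Equiv.swap 0 1 * x5 by decide, map_mul, a1, val _ _ bx]
    decide
  have hE := eq_mk (E := α (Equiv.swap 2 3)) (by rw [← a1, ← map_mul, ← map_mul]; congr 1; decide)
  have := mk_spec _ _ (by rw [← hE, ← map_mul, Equiv.swap_mul_self, map_one])
    (by rw [← hE, ← a2]; simp only [← map_mul]; congr 1; decide)
    (by rw [← hE, ← a4]; simp only [← map_mul]; congr 1; decide)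
  rw [← hE] at this
  rcases this with a3 | a3
  · exact ⟨α, e, ⟨a1, a2, a3, a4⟩, hα⟩
  · refine ⟨α.comp (MulAut.conj (Equiv.swap 3 4)).toMonoidHom,
      AddEquiv.trans { s4 with invFun := s4, left_inv := s44, right_inv := s44 } e, ⟨?_, ?_, ?_, ?_⟩, fun σ m => ?_⟩
    · rw [← a1]; exact congrArg α (by decide)
    · rw [← a2]; exact congrArg α (by decide)
    · rw [← a3, ← a4, ← map_mul, ← map_mul]; exact congrArg α (by decide)
    · rw [← a4]; exact congrArg α (by decide)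
    · change e (s4 (a σ m)) = α (Equiv.swap 3 4 * σ * (Equiv.swap 3 4)⁻¹) *ᵥ e (s4 m)
      rw [← hα, ← hm, ← hm, inv_mul_cancel_right]

end Mod2

theorem mod2 : MOD2.{u} := ⟨fun _ _ _ h1 hm hc h2 hx => Mod2.module h1 hm hc h2 hx, Mod2.forms⟩

end CL.Pen
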