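/-
Project PEN (S3321), job MOD3: the commutator and squaring maps on `L / Z`.
-/
import Cfsg.Agent.Pen.D

set_option autoImplicit false

namespace CL.Pen

open Cfsg Subgroup Matrix CL.Cls CL.Grp CL.Even CL.L10 CL.Mx QuadraticMap
open scoped MatrixGroups

universe u

namespace M3J

abbrev e3 (i : Fin 3) : W3 := Pi.single i 1

theorem third : ∀ i j : Fin 3, ∃ k, k ≠ i ∧ k ≠ j := by decide

theorem tA {i j : Fin 3} (h : i ≠ j) (w : W3) : (t3 i j).1 *ᵥ w = w + w j • e3 i := by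
  rw [t3_val h]; clear h; revert i j w; decide

theorem tC {i j : Fin 3} (h : i ≠ j) (w : W3) : w ᵥ* ((t3 i j)⁻¹).1 = w + w i • e3 j := by
  rw [inv_eq_of_mul_eq_one_right (a := t3 i j) (b := t3 i j) (Subtype.ext (by
    change (t3 i j).1 * (t3 i j).1 = 1
    rw [t3_val h]; revert i j; decide)), t3_val h]
  clear h; revert i j w; decide

theorem l1 (β : W3 →+ W3 →+ W3)
    (H : ∀ i j, i ≠ j → ∀ x y, β (x + x j • e3 i) (y + y j • e3 i) = β x y + β x y j • e3 i) (i j : Fin 3) :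
    β (e3 i) (e3 j) = 0 := by
  have a : ∀ i j k, i ≠ j → k ≠ i → k ≠ j → β (e3 i) (e3 k) = β (e3 i) (e3 j) j • e3 k := fun i j k a _ c => by
    simpa [a] using H k j c (e3 i) (e3 j)
  have b : ∀ k j, k ≠ j → β (e3 k) (e3 j) = 0 := fun k j h => by
    obtain ⟨i, h1, h2⟩ := third k j
    have := H k i h1.symm (e3 i) (e3 j)
    rw [a i k j h1 h2.symm h.symm] at this
    simpa [h1, h2, a i k j h1 h2.symm h.symm] using this
  by_cases h : i = j
  · obtain ⟨k, h1, -⟩ := third i i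
    simpa [h1, ← h, b i k h1.symm] using H i k h1.symm (e3 i) (e3 k)
  · exact b i j h

theorem l2 (β : W3 →+ W3 →+ W3)
    (H : ∀ i j, i ≠ j → ∀ x y, β (x + x i • e3 j) (y + y i • e3 j) = β x y + β x y j • e3 i) (i j : Fin 3) :
    β (e3 i) (e3 j) = β (e3 0) (e3 1) 2 • (if i = j then 0 else e3 i + e3 j + 1) := by
  have d : ∀ i, β (e3 i) (e3 i) = 0 := fun i => funext fun l => by
    obtain ⟨k, h1, h2⟩ := third i l
    simpa [h1] using congrFun (H k l h2 (e3 i) (e3 i)) k
  have s : ∀ i j, i ≠ j → β (e3 i) (e3 j) = β (e3 j) (e3 i) := fun i j h => by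
    have := H i j h (e3 i) (e3 i)
    simp only [Pi.single_eq_same, one_smul, map_add, AddMonoidHom.add_apply, d, zero_add, add_zero, Pi.zero_apply,
      zero_smul] at this
    revert this
    generalize β (e3 i) (e3 j) = x, β (e3 j) (e3 i) = y
    revert x y; decide
  have r : ∀ i j k, i ≠ j → j ≠ k → β (e3 i) (e3 k) = β (e3 i) (e3 j) k • e3 j := fun i j k a b => by
    simpa [a.symm] using H j k b (e3 i) (e3 j)
  have r1 := r 0 1 2 (by decide) (by decide)
  have r2 := r 0 2 1 (by decide) (by decide)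
  have r3 := r 1 0 2 (by decide) (by decide)
  rw [← s 0 1 (by decide)] at r3
  rw [r1] at r2
  generalize β (e3 0) (e3 1) 2 = c at r1 r2 r3 ⊢
  have s1 := (s 1 0 (by decide)).trans r2
  have s2 := (s 2 0 (by decide)).trans r1
  have s3 := (s 2 1 (by decide)).trans r3
  have k : ∀ T : Fin 3 → Fin 3 → W3, T = ![![0, (c • e3 1) 1 • e3 2, c • e3 1], ![(c • e3 1) 1 • e3 2, 0, c • e3 0],
      ![c • e3 1, c • e3 0, 0]] → T i j = c • (if i = j then 0 else e3 i + e3 j + 1) := by
    rintro _ rfl; clear * -; revert c i j; decide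
  refine k (fun i j => β (e3 i) (e3 j)) (funext fun i => funext fun j => ?_)
  fin_cases i <;> fin_cases j
  exacts [d _, r2, r1, s1, d _, r3, s2, s3, d _]

/-- `x ⊗ n` -/
def ten (n : N4) : W3 →+ M43 where
  toFun x j := x j • n
  map_zero' := funext fun _ => zero_smul _ _
  map_add' _ _ := funext fun _ => add_smul _ _ _

theorem ac_ten (C : Matrix (Fin 3) (Fin 3) F) (n : N4) (x : W3) :
    (fun j => ∑ i, C i j • ten n x i) = ten n (x ᵥ* C) := funext fun j => by
  simp [ten, vecMul, dotProduct, Finset.sum_smul, smul_smul, mul_comm]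

theorem dec (u : M43) : u = ten (u 0) (e3 0) + ten (u 1) (e3 1) + ten (u 2) (e3 2) := funext fun j => by
  fin_cases j <;> simp [ten]

theorem sq_eq (m : M43) : 0 + 0 + B0 (ten (m 0) (e3 0)) (ten (m 1) (e3 1)) + 0 +
    B0 (ten (m 0) (e3 0) + ten (m 1) (e3 1)) (ten (m 2) (e3 2)) = sq0 m := by
  ext i
  fin_cases i <;> simp [B0, sq0, ten, fN]
  ring

end M3J

open M3J in
/-- (job MOD3) -/
theorem mod3 (h1 : MOD1.{u}) (h2 : MOD2.{u}) : MOD.{u} := by
  intro M _ a g B s mg mb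
  obtain ⟨N, ψ, b, cN, aN, ψa, ψg⟩ := h1 M a g mg
  obtain ⟨α, e, al, he⟩ := h2.1 N (fun σ => ((a σ).comp N.subtype).codRestrict N fun n => aN σ n n.2)
    (fun m => Subtype.ext (mg.a_one m)) (fun σ τ m => Subtype.ext (mg.a_mul σ τ m)) cN
    (fun m => Subtype.ext (mg.two m)) fun m h => Subtype.ext (mg.xf m (congrArg Subtype.val h))
  let χ : M43 ≃+ M := (AddEquiv.piCongrRight fun _ => e.symm).trans ψ
  have χa : ∀ σ u, a σ (χ u) = χ fun i => α σ *ᵥ u i := fun σ u => ψa σ _ _ fun i => by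
    have := he σ (e.symm (u i))
    rw [e.apply_symm_apply, ← e.eq_symm_apply] at this
    exact (congrArg Subtype.val this).symm
  have χg : ∀ γ u, g γ (χ u) = χ fun j => ∑ i, (cond b γ.1ᵀ (γ⁻¹).1 : Matrix _ _ F) i j • u i := fun γ u =>
    (ψg γ _).trans (congrArg ψ (funext fun j => by
      change _ = e.symm _
      rw [map_sum]
      exact Finset.sum_congr rfl fun i _ => by
        rw [← ZMod.natCast_zmod_val (cond b γ.1ᵀ (γ⁻¹).1 i j), Nat.cast_smul_eq_nsmul, map_nsmul,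
          ZMod.natCast_zmod_val]; rfl))
  let β : N4 → N4 → W3 →+ W3 →+ W3 := fun n n' =>
    (B.comp (χ.toAddMonoidHom.comp (ten n))).compl₂ (χ.toAddMonoidHom.comp (ten n'))
  have βe : ∀ n n' x y, β n n' x y = B (χ (ten n x)) (χ (ten n' y)) := fun _ _ _ _ => rfl
  have βg : ∀ n n' (γ : SL3) x y, β n n' (x ᵥ* cond b γ.1ᵀ (γ⁻¹).1) (y ᵥ* cond b γ.1ᵀ (γ⁻¹).1) = γ.1 *ᵥ β n n' x y :=
    fun n n' γ x y => by rw [βe, βe, ← mb.B_g, χg, χg, ac_ten, ac_ten]
  have ne : ¬ ∀ n n' i j, β n n' (e3 i) (e3 j) = 0 := fun h => by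
    obtain ⟨m, m', k⟩ := mb.B_ne
    obtain ⟨m, rfl⟩ := χ.surjective m
    obtain ⟨m', rfl⟩ := χ.surjective m'
    rw [dec m, dec m'] at k
    simp [← βe, h] at k
  cases b
  swap
  · refine (ne fun n n' => l1 _ fun i j h x y => ?_).elim
    simpa only [cond_true, vecMul_transpose, tA h] using βg n n' (t3 i j) x y
  have l : ∀ n n' i j, _ := fun n n' => l2 (β n n') fun i j h x y => by
    simpa only [cond_false, tC h, tA h] using βg n n' (t3 i j) x y
  let c : Fin 3 → N4 →+ M := fun i => χ.toAddMonoidHom.comp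
    { toFun := fun n => ten n (e3 i)
      map_zero' := funext fun _ => smul_zero _
      map_add' := fun _ _ => funext fun _ => smul_add _ _ _ }
  let f : N4 →+ N4 →+ F := (((B.comp (c 0)).compl₂ (c 1)).compr₂ (Pi.evalAddMonoidHom (fun _ => F) 2))
  have fe : ∀ n n', β n n' (e3 0) (e3 1) 2 = f n n' := fun _ _ => rfl
  have hf := (h2.2 α f al fun σ n n' => by
    rw [← fe, ← fe, βe, βe, ← mb.B_a σ (χ (ten n _)), χa, χa]
    exact congrArg₂ (fun x y => B (χ x) (χ y) 2) (funext fun i => (mulVec_smul (α σ) (e3 0 i) n).symm)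
      (funext fun i => (mulVec_smul (α σ) (e3 1 i) n').symm)).resolve_left fun h => ne fun n n' i j => by
      rw [l, fe, h, zero_smul]
  have hB : ∀ u v, B (χ u) (χ v) = B0 u v := fun u v => by
    conv_lhs => rw [dec u, dec v]
    simp only [map_add, AddMonoidHom.add_apply, ← βe, l, fe, hf]
    ext i
    fin_cases i <;> simp [B0, CharTwo.add_self_eq_zero, add_comm]
  have hs : ∀ n i, s (χ (ten n (e3 i))) = 0 := fun n i => funext fun l => by
    obtain ⟨k, h1, h2⟩ := third i l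
    have := mb.s_g (t3 k l) (χ (ten n (e3 i)))
    rw [χg, ac_ten, cond_false, tC h2, tA h2] at this
    simpa [h1] using congrFun this k
  refine ⟨α, χ.symm, al, fun σ γ m => ?_, fun m m' => ?_, fun m => ?_⟩
  · obtain ⟨m, rfl⟩ := χ.surjective m
    rw [χg, χa, χ.symm_apply_apply, χ.symm_apply_apply]
    exact funext fun j => by simp [actM, mulVec_sum, mulVec_smul]
  · rw [← hB, χ.apply_symm_apply, χ.apply_symm_apply]
  · obtain ⟨m, rfl⟩ := χ.surjective m
    rw [χ.symm_apply_apply]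
    conv_lhs => rw [dec m, map_add, mb.s_add, hB, map_add, mb.s_add, hB, hs, hs, hs]
    exact sq_eq m

end CL.Pen
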