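/-
Project PEN (S3321): explicit elements in the image of `C_K(z)`.
-/
import Cfsg.Agent.Pen.D

set_option autoImplicit false
set_option Elab.async false

namespace CL.Pen

open Cfsg Subgroup Matrix CL.Cls CL.Grp CL.Even CL.L10 CL.Mx QuadraticMap
open scoped MatrixGroups

universe u

namespace P0x

def zz (c i : ℕ) : ℕ := 2 ^ i ^^^ ((bB (2 ^ i) (xs dL c)).toNat + 2 * (bB (2 ^ i) c).toNat)

/-- the code of an isometry commuting with `d` and trivial on the factors of the standard flag -/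
def EL (c : ℕ) : List ℕ := [1, 2, zz c 2, zz c 3, zz c 4, zz c 5, zz c 6, zz c 7, zz c 8, zz c 9, c, xs dL c]

theorem e1 : allB (fun c => decide (qB c = false → ∃ k, nL k = EL c ∨ nL k = tL.map (xs (EL c)))) 6 16 = true := by
  decide +kernel

def f2 (c : ℕ) : Bool := decide (qB c = false →
  (∀ k ∈ [1, 2, 4, 8], ∃ k', xs (EL c) (xs (nL k) 1024) % 4096 = xs (nL k') c % 4096) → c < 1088)

theorem e24 : allB f2 8 4 = true := by decide +kernel
theorem e25 : allB f2 8 5 = true := by decide +kernel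
theorem e26 : allB f2 8 6 = true := by decide +kernel
theorem e27 : allB f2 8 7 = true := by decide +kernel

theorem e2 {c : ℕ} (h1 : 1024 ≤ c) (h2 : c < 2048) : f2 c = true := by
  have : ∀ j, allB f2 8 j = true → c / 256 = j → f2 c = true := fun j h e => by
    have := allB_aux h (c % 256) (by omega)
    rwa [show j * 2 ^ 8 + c % 256 = c by omega] at this
  rcases (by omega : c / 256 = 4 ∨ c / 256 = 5 ∨ c / 256 = 6 ∨ c / 256 = 7) with e | e | e | e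
  exacts [this _ e24 e, this _ e25 e, this _ e26 e, this _ e27 e]

theorem e3 : ∀ k, 65 ≤ ((Finset.range 512).filter fun c => xs (nL k) c = c).card := by decide +kernel

theorem aa (v : V0) : v + v = 0 := funext fun _ => CharTwo.add_self_eq_zero _

theorem vec_mod (c : ℕ) : vec (c % 4096) = vec c := funext fun i => by
  rw [vec, vec, show 4096 = 2 ^ 12 from rfl, Nat.testBit_mod_two_pow, decide_eq_true i.2, Bool.true_and]

theorem vec_inj' {a b : ℕ} (e : vec a = vec b) : a % 4096 = b % 4096 :=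
  vec_inj (Nat.mod_lt _ (by norm_num)) (Nat.mod_lt _ (by norm_num)) (by rw [vec_mod, vec_mod, e])

theorem bit {c : ℕ} (i : Fin 12) {b : Bool} (h : vec c i = b2 b) : c / 2 ^ i.1 % 2 = b.toNat := by
  rw [← b2_inj h, Nat.toNat_testBit]

theorem pz {u : V0} (hu : inZ u) (v : V0) : polar q0 u v = u 0 * v 11 + u 1 * v 10 := by
  simp [polar_q0, fN, n1, n2, hu 2 (by decide), hu 3 (by decide), hu 4 (by decide), hu 5 (by decide),
    hu 6 (by decide), hu 7 (by decide), hu 8 (by decide), hu 9 (by decide), hu 10 (by decide), hu 11 (by decide)]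

theorem z1 : inZ (vec 1) := inZ_iff.2 (.inr (.inl rfl))
theorem z2 : inZ (vec 2) := inZ_iff.2 (.inr (.inr (.inl rfl)))
theorem v3 : vec 3 = vec 1 + vec 2 := vec_xor 1 2

theorem c10 {g : OG q0} (hg : g ∈ FZ) (v : V0) : g.1 v 10 = v 10 := by
  have := OG.polar_app g (vec 2) v
  rwa [hg.2, pz z2, pz z2, show vec 2 0 = 0 from rfl, show vec 2 1 = 1 from rfl, zero_mul, zero_mul, one_mul, one_mul,
    zero_add, zero_add] at this

theorem c11 {g : OG q0} (hg : g ∈ FZ) (v : V0) : g.1 v 11 = v 11 := by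
  have := OG.polar_app g (vec 1) v
  rwa [hg.1, pz z1, pz z1, show vec 1 0 = 1 from rfl, show vec 1 1 = 0 from rfl, zero_mul, zero_mul, one_mul, one_mul,
    add_zero, add_zero] at this

theorem fz_fix {g : OG q0} (hg : g ∈ FZ) {v : V0} (hv : inZ v) : g.1 v = v := by
  rcases inZ_iff.1 hv with rfl | rfl | rfl | rfl
  exacts [map_zero _, hg.1, hg.2, by rw [v3, map_add, hg.1, hg.2]]

theorem inZ_add {v w : V0} (h1 : n1 v = n1 w) (h2 : n2 v = n2 w) (h3 : v 10 = w 10) (h4 : v 11 = w 11) :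
    inZ (v + w) := fun i hi => by
  have : v i = w i := by
    fin_cases i
    exacts [absurd hi (by decide), absurd hi (by decide), congrFun h1 0, congrFun h1 1, congrFun h1 2, congrFun h1 3,
      congrFun h2 0, congrFun h2 1, congrFun h2 2, congrFun h2 3, h3, h4]
  rw [Pi.add_apply, this, CharTwo.add_self_eq_zero]

/-- trivial action on the two columns -/
def Tr (g : OG q0) : Prop := ∀ i : Fin 12, 2 ≤ i.1 → i.1 < 10 →
  n1 (g.1 (vec (2 ^ i.1))) = n1 (vec (2 ^ i.1)) ∧ n2 (g.1 (vec (2 ^ i.1))) = n2 (vec (2 ^ i.1))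

theorem elem {g : OG q0} (hg : g ∈ FZ) (hd : Commute g dO) (ht : Tr g) :
    ∃ c, 1024 ≤ c ∧ c < 2048 ∧ qB c = false ∧ g.1 (vec 1024) = vec c ∧ Cd g (EL c) := by
  obtain ⟨c, hc, e⟩ := vec_surj (g.1 (vec 1024))
  have a10 : vec c 10 = 1 := e ▸ c10 hg _
  have a11 : vec c 11 = 0 := e ▸ c11 hg _
  have e' : g.1 (vec 2048) = vec (xs dL c) := by
    rw [← cd_d c, e, ← OG.mul_app, ← hd.eq, OG.mul_app, cd_d]; rfl
  have b10 : vec (xs dL c) 10 = 0 := e' ▸ c10 hg _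
  have b11 : vec (xs dL c) 11 = 1 := e' ▸ c11 hg _
  have k : ∀ i : Fin 12, 2 ≤ i.1 → i.1 < 10 → g.1 (vec (2 ^ i.1)) = vec (zz c i) := fun i h1 h2 => by
    have hu := inZ_add (ht i h1 h2).1 (ht i h1 h2).2 (c10 hg _) (c11 hg _)
    have p1 := OG.polar_app g (vec (2 ^ i.1)) (vec 1024)
    have p2 := OG.polar_app g (vec (2 ^ i.1)) (vec 2048)
    have p3 := (by decide : ∀ i : Fin 12, 2 ≤ i.1 → i.1 < 10 →
      b2 (bB (2 ^ i.1) 1024) = 0 ∧ b2 (bB (2 ^ i.1) 2048) = 0) i h1 h2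
    rw [polar_vec, p3.1, ← e] at p1
    rw [polar_vec, p3.2, e'] at p2
    generalize hw : g.1 (vec (2 ^ i.1)) + vec (2 ^ i.1) = u at hu
    have hw' : g.1 (vec (2 ^ i.1)) = vec (2 ^ i.1) + u := by rw [← hw, add_left_comm, aa, add_zero]
    rw [hw', polar_add_left, polar_vec, pz hu] at p1 p2
    rw [a10, a11] at p1
    rw [b10, b11] at p2
    rw [hw', zz, vec_xor]
    congr 1
    generalize bB (2 ^ i.1) c = a, bB (2 ^ i.1) (xs dL c) = b at p1 p2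
    clear hw hw'
    rcases inZ_iff.1 hu with rfl | rfl | rfl | rfl <;> revert a b <;> decide
  have a1 : c / 1024 % 2 = 1 := bit 10 (b := true) a10
  have a2 : c / 2048 % 2 = 0 := bit 11 (b := false) a11
  refine ⟨c, by omega, by omega, b2_inj ?_, e.symm, cd_of_basis rfl fun i => ?_⟩
  · rw [← q0_vec, e, OG.map_app, q0_vec]; rfl
  · rw [← vec_pow]
    fin_cases i
    exacts [hg.1, hg.2, k 2 (by decide) (by decide), k 3 (by decide) (by decide), k 4 (by decide) (by decide),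
      k 5 (by decide) (by decide), k 6 (by decide) (by decide), k 7 (by decide) (by decide),
      k 8 (by decide) (by decide), k 9 (by decide) (by decide), e.symm, e']

theorem mem_or {g : OG q0} {c : ℕ} (h1 : 1024 ≤ c) (h2 : c < 1088) (hq : qB c = false) (h : Cd g (EL c)) :
    g ∈ NO ∨ g * tO ∈ NO := by
  have := allB_aux e1 (c - 1024) (by omega)
  rw [show 16 * 2 ^ 6 + (c - 1024) = c by omega, decide_eq_true_eq] at this
  obtain ⟨k, e | e⟩ := this hq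
  exacts [.inl ⟨k, (cd_n k).ext (e ▸ h)⟩, .inr ⟨k, (cd_n k).ext (e ▸ h.mul cd_t)⟩]

theorem mem_or1 {g : OG q0} (hg : g ∈ FZ) (hd : Commute g dO) (ht : Tr g) (h : n2 (g.1 (vec 1024)) = 0) :
    g ∈ NO ∨ g * tO ∈ NO := by
  obtain ⟨c, h1, h2, hq, e, hc⟩ := elem hg hd ht
  rw [e] at h
  have a1 : c / 64 % 2 = 0 := bit 6 (b := false) (congrFun h 0)
  have a2 : c / 128 % 2 = 0 := bit 7 (b := false) (congrFun h 1)
  have a3 : c / 256 % 2 = 0 := bit 8 (b := false) (congrFun h 2)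
  have a4 : c / 512 % 2 = 0 := bit 9 (b := false) (congrFun h 3)
  exact mem_or h1 (by omega) hq hc

theorem mem_or2 {g : OG q0} (hg : g ∈ FZ) (hd : Commute g dO) (ht : Tr g) (h : ∀ n ∈ NO, g * n * g⁻¹ ∈ NO) :
    g ∈ NO ∨ g * tO ∈ NO := by
  obtain ⟨c, h1, h2, hq, e, hc⟩ := elem hg hd ht
  refine mem_or h1 (of_decide_eq_true (e2 h1 h2) hq fun k _ => ?_) hq hc
  obtain ⟨k', hk⟩ := h _ ⟨k, rfl⟩
  refine ⟨k', vec_inj' ?_⟩
  rw [← hc, ← cd_n, ← cd_n, ← e, hk, ← OG.mul_app, ← OG.mul_app, inv_mul_cancel_right]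

theorem tt : tO * tO = 1 := (cd_t.mul cd_t).ext cd_one

theorem ntx (k : Fin 16) : nO k * tO * xO * (nO k * tO * xO) * (nO k * tO * xO) = tO := by
  have h := ((cd_n k).mul cd_t).mul cd_x
  exact ((h.mul h).mul h).ext ((by decide +kernel : ∀ k : Fin 16, tL = (xL.map (xs (tL.map (xs (nL k))))).map
    (xs ((xL.map (xs (tL.map (xs (nL k))))).map (xs (xL.map (xs (tL.map (xs (nL k))))))))) k ▸ cd_t)

theorem nn1 {n : OG q0} (h : n ∈ NO) : n * n = 1 := by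
  obtain ⟨k, rfl⟩ := h
  rw [nO_mul, ← nO_zero]; congr 1; revert k; decide

theorem x_fz : xO ∈ FZ := ⟨cd_x 1, cd_x 2⟩
theorem d1 : dO.1 (vec 1) = vec 2 := cd_d 1
theorem d2 : dO.1 (vec 2) = vec 3 := cd_d 2
theorem d3' : dO.1 (vec 3) = vec 1 := cd_d 3

theorem norm_of {g : OG q0} {L : List ℕ} (h : Cd g L)
    (e : ∀ k, ∃ k', (nL k).map (xs L) = L.map (xs (nL k'))) : ∀ n ∈ NO, g * n * g⁻¹ ∈ NO := by
  rintro _ ⟨k, rfl⟩
  obtain ⟨k', e⟩ := e k
  exact ⟨k', eq_mul_inv_of_mul_eq (((cd_n k').mul h).ext (e ▸ h.mul (cd_n k)))⟩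

section
variable {Γ : Type u} [Group Γ] {r : Γ →* OG q0} {θ : Γ →* S5} {α : S5 →* M4} (h : HS r θ α)
include h

theorem part2 (γ : Γ) (h1 : r γ ∈ FZ) (h2 : θ γ = 1) : r γ ∈ NO := by
  refine (mem_or1 h1 (h.nn γ h1 h2).1 (fun i a b => ?_) (h.nn γ h1 h2).2.1).resolve_right ?_
  · simpa [h2] using h.act γ h1 (vec (2 ^ i.1)) (by revert i; decide) (by revert i; decide)
  rintro ⟨k, e⟩
  obtain ⟨ξ, x1, x2⟩ := h.xx
  have e' : r (γ * ξ * (γ * ξ) * (γ * ξ)) = tO := by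
    simp only [map_mul]
    rw [x2, ← ntx k, e, mul_assoc (r γ) tO, tt, mul_one]
  have := (h.nn (γ * ξ * (γ * ξ) * (γ * ξ)) (e' ▸ ⟨cd_t 1, cd_t 2⟩) (by
    simp only [map_mul, h2, x1]; decide)).2.2 (by rw [e', cd_t]; decide)
  have := congrArg (fun g : OG q0 => g.1 (vec 1024)) (e'.symm.trans this)
  simp only [cd_t 1024, OG.one_app] at this
  exact absurd this (by decide)

theorem nlift {n : OG q0} (hn : n ∈ NO) : ∃ γ, r γ ∈ FZ ∧ θ γ = 1 ∧ r γ = n := by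
  obtain ⟨k, rfl⟩ := hn
  obtain ⟨γ, h1, h2, h3⟩ := h.ns (n1 (vec (xs (nL k) 1024)))
  obtain ⟨k', e⟩ := part2 h γ h1 h2
  rw [← e, cd_n] at h3
  exact ⟨γ, h1, h2, by rw [← e, (by decide +kernel : ∀ k k' : Fin 16,
    n1 (vec (xs (nL k') 1024)) = n1 (vec (xs (nL k) 1024)) → k' = k) k k' h3]⟩

theorem nconj (γ : Γ) {n : OG q0} (hn : n ∈ NO) : r γ * n * (r γ)⁻¹ ∈ NO := by
  obtain ⟨ν, h1, h2, rfl⟩ := nlift h hn
  have k : ∀ v, inZ v → (r γ * r ν * (r γ)⁻¹).1 v = v := fun v hv => by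
    rw [OG.mul_app, OG.mul_app, fz_fix h1 (map_inv r γ ▸ h.zb γ⁻¹ v hv), OG.app_inv_app]
  have := part2 h (γ * ν * γ⁻¹) (by simpa only [map_mul, map_inv] using ⟨k _ z1, k _ z2⟩) (by simp [h2])
  simpa only [map_mul, map_inv] using this

theorem zc (γ : Γ) : ∃ a ∈ [1, 2, 3], ∃ b ∈ [1, 2, 3], a ≠ b ∧ (r γ).1 (vec 1) = vec a ∧ (r γ).1 (vec 2) = vec b := by
  have k : ∀ v, inZ v → v ≠ 0 → ∃ a ∈ [1, 2, 3], (r γ).1 v = vec a := fun v hv h0 => by
    rcases inZ_iff.1 (h.zb γ v hv) with e | e | e | e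
    exacts [absurd e (OG.app_ne_zero _ h0), ⟨1, by simp, e⟩, ⟨2, by simp, e⟩, ⟨3, by simp, e⟩]
  obtain ⟨a, ha, e⟩ := k _ z1 (by decide)
  obtain ⟨b, hb, e'⟩ := k _ z2 (by decide)
  exact ⟨a, ha, b, hb, fun c => absurd ((r γ).1.injective (e.trans (c ▸ e'.symm))) (by decide), e, e'⟩

theorem eq_of {γ δ : Γ} (h1 : θ γ = 1) (h2 : θ δ = 1) (h3 : r γ ^ 3 = 1) (h4 : r δ ^ 3 = 1)
    (hc : ∀ n, Commute n dO → Commute n (r δ)) (hF : r (δ⁻¹ * γ) ∈ FZ) : r γ = r δ := by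
  have h5 : θ (δ⁻¹ * γ) = 1 := by simp [h1, h2]
  have h6 := nn1 (part2 h _ hF h5)
  have h7 := hc _ (h.nn _ hF h5).1
  have h8 : r γ = r δ * r (δ⁻¹ * γ) := by simp
  generalize r (δ⁻¹ * γ) = n at h6 h7 h8
  rw [h8, h7.symm.mul_pow, h4, one_mul, pow_succ, pow_two, h6, one_mul] at h3
  rw [h8, h3, mul_one]

theorem nd (γ : Γ) : r γ * dO * (r γ)⁻¹ = dO ∨ r γ * dO * (r γ)⁻¹ = dO⁻¹ := by
  obtain ⟨δ, h1, h2⟩ := h.dd
  have d3 : dO ^ 3 = 1 := by rw [pow_succ, pow_two, d_cube]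
  have e : r (γ * δ * γ⁻¹) = r γ * dO * (r γ)⁻¹ := by simp [h2]
  have fp : ∀ v, v ≠ 0 → (r (γ * δ * γ⁻¹)).1 v ≠ v := fun v h0 k => h0 (by
    rw [e, OG.mul_app, OG.mul_app] at k
    rw [← OG.app_inv_app (r γ) v, d_fpf ((r γ).1.injective (k.trans (OG.app_inv_app _ _).symm)), map_zero])
  have a1 : θ (γ * δ * γ⁻¹) = 1 := by simp [h1]
  have a2 : r (γ * δ * γ⁻¹) ^ 3 = 1 := by rw [e, conj_pow, d3]; simp
  obtain ⟨a, ha, b, hb, ab, e1, e2⟩ := zc h (γ * δ * γ⁻¹)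
  have f1 := fp _ (by decide : vec 1 ≠ 0)
  have f2 := fp _ (by decide : vec 2 ≠ 0)
  have f3 := fp _ (by decide : vec 3 ≠ 0)
  rw [v3, map_add, e1, e2] at f3
  rw [e1] at f1
  rw [e2] at f2
  rcases (by decide : ∀ a ∈ [1, 2, 3], ∀ b ∈ [1, 2, 3], a ≠ b → vec a ≠ vec 1 → vec b ≠ vec 2 →
    vec a + vec b ≠ vec 1 + vec 2 → a = 2 ∧ b = 3 ∨ a = 3 ∧ b = 1) a ha b hb ab f1 f2 f3 with ⟨rfl, rfl⟩ | ⟨rfl, rfl⟩
  · refine .inl (e ▸ h2 ▸ eq_of h a1 h1 a2 (h2 ▸ d3) (fun n hn => h2 ▸ hn) ⟨?_, ?_⟩)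
    · rw [map_mul, OG.mul_app, e1, map_inv, h2, ← d1, OG.inv_app_app]
    · rw [map_mul, OG.mul_app, e2, map_inv, h2, ← d2, OG.inv_app_app]
  · have h3 : r δ⁻¹ = dO⁻¹ := by rw [map_inv, h2]
    refine .inr (e ▸ h3 ▸ eq_of h a1 (by simp [h1]) a2 (by rw [h3, inv_pow, d3, inv_one])
      (fun n hn => h3 ▸ hn.inv_right) ⟨?_, ?_⟩)
    · rw [map_mul, OG.mul_app, e1, inv_inv, h2, d3']
    · rw [map_mul, OG.mul_app, e2, inv_inv, h2, d1]

theorem cd (γ : Γ) (h1 : r γ ∈ FZ) : Commute (r γ) dO := by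
  refine mul_inv_eq_iff_eq_mul.1 ((nd h γ).resolve_right fun e => ?_)
  have := congrArg (fun g : OG q0 => dO.1 (g.1 (vec 1))) e
  simp only [OG.mul_app, (inv_mem h1).1, d1, h1.2, d2, OG.app_inv_app] at this
  exact absurd this (by decide)

theorem lift {g : OG q0} {L : List ℕ} (hL : Cd g L) (i : Fin 4) (h1 : g ∈ FZ) (h2 : Commute g dO)
    (h3 : ∀ k, ∃ k', (nL k).map (xs L) = L.map (xs (nL k')))
    (h4 : ∀ j : Fin 12, 2 ≤ j.1 → j.1 < 10 → vec (xs L (2 ^ j.1)) 10 = 0 ∧ vec (xs L (2 ^ j.1)) 11 = 0 ∧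
      vW [i] (n1 (vec (xs L (2 ^ j.1)))) = n1 (vec (2 ^ j.1)) ∧ vW [i] (n2 (vec (xs L (2 ^ j.1)))) = n2 (vec (2 ^ j.1))) :
    g ∈ r.range ∨ g * tO ∈ r.range := by
  obtain ⟨γ, a1, a2⟩ := h.lift (pW [i])
  have k : ∀ y, r γ * y ∈ NO → y ∈ r.range := fun y hy =>
    let ⟨ν, _, _, e⟩ := nlift h hy
    ⟨γ⁻¹ * ν, by rw [map_mul, e, map_inv, inv_mul_cancel_left]⟩
  refine (mem_or2 (mul_mem a1 h1) ((cd h γ a1).mul_left h2) (fun j a b => ?_) fun n hn => ?_).imp (k _)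
    fun e => k _ (mul_assoc (r γ) g tO ▸ e)
  · obtain ⟨b1, b2, b3, b4⟩ := h4 j a b
    have := h.act γ a1 _ b1 b2
    rwa [a2, h.al.word, mW_mulVec, mW_mulVec, b3, b4, ← hL] at this
  · simpa [mul_assoc] using nconj h γ (norm_of hL h3 n hn)

omit h in
theorem conj_mem {H : Subgroup (OG q0)} {g a b : OG q0} (hg : g ∈ H ∨ g * tO ∈ H) (ha : a ∈ H) (e : g * a = b * g)
    (e' : tO * a = a * tO) : b ∈ H := by
  rcases hg with k | k
  · exact (mul_mem_cancel_right k).1 (e ▸ mul_mem k ha)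
  · refine (mul_mem_cancel_right k).1 ?_
    rw [← mul_assoc, ← e, mul_assoc, ← e', ← mul_assoc]
    exact mul_mem k ha

theorem hx : HX r.range := by
  have x : xO ∈ r.range := let ⟨γ, _, e⟩ := h.xx; ⟨γ, e⟩
  have tau := lift h cd_tau 3 ⟨cd_tau 1, cd_tau 2⟩ ((cd_tau.mul cd_d).ext (cd_d.mul cd_tau)) (by decide +kernel)
    (by decide +kernel)
  have x1 : x1O ∈ r.range := conj_mem (lift h cd_e3 2 ⟨cd_e3 1, cd_e3 2⟩ ((cd_e3.mul cd_d).ext (cd_d.mul cd_e3))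
    (by decide +kernel) (by decide +kernel)) x ((cd_e3.mul cd_x).ext (cd_x1.mul cd_e3))
    ((cd_t.mul cd_x).ext (cd_x.mul cd_t))
  refine ⟨let ⟨γ, _, e⟩ := h.dd; ⟨γ, e⟩, x, x1,
    conj_mem tau x1 ((cd_tau.mul cd_x1).ext (cd_x2.mul cd_tau)) ((cd_t.mul cd_x1).ext (cd_x1.mul cd_t)),
    fun n hn => let ⟨γ, _, _, e⟩ := nlift h hn; ⟨γ, e⟩, tau, ?_, ?_, ?_, ?_, ?_⟩
  · rintro _ ⟨γ, rfl⟩
    exact h.zb γ
  · rintro _ ⟨γ, rfl⟩
    exact cd h γ
  · rintro _ ⟨γ, rfl⟩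
    exact nd h γ
  · rintro _ ⟨γ, rfl⟩
    exact mem_normalizer_iff.2 fun n => ⟨nconj h γ, fun k => by simpa [mul_assoc] using nconj h γ⁻¹ k⟩
  · obtain ⟨γ, a, b⟩ := h.sg
    refine ⟨_, ⟨γ, rfl⟩, a, (nd h γ).resolve_left fun e => b ⟨a, ?_⟩⟩
    rw [← d1, ← OG.mul_app, mul_inv_eq_iff_eq_mul.1 e, OG.mul_app, a]

theorem part3 (γ : Γ) (h1 : θ γ = 1) (g : OG q0) (k : Fin 16) (e : r γ = g * nO k * g⁻¹) : r γ ∈ NO := by
  refine part2 h γ (by_contra fun c => ?_) h1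
  have sq : r γ * r γ = 1 := by rw [e, conj_mul, nn1 ⟨k, rfl⟩]; simp
  have hi : r γ * dO * (r γ)⁻¹ = dO⁻¹ := (nd h γ).resolve_left fun e' => by
    obtain ⟨a, ha, b, -, -, e1, e2⟩ := zc h γ
    have k : ∀ v, (r γ).1 (dO.1 v) = dO.1 ((r γ).1 v) := fun v => by
      rw [← OG.mul_app, mul_inv_eq_iff_eq_mul.1 e', OG.mul_app]
    have s : (r γ).1 (vec a) = vec 1 := by rw [← e1, ← OG.mul_app, sq, OG.one_app]
    simp only [List.mem_cons, List.not_mem_nil, or_false] at ha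
    rcases ha with rfl | rfl | rfl
    · exact c ⟨e1, by rw [← d1, k, e1]⟩
    · rw [← d1, k, e1, d2] at s
      exact absurd s (by decide)
    · rw [← d2, ← d1, k, k, e1, d3', d1] at s
      exact absurd s (by decide)
  have a1 := fx_sq (K := zpowers (r γ)) (K1 := ⊥) bot_le (fun g hg => mem_bot.1 hg ▸ Commute.one_left _)
    (mem_zpowers _) hi
  have a2 : Nat.card (Fx (⊥ : Subgroup (OG q0))) ≤ 4096 :=
    card_V0 ▸ Nat.card_le_card_of_injective _ Subtype.val_injective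
  have a3 : Nat.card ((Finset.range 512).filter fun c => xs (nL k) c = c) ≤ Nat.card (Fx (zpowers (r γ))) := by
    refine Nat.card_le_card_of_injective (fun c => ⟨g.1 (vec c), fun y hy => ?_⟩) fun a b e => Subtype.ext ?_
    · refine (zpowers_le.2 (?_ : r γ ∈ MulAction.stabilizer (OG q0) (g.1 (vec c))) hy :)
      change (r γ).1 _ = _
      rw [e, OG.mul_app, OG.mul_app, OG.inv_app_app, cd_n, (Finset.mem_filter.1 c.2).2]
    · have ha := Finset.mem_range.1 (Finset.mem_filter.1 a.2).1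
      have hb := Finset.mem_range.1 (Finset.mem_filter.1 b.2).1
      exact vec_inj (by omega) (by omega) (g.1.injective (congrArg Subtype.val e))
  rw [Nat.card_eq_fintype_card, Fintype.card_coe] at a3
  have := Nat.pow_le_pow_left ((e3 k).trans a3) 2
  omega

end

end P0x

theorem p0 : P0.{u} := fun _ _ _ _ _ h => ⟨P0x.hx h, P0x.part2 h, fun γ h1 ⟨g, k, e⟩ => P0x.part3 h γ h1 g k e,
  fun g hg v hv => fx_NO.1 fun n hn => by
    have : Finite NO := (Set.finite_range nO).to_subtype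
    have k : g ∈ normalizer (NO : Set (OG q0)) := mem_normalizer_fintype (by rintro _ ⟨k, rfl⟩; exact hg k)
    have := fx_NO.2 hv _ ((mem_normalizer_iff.1 (inv_mem k) n).1 hn)
    rw [inv_inv, OG.mul_app, OG.mul_app] at this
    rw [← OG.app_inv_app g (n.1 _), this]⟩

end CL.Pen
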