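/-
Project PEN (S3321): the orbit of the vector `vec 1`.
-/
import Cfsg.Agent.Pen.E

set_option autoImplicit false

namespace CL.Pen

open Cfsg Subgroup Matrix CL.Cls CL.Grp CL.Even CL.L10 CL.Mx QuadraticMap

namespace P1x

section
variable {G β : Type*} [Group G] [Finite G] [Finite β] {s : Set G} {t : Set β} (f : G → β) (C : Subgroup G)

theorem cos_le (m : G → G → G) (hm : ∀ a, Function.Injective (m a)) (h1 : ∀ a ∈ s, f a ∈ t)
    (h2 : ∀ a ∈ s, ∀ b ∈ s, f a = f b → m a b ∈ C) : s.ncard ≤ Nat.card C * t.ncard := by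
  choose! σ hσ using fun y (h : y ∈ f '' s) => h
  rw [← Nat.card_coe_set_eq, ← Nat.card_coe_set_eq, ← Nat.card_prod]
  refine Nat.card_le_card_of_injective (fun a : s => ((⟨m (σ (f a)) a, h2 _ (hσ _ ⟨a, a.2, rfl⟩).1 _ a.2
    (hσ _ ⟨a, a.2, rfl⟩).2⟩ : C), (⟨f a, h1 a a.2⟩ : t))) fun a b e => ?_
  simp only [Prod.mk.injEq, Subtype.mk.injEq] at e
  exact Subtype.ext (hm _ (e.2 ▸ e.1))

theorem cos_ge (h : ∀ y ∈ t, ∃ a, ∀ c ∈ C, a * c ∈ s ∧ f (a * c) = y) : Nat.card C * t.ncard ≤ s.ncard := by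
  choose σ hσ using h
  rw [← Nat.card_coe_set_eq, ← Nat.card_coe_set_eq, ← Nat.card_prod]
  refine Nat.card_le_card_of_injective (fun x : C × t => (⟨σ x.2 x.2.2 * x.1, (hσ _ _ _ x.1.2).1⟩ : s)) ?_
  rintro ⟨c, y⟩ ⟨c', y'⟩ e
  have e := congrArg Subtype.val e
  obtain rfl : y = y' := Subtype.ext ((hσ _ y.2 _ c.2).2.symm.trans ((congrArg f e).trans (hσ _ y'.2 _ c'.2).2))
  exact Prod.ext (Subtype.ext (mul_left_cancel e)) rfl
end

instance : Finite (OG q0) := Finite.of_injective (fun g : OG q0 => (g.1 : V0 → V0)) fun _ _ e => OG.ext' (congrFun e)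

/-- the stabiliser of `vec 1` -/
def St : Subgroup (OG q0) where
  carrier := {g | g.1 (vec 1) = vec 1}
  mul_mem' := fun a b => by rw [Set.mem_setOf_eq, OG.mul_app, b, a]
  one_mem' := rfl
  inv_mem' := fun {g} a => by rw [Set.mem_setOf_eq, ← a, OG.inv_app_app, a]

theorem d1 : dO.1 (vec 1) = vec 2 := cd_d 1
theorem d2 : dO.1 (vec 2) = vec 3 := cd_d 2
theorem d3' : dO.1 (vec 3) = vec 1 := cd_d 3
theorem v1 : vec 1 ≠ 0 := by decide
theorem nn : nO 1 * nO 1 = 1 := (nO_mul 1 1).trans nO_zero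
theorem n1' : nO 1 ≠ 1 := fun e => absurd ((cd_n 1 32).symm.trans (e ▸ rfl : (nO 1).1 (vec 32) = vec 32)) (by decide)

theorem fz {g : OG q0} (h : g ∈ St) (e : g * dO * g⁻¹ = dO) : g ∈ FZ :=
  ⟨h, by rw [← d1, ← OG.mul_app, mul_inv_eq_iff_eq_mul.1 e, OG.mul_app, h]⟩

theorem fixn : {v | (nO 1).1 v = v}.ncard = 256 :=
  (ncard_cntB (f := fun c => xs (nL 1) c == c) fun c hc => by
    have := of_decide_eq_true (allB_spec (by decide +kernel : allB (fun c => decide (xs (nL 1) c < 4096)) 12 0 = true) hc)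
    rw [Set.mem_setOf_eq, cd_n, beq_iff_eq]
    exact ⟨vec_inj this hc, congrArg vec⟩).trans (by decide +kernel)

variable {H0 H : Subgroup (OG q0)} (h : HH H0 H)
include h

theorem cT : 3840 ≤ Nat.card ↥(H ⊓ St) := by
  obtain ⟨g, g0, g1, g2⟩ := h.hx.sg
  have l : H0 ⊓ FZ ≤ H ⊓ St := inf_le_inf h.le fun _ a => a.1
  obtain ⟨k, hk⟩ := card_dvd_of_le l
  have : H0 ⊓ FZ ≠ H ⊓ St := fun e => by
    have := (h.hx.cd g g0 (e.ge ⟨h.le g0, g1⟩).2).eq
    rw [this, mul_inv_cancel_right, eq_inv_iff_mul_eq_one] at g2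
    have k := d_cube
    rw [g2, one_mul] at k
    exact absurd (d1.symm.trans (k ▸ rfl : dO.1 (vec 1) = vec 1)) (by decide)
  have p := Nat.card_pos (α := ↥(H ⊓ St))
  have : k ≠ 1 := fun e => this (eq_of_le_of_card_ge l (by rw [hk, e, mul_one]))
  rw [h.hc.card] at hk
  rcases k with _ | _ | k <;> omega

theorem cC : Nat.card ↥(H ⊓ centralizer {nO 1}) ≤ 3840 := by
  have a := cos_le (s := ↑(H ⊓ St ⊓ centralizer {nO 1})) (t := {dO, dO⁻¹}) (fun g => g * dO * g⁻¹)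
    (H0 ⊓ FZ ⊓ centralizer {nO 1}) (fun a b => a⁻¹ * b) (fun _ => mul_right_injective _)
    (fun a ha => h.hx.nd a (h.stab a ha.1.1 ha.1.2)) fun a ha b hb e => by
      have k := mul_mem (inv_mem ha) hb
      refine ⟨⟨h.stab _ k.1.1 k.1.2, fz k.1.2 ?_⟩, k.2⟩
      calc _ = a⁻¹ * (b * dO * b⁻¹) * a := by group
        _ = dO := by rw [← show a * dO * a⁻¹ = _ from e]; group
  have b := cos_le (s := ↑(H ⊓ centralizer {nO 1}))
    (t := vec '' ({1, 2, 3, 4, 5, 6, 7, 64, 65, 66, 67, 68, 69, 70, 71} : Finset ℕ)) (fun g => g.1 (vec 1))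
    (H ⊓ St ⊓ centralizer {nO 1}) (fun a b => a⁻¹ * b) (fun _ => mul_right_injective _) (fun g hg => by
      obtain ⟨c, hc, e⟩ := vec_surj (g.1 (vec 32))
      have k : g.1 (vec 1) = vec (c ^^^ xs (nL 1) c) := by
        rw [vec_xor, ← cd_n, e, ← OG.mul_app, ← mem_centralizer_singleton_iff.1 hg.2, OG.mul_app, ← map_add, cd_n,
          ← vec_xor]
        rfl
      have := of_decide_eq_true (allB_spec (by decide +kernel : allB (fun c => decide (c ^^^ xs (nL 1) c < 72 ∧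
        (c ^^^ xs (nL 1) c) % 64 < 8)) 12 0 = true) hc)
      have z : c ^^^ xs (nL 1) c ≠ 0 := fun z => OG.app_ne_zero g v1 (by rw [k, z, vec_zero])
      refine ⟨_, ?_, k.symm⟩
      simp only [Finset.coe_insert, Finset.coe_singleton, Set.mem_insert_iff, Set.mem_singleton_iff]
      omega) fun a ha b hb e => by
      have k := mul_mem (inv_mem ha) hb
      refine ⟨⟨k.1, ?_⟩, k.2⟩
      change a⁻¹.1 (b.1 (vec 1)) = _
      rw [← show a.1 (vec 1) = _ from e, OG.inv_app_app]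
  have c := (Set.ncard_image_le (f := vec)
    (s := ↑({1, 2, 3, 4, 5, 6, 7, 64, 65, 66, 67, 68, 69, 70, 71} : Finset ℕ))).trans (Set.ncard_coe_finset _).le
  have d : ({dO, dO⁻¹} : Set (OG q0)).ncard ≤ 2 := (Set.ncard_insert_le _ _).trans (by simp)
  rw [h.hc.cn, ← Nat.card_coe_set_eq] at a
  rw [← Nat.card_coe_set_eq] at b
  exact b.trans (Nat.mul_le_mul (a.trans (Nat.mul_le_mul_left _ d)) c)

theorem fix_le : {w | (∃ g ∈ H, g.1 (vec 1) = w) ∧ (nO 1).1 w = w}.ncard ≤ 115 := by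
  have nH : nO 1 ∈ H := h.le (h.hx.n ⟨1, rfl⟩)
  have a := cos_ge (s := {g | g ∈ H ∧ (nO 1).1 (g.1 (vec 1)) = g.1 (vec 1)})
    (t := {w | (∃ g ∈ H, g.1 (vec 1) = w) ∧ (nO 1).1 w = w}) (fun g => g.1 (vec 1)) (H ⊓ St) (by
      rintro _ ⟨⟨g, hg, rfl⟩, e⟩
      refine ⟨g, fun c hc => ?_⟩
      have k : (g * c).1 (vec 1) = g.1 (vec 1) := by rw [OG.mul_app, hc.2]
      exact ⟨⟨mul_mem hg hc.1, by rw [k, e]⟩, k⟩)
  have b := cos_le (s := {g | g ∈ H ∧ (nO 1).1 (g.1 (vec 1)) = g.1 (vec 1)})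
    (t := {g | g ∈ H0 ⊓ FZ ∧ orderOf g = 2}) (fun g => g⁻¹ * nO 1 * g) (H ⊓ centralizer {nO 1})
    (fun a b => b * a⁻¹) (fun _ => mul_left_injective _) (fun g hg => by
      have s : g⁻¹ * nO 1 * g ∈ St := by
        change g⁻¹.1 ((nO 1).1 (g.1 (vec 1))) = _
        rw [hg.2, OG.inv_app_app]
      have k := h.stab _ (mul_mem (mul_mem (inv_mem hg.1) nH) hg.1) s
      refine ⟨⟨k, fz s ((h.hx.nd _ k).resolve_right fun e => ?_)⟩, orderOf_eq_prime ?_ fun e => n1' ?_⟩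
      · have a := fx_sq (K1 := ⊥) bot_le (fun g hg => mem_bot.1 hg ▸ Commute.one_left _) (mem_zpowers _) e
        have b := (Nat.card_le_card_of_injective _ (Fx (⊥ : Subgroup (OG q0))).subtype_injective).trans card_V0.le
        have c : 256 ≤ Nat.card (Fx (zpowers (g⁻¹ * nO 1 * g))) := by
          rw [← fixn, ← Set.ncard_image_of_injective _ g⁻¹.1.injective]
          refine Set.ncard_le_ncard (t := (Fx (zpowers (g⁻¹ * nO 1 * g)) : Set V0)) ?_
          rintro _ ⟨v, hv, rfl⟩ _ ⟨i, rfl⟩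
          refine MulAction.fixedBy_subset_fixedBy_zpow V0 (g⁻¹ * nO 1 * g) i ?_
          change g⁻¹.1 ((nO 1).1 (g.1 (g⁻¹.1 v))) = _
          rw [OG.app_inv_app, hv]
        nlinarith
      · calc _ = g⁻¹ * (nO 1 * nO 1) * g := by rw [pow_two]; group
          _ = 1 := by rw [nn]; group
      · calc _ = g * (g⁻¹ * nO 1 * g) * g⁻¹ := by group
          _ = 1 := by rw [e]; group) fun a ha b hb e =>
      ⟨H.mul_mem hb.1 (H.inv_mem ha.1), mem_centralizer_singleton_iff.2 (by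
        calc _ = b * (a⁻¹ * nO 1 * a) * a⁻¹ := by group
          _ = _ := by rw [show a⁻¹ * nO 1 * a = _ from e]; group)⟩
  have := (Nat.mul_le_mul_right _ (cT h)).trans (a.trans (b.trans (Nat.mul_le_mul (cC h) h.hc.inv)))
  omega

end P1x

namespace P1x

def tab (i j : ℕ) : ℕ := ([[3, 90, 90, 240, 60, 60, 160, 160, 96, 96], [3, 58, 58, 112, 28, 28, 256, 256, 128, 128],
  [3, 58, 58, 112, 28, 28, 224, 224, 160, 160], [3, 42, 42, 144, 28, 28, 240, 240, 144, 144],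
  [3, 42, 42, 112, 60, 28, 240, 240, 144, 144], [], [1, 48, 42, 120, 30, 30, 264, 232, 144, 144],
  [1, 48, 42, 120, 30, 30, 232, 264, 144, 144], [1, 40, 50, 120, 30, 30, 240, 240, 168, 136],
  [1, 40, 50, 120, 30, 30, 240, 240, 136, 168]].getD i []).getD j 0

/-- orthogonality to `vec (rep i)` -/
def pB (i c : ℕ) : Bool := ([[11], [9], [10, 9], [8, 5], [8, 7, 5], [], [1], [11, 1], [1, 4, 3], [11, 1, 4, 3]].getD i
  []).foldr (fun k b => c.testBit k ^^ b) false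

theorem pB_eq (c : ℕ) : ∀ i ∈ [0, 1, 2, 3, 4, 6, 7, 8, 9], polar q0 (vec (rep i)) (vec c) = b2 (pB i c) := by
  simp [polar_q0, fN, n1, n2, vec, rep, pB, b2_xor, Nat.testBit, add_assoc]

theorem cnt_tab : ∀ i ∈ [0, 1, 2, 3, 4, 6, 7, 8, 9], ∀ j < 10,
    cntB (fun c => Nat.beq (lab c) j && !pB i c) 12 0 = tab i j := by decide +kernel

theorem split (β g : ℕ → Bool) (h : ∀ j, β j = true → j < 10) : cntB (fun c => β (lab c) && g c) 12 0 =
    ∑ j ∈ Finset.range 10, cond (β j) (cntB (fun c => Nat.beq (lab c) j && g c) 12 0) 0 := by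
  have : ∀ j, cond (β j) (cntB (fun c => Nat.beq (lab c) j && g c) 12 0) 0 =
      ∑ a ∈ Finset.range (2 ^ 12), if lab a = j then cond (β (lab a) && g a) 1 0 else 0 := fun j => by
    cases e : β j
    · exact (Finset.sum_eq_zero fun a _ => by split_ifs with k <;> simp [*]).symm
    · rw [cond_true, cntB_aux]
      refine Finset.sum_congr rfl fun a _ => ?_
      split_ifs with k
      · simp [k, e]
      · simp [Bool.eq_false_iff.2 (mt Nat.eq_of_beq_eq_true k)]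
  simp only [this]
  rw [Finset.sum_comm, cntB_aux]
  refine Finset.sum_congr rfl fun a _ => ?_
  rw [Finset.sum_ite_eq, zero_mul, zero_add]
  split_ifs with k
  · rfl
  · rw [Bool.eq_false_iff.2 fun e => k (Finset.mem_range.2 (h _ e))]; rfl

def sm (β : ℕ → Bool) (i : ℕ) : ℕ := ∑ j ∈ Finset.range 10, cond (β j) (tab i j) 0

def bf (l : List Bool) (j : ℕ) : Bool := (true :: l).getD j false

set_option synthInstance.maxSize 1000 in
theorem fin : ∀ a b c d e f g h i : Bool, d = e ∧ (h = i ∨ f = g) → ¬ (a = true ∧ c = true ∧ d = true) →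
    (∀ k ∈ [0, 1, 2, 3, 4, 6, 7, 8, 9], bf [a, b, c, d, e, f, g, h, i] k = true →
      sm (bf [a, b, c, d, e, f, g, h, i]) k = sm (bf [a, b, c, d, e, f, g, h, i]) 0) →
    ∃ l ∈ [[0], [0, 1, 4, 5, 6], [0, 1, 4, 5, 7]], ∀ j < 16, bf [a, b, c, d, e, f, g, h, i] j = true ↔ j ∈ l := by
  decide +kernel

end P1x

open P1x in
theorem p1 : P1 := fun H0 H h => by
  classical
  let Ω : V0 → Prop := fun w => ∃ g ∈ H, g.1 (vec 1) = w
  have inv : ∀ g ∈ H, ∀ w, Ω (g.1 w) ↔ Ω w := fun g hg w =>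
    ⟨fun ⟨k, hk, e⟩ => ⟨g⁻¹ * k, mul_mem (inv_mem hg) hk, by rw [OG.mul_app, e, OG.inv_app_app]⟩,
      fun ⟨k, hk, e⟩ => ⟨g * k, mul_mem hg hk, by rw [OG.mul_app, e]⟩⟩
  let β : ℕ → Bool := fun j => decide (j < 10 ∧ Ω (vec (rep j)))
  have lt : ∀ j, β j = true → j < 10 := fun j e => (of_decide_eq_true e).1
  have mem : ∀ c < 4096, Ω (vec c) ↔ β (lab c) = true := fun c hc => by
    rw [decide_eq_true_eq]
    refine (and_iff_right_of_imp (a := lab c < 10) ?_).symm.trans (and_congr_right fun l => ?_)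
    · rintro ⟨g, -, e⟩
      refine (lab_sing hc).1.2 ⟨fun z => OG.app_ne_zero g v1 (by rw [e, z, vec_zero]), b2_inj ?_⟩
      rw [← q0_vec, ← e, OG.map_app, q0_vec]; rfl
    · obtain ⟨g, hg, e⟩ := lab_reach hc l
      rw [← inv g (h.le (h.hx.BO_le hg)) (vec (rep _)), e]
  have e : β = bf [β 1, β 2, β 3, β 4, β 5, β 6, β 7, β 8, β 9] := funext fun j => by
    rcases lt_or_ge j 10 with l | l
    · interval_cases j
      exacts [decide_eq_true ⟨l, 1, one_mem _, rfl⟩, rfl, rfl, rfl, rfl, rfl, rfl, rfl, rfl, rfl]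
    · obtain ⟨j, rfl⟩ := Nat.exists_eq_add_of_le' l
      exact Bool.eq_false_iff.2 fun k => absurd (lt _ k) (by omega)
  have pm : ∀ g ∈ H, ∀ L, Cd g L → ∀ i < 10, xs L (rep i) < 4096 → β (lab (xs L (rep i))) = β i :=
    fun g hg L c i hi l => Bool.eq_iff_iff.2 (by
      rw [← mem _ l, ← c, inv g hg, mem _ (lab_rep i hi).1, (lab_rep i hi).2])
  have pc : ∀ k ∈ [0, 1, 2, 3, 4, 6, 7, 8, 9], {w | Ω w ∧ polar q0 (vec (rep k)) w = 0}.ncard = sm β k := fun k hk => by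
    rw [ncard_cntB (f := fun c => β (lab c) && !pB k c) fun c hc => by
      rw [Set.mem_setOf_eq, mem c hc, pB_eq c k hk]; cases pB k c <;> simp, split β _ lt]
    exact Finset.sum_congr rfl fun j hj => by rw [cnt_tab k hk j (Finset.mem_range.1 hj)]
  obtain ⟨l, hl, k⟩ := fin (β 1) (β 2) (β 3) (β 4) (β 5) (β 6) (β 7) (β 8) (β 9) (by
      rcases h.hx.tau with t | t
      · have := fun i hi => (lab_tau i hi).2.2.1 ▸ pm _ (h.le t) _ cd_tau i hi (lab_tau i hi).1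
        exact ⟨this 5 (by omega), .inl (this 9 (by omega))⟩
      · have := fun i hi => (lab_tau i hi).2.2.2 ▸ pm _ (h.le t) _ cd_taut i hi (lab_tau i hi).2.1
        exact ⟨this 5 (by omega), .inr (this 7 (by omega))⟩) (fun ⟨b1, b3, b4⟩ => by
      have b5 : β 5 = true := by
        rcases h.hx.tau with t | t
        · exact ((lab_tau 4 (by omega)).2.2.1 ▸ pm _ (h.le t) _ cd_tau 4 (by omega) (lab_tau 4 (by omega)).1).trans b4
        · exact ((lab_tau 4 (by omega)).2.2.2 ▸ pm _ (h.le t) _ cd_taut 4 (by omega) (lab_tau 4 (by omega)).2.1).trans b4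
      have a : {w | ∃ c < 4096, vec c = w ∧ lab c ∈ [0, 1, 3, 4, 5] ∧ xs (nL 1) c = c}.ncard = 117 :=
        (ncard_cntB (f := fun c => decide (lab c ∈ [0, 1, 3, 4, 5] ∧ xs (nL 1) c = c)) fun c hc => by
          rw [decide_eq_true_eq]
          exact ⟨fun ⟨c', a, b, k⟩ => vec_inj a hc b ▸ k, fun k => ⟨c, hc, rfl, k⟩⟩).trans (by decide +kernel)
      refine absurd (a.ge.trans ((Set.ncard_le_ncard ?_).trans (fix_le h))) (by omega)
      rintro _ ⟨c, hc, rfl, k1, k2⟩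
      refine ⟨(mem c hc).2 ?_, by rw [cd_n, k2]⟩
      simp only [List.mem_cons, List.not_mem_nil, or_false] at k1
      rcases k1 with k | k | k | k | k <;> rw [k]
      exacts [congrFun e 0, b1, b3, b4, b5]) (by
      rw [← e]
      intro k hk b
      obtain ⟨g, hg, a⟩ := (of_decide_eq_true b).2
      rw [← pc k hk, ← pc 0 (by simp), ← Set.ncard_image_of_injective {w | Ω w ∧ polar q0 (vec (rep 0)) w = 0}
        g.1.injective]
      congr 1
      ext w
      obtain ⟨w, rfl⟩ := g.1.surjective w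
      rw [g.1.injective.mem_set_image, Set.mem_setOf_eq, Set.mem_setOf_eq, inv g hg, ← a, OG.polar_app]
      rfl)
  rw [← e] at k
  have k' : ∀ c < 4096, Ω (vec c) ↔ lab c ∈ l := fun c hc => (mem c hc).trans (k _ (Nat.mod_lt _ (by omega)))
  simp only [List.mem_cons, List.not_mem_nil, or_false] at hl
  rcases hl with rfl | rfl | rfl
  · refine absurd (fun g hg => ?_) h.ne
    obtain ⟨c, hc, a⟩ := vec_surj (g.1 (vec 1))
    obtain ⟨l1, l2⟩ := (lab_sing hc).2.1 (List.mem_singleton.1 ((k' c hc).1 ⟨g, hg, a.symm⟩))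
    have dH := h.le h.hx.d
    interval_cases c
    · exact h.stab g hg a.symm
    · exact (mul_mem_cancel_left (mul_mem h.hx.d h.hx.d)).1 (h.stab _ (mul_mem (mul_mem dH dH) hg)
        (by rw [OG.mul_app, ← a, OG.mul_app, d2, d3']))
    · exact (mul_mem_cancel_left h.hx.d).1 (h.stab _ (mul_mem dH hg) (by rw [OG.mul_app, ← a, d3']))
  · exact ⟨om6, .inl rfl, fun c hc => (k' c hc).trans (om6_iff hc).symm⟩
  · exact ⟨om7, .inr rfl, fun c hc => (k' c hc).trans (om7_iff hc).symm⟩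

end CL.Pen
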