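/-
Project PEN (S3321): the subgroup generated by `d` is normal in `H`.
-/
import Cfsg.Agent.Pen.E

set_option autoImplicit false

namespace CL.Pen

open Cfsg Subgroup Matrix CL.Cls CL.Grp CL.Even CL.L10 CL.Mx QuadraticMap

namespace P2x

variable {H0 H : Subgroup (OG q0)}

theorem d1 : dO.1 (vec 1) = vec 2 := cd_d 1
theorem d2 : dO.1 (vec 2) = vec 3 := cd_d 2
theorem d3 : dO.1 (vec 3) = vec 1 := cd_d 3
theorem v1 : vec 1 ≠ 0 := by decide
theorem v2 : vec 2 ≠ 0 := by decide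

theorem mem0 (h : HH H0 H) {g : OG q0} (hg : g ∈ H) (z : inZ (g.1 (vec 1))) : g ∈ H0 := by
  have hd := h.hx.d
  rcases inZ_iff.1 z with e | e | e | e
  · exact absurd e (OG.app_ne_zero g v1)
  · exact h.stab g hg e
  · exact (mul_mem_cancel_left (mul_mem hd hd)).1 (h.stab _ (mul_mem (h.le (mul_mem hd hd)) hg)
      (by rw [OG.mul_app, OG.mul_app, e, d2, d3]))
  · exact (mul_mem_cancel_left hd).1 (h.stab _ (mul_mem (h.le hd) hg) (by rw [OG.mul_app, e, d3]))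

theorem vec_mod {a c : ℕ} (hc : c < 4096) (e : vec a = vec c) : a % 4096 = c :=
  vec_inj (Nat.mod_lt _ (by norm_num)) hc (e ▸ funext fun i => by
    rw [vec, vec, show 4096 = 2 ^ 12 from rfl, Nat.testBit_mod_two_pow, decide_eq_true i.2, Bool.true_and])

theorem inZ_vec {c : ℕ} (h : c ≤ 3) : inZ (vec c) := by interval_cases c <;> (unfold inZ; decide)

/-- the action of a word -/
def apW : List ℕ → ℕ → ℕ
  | [], c => c
  | k :: w, c => xs (gL k) (apW w c)

theorem ex_word : ∀ w : List ℕ, ∃ g ∈ BO, ∀ c, g.1 (vec c) = vec (apW w c)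
  | [] => ⟨1, one_mem _, fun _ => rfl⟩
  | k :: w => by
    obtain ⟨g, hg, e⟩ := ex_word w
    exact ⟨_, mul_mem (g_BO k) hg, fun c => by rw [OG.mul_app, e, cd_g, apW]⟩

/-- words fixing the representatives -/
def stW (i : ℕ) : List (List ℕ) :=
  [[], [[4], [2, 3], [1, 1, 4, 1]], [], [], [[4], [0, 1, 4, 3, 1]], [[4], [0, 1, 4, 2, 1]], [[1]], [[1]]].getD i []

def chk (om i c : ℕ) : Bool := decide (om.testBit c = true → om.testBit (c ^^^ rep i) = true → 3 < c →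
  3 < c ^^^ rep i → (∀ w ∈ stW i, apW w c % 4096 = c ∨ apW w c % 4096 = c ^^^ rep i) →
  xs dL (rep i) = c ∨ xs dL (rep i) = c ^^^ rep i)

theorem chk6 : ∀ i ∈ [1, 4, 5, 6], allB (chk om6 i) 12 0 = true := by decide +kernel
theorem chk7 : ∀ i ∈ [1, 4, 5, 7], allB (chk om7 i) 12 0 = true := by decide +kernel
theorem st_fix : ∀ i < 10, (∀ w ∈ stW i, apW w (rep i) = rep i) ∧ (i ≠ 0 → ¬ inZ (vec (rep i))) := by
  unfold inZ; decide +kernel

theorem claimR (h : HH H0 H) {om i : ℕ} (ho : ∀ c < 4096, (∃ h ∈ H, h.1 (vec 1) = vec c) → om.testBit c = true)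
    (hi : i < 10) (k : i = 0 ∨ allB (chk om i) 12 0 = true) {g : OG q0} (hg : g ∈ H) (e : g.1 (vec 1) = vec (rep i)) :
    inZ ((g⁻¹ * dO * g).1 (vec 1)) := by
  have hd := h.hx.d
  by_cases i0 : i = 0
  · subst i0
    have := h.stab g hg e
    exact h.hx.zb _ (mul_mem (mul_mem (inv_mem this) hd) this) _ (inZ_vec (by norm_num))
  have n0 : g ∉ H0 := fun k => (st_fix i hi).2 i0 (e ▸ h.hx.zb g k _ (inZ_vec (by norm_num)))
  obtain ⟨c, hc, e2⟩ := vec_surj (g.1 (vec 2))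
  have hc' : c ^^^ rep i < 4096 := Nat.xor_lt_two_pow (n := 12) hc (lab_rep i hi).1
  have e3 : g.1 (vec 3) = vec (c ^^^ rep i) := by rw [vec_xor, e2, ← e, ← map_add, ← vec_xor]; rfl
  have a2 : (g * dO).1 (vec 1) = vec c := by rw [OG.mul_app, d1, e2]
  have a3 : (g * (dO * dO)).1 (vec 1) = vec (c ^^^ rep i) := by rw [OG.mul_app, OG.mul_app, d1, d2, e3]
  have m2 := mul_mem hg (h.le hd)
  have m3 := mul_mem hg (h.le (mul_mem hd hd))
  have := of_decide_eq_true (allB_spec (k.resolve_left i0) hc) (ho _ hc ⟨_, m2, a2⟩) (ho _ hc' ⟨_, m3, a3⟩)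
    (by_contra fun l => n0 ((mul_mem_cancel_right hd).1 (mem0 h m2 (a2 ▸ inZ_vec (by omega)))))
    (by_contra fun l => n0 ((mul_mem_cancel_right (mul_mem hd hd)).1 (mem0 h m3 (a3 ▸ inZ_vec (by omega)))))
    fun w hw => by
      obtain ⟨u, hu, eu⟩ := ex_word w
      have f1 : (g⁻¹ * u * g).1 (vec 1) = vec 1 := by
        rw [OG.mul_app, OG.mul_app, e, eu, (st_fix i hi).1 w hw, ← e, OG.inv_app_app]
      have f2 : g.1 ((g⁻¹ * u * g).1 (vec 2)) = vec (apW w c) := by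
        rw [OG.mul_app, OG.mul_app, OG.app_inv_app, ← e2, eu]
      rcases inZ_iff.1 (h.hx.zb _ (h.stab _ (mul_mem (mul_mem (inv_mem hg) (h.le (h.hx.BO_le hu))) hg) f1) _
        (inZ_vec (c := 2) (by norm_num))) with l | l | l | l
      · exact absurd l (OG.app_ne_zero _ v2)
      · exact absurd ((g⁻¹ * u * g).1.injective (l.trans f1.symm)) (by decide)
      · exact .inl (vec_mod hc (by rw [← f2, l, e2]))
      · exact .inr (vec_mod hc' (by rw [← f2, l, e3]))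
  rw [OG.mul_app, OG.mul_app, e, cd_d]
  rcases this with l | l
  · rw [l, e2, OG.inv_app_app]; exact inZ_vec (by norm_num)
  · rw [l, ← e3, OG.inv_app_app]; exact inZ_vec (by norm_num)

theorem claimA (h : HH H0 H) (ho : OM H) {g : OG q0} (hg : g ∈ H) : inZ ((g⁻¹ * dO * g).1 (vec 1)) := by
  obtain ⟨om, h1, h2⟩ := ho
  obtain ⟨c, hc, e⟩ := vec_surj (g.1 (vec 1))
  have k := (h2 c hc).1 ⟨g, hg, e.symm⟩
  have l : lab c < 10 ∧ (lab c = 0 ∨ allB (chk om (lab c)) 12 0 = true) := by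
    rcases h1 with rfl | rfl
    · have := (om6_iff hc).1 k
      exact ⟨by simp at this; omega, (List.mem_cons.1 this).imp_right (chk6 _)⟩
    · have := (om7_iff hc).1 k
      exact ⟨by simp at this; omega, (List.mem_cons.1 this).imp_right (chk7 _)⟩
  obtain ⟨u, hu, eu⟩ := lab_reach hc l.1
  have := claimR h (fun c hc => (h2 c hc).1) l.1 l.2 (mul_mem (inv_mem (h.le (h.hx.BO_le hu))) hg)
    (by rw [OG.mul_app, ← e, ← eu, OG.inv_app_app])
  rwa [show (u⁻¹ * g)⁻¹ * dO * (u⁻¹ * g) = g⁻¹ * (u * dO * u⁻¹) * g by group,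
    mem_centralizer_singleton_iff.1 (BO_le_cd hu), mul_inv_cancel_right] at this

theorem claimB (h : HH H0 H) {k e : OG q0} (hk : k ∈ H0) (he : e ∈ H0) (c1 : Commute k dO) (k3 : k ^ 3 = 1)
    (fp : ∀ v, k.1 v = v → v = 0) (c2 : ∀ c, Commute c dO → Commute c e) (e3 : e ^ 3 = 1)
    (e1 : k.1 (vec 1) = e.1 (vec 1)) {v : V0} (hv : v ≠ 0) (fv : (e * xO).1 v = v) : k = e := by
  have f1 : (e⁻¹ * k).1 (vec 1) = vec 1 := by rw [OG.mul_app, e1, OG.inv_app_app]
  have c3 : Commute dO (e⁻¹ * k) := (c2 _ (Commute.refl _)).inv_right.mul_right c1.symm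
  have f2 : (e⁻¹ * k).1 (vec 2) = vec 2 := by rw [← d1, ← OG.mul_app, ← c3.eq, OG.mul_app, f1]
  refine (inv_mul_eq_one.1 (by_contra fun n => ?_)).symm
  have : Fact (Nat.Prime 3) := ⟨Nat.prime_three⟩
  obtain ⟨c, hc, ec⟩ := h.hc.three _ ⟨H0.mul_mem (H0.inv_mem he) hk, f1, f2⟩
    (orderOf_eq_prime (by rw [(c2 k c1).symm.inv_left.mul_pow, inv_pow, e3, k3, inv_one, mul_one]) n)
  have e4 : c⁻¹ * (e * xO) * c = k := by
    rw [← ec, ← mul_assoc e, ← mul_assoc e, ← (c2 c (h.hx.cd c hc.1 hc.2)).eq]; group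
  exact OG.app_ne_zero c⁻¹ hv (fp _ (by rw [← e4, OG.mul_app, OG.mul_app, OG.app_inv_app, fv]))

end P2x

open P2x in
theorem p2 : P2 := by
  intro H0 H h ho g hg
  have hd := h.hx.d
  have d3' : dO ^ 3 = 1 := by rw [pow_three', d_cube]
  have z := claimA h ho (inv_mem hg)
  rw [inv_inv] at z
  have hk := mem0 h (mul_mem (mul_mem hg (h.le hd)) (inv_mem hg)) z
  have k3 : (g * dO * g⁻¹) ^ 3 = 1 := by rw [conj_pow, d3', mul_one, mul_inv_cancel]
  have fp : ∀ v, (g * dO * g⁻¹).1 v = v → v = 0 := fun v e => (g⁻¹).1.map_eq_zero_iff.1 (d_fpf (by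
    conv_rhs => rw [← e, OG.mul_app, OG.mul_app, OG.inv_app_app]))
  generalize g * dO * g⁻¹ = k at *
  have c1 : Commute k dO := by
    refine (h.hx.nd k hk).elim (fun e => mul_inv_eq_iff_eq_mul.1 e) fun e => absurd (d_fpf (v := vec 1) ?_) v1
    have e1 : k * dO⁻¹ * k⁻¹ = dO := inv_injective (by rw [conj_inv, inv_inv, e])
    have e2 : dO = dO⁻¹ := by
      calc dO = k ^ 3 * dO * (k ^ 3)⁻¹ := by rw [k3]; group
        _ = k * (k * (k * dO * k⁻¹) * k⁻¹) * k⁻¹ := by rw [pow_three]; group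
        _ = dO⁻¹ := by rw [e, e1, e]
    rw [show dO = 1 by rw [← d_cube, mul_eq_one_iff_eq_inv.2 e2, one_mul]]; rfl
  rcases inZ_iff.1 z with e | e | e | e
  · exact absurd e (OG.app_ne_zero k v1)
  · exact absurd (fp _ e) v1
  · exact .inl (claimB h hk hd c1 k3 fp (fun _ c => c) d3' (e.trans d1.symm) (v := vec 288) (by decide)
      ((cd_d.mul cd_x 288).trans (congrArg vec (by decide))))
  · refine .inr ((claimB h hk (mul_mem hd hd) c1 k3 fp (fun _ c => c.mul_right c)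
      (by rw [(Commute.refl dO).mul_pow, d3', mul_one]) (by rw [e, OG.mul_app, d1, d2]) (v := vec 304) (by decide)
      (((cd_d.mul cd_d).mul cd_x 304).trans (congrArg vec (by decide)))).trans (eq_inv_of_mul_eq_one_left d_cube))

end CL.Pen
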