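/-
Project PEN (S3321), job P3A: orders, and transitivity of normal subgroups.
-/
import Cfsg.Agent.Pen.E
import Cfsg.Agent.Grp.Cores
import Cfsg.Agent.Grp.MinNormal

set_option autoImplicit false

namespace CL.Pen

open Cfsg Subgroup Matrix CL.Cls CL.Grp CL.Even CL.L10 CL.Mx QuadraticMap

namespace P3x

instance fin : Finite (OG q0) := Finite.of_injective (fun g => (g.1 : V0 → V0)) fun _ _ e => OG.ext' (congrFun e)

/-- the stabiliser of a vector -/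
def St (v : V0) : Subgroup (OG q0) := MulAction.stabilizer (OG q0) v

theorem mem_St {g : OG q0} {v : V0} : g ∈ St v ↔ g.1 v = v := Iff.rfl

/-- the orbit of a vector -/
def Ob (M : Subgroup (OG q0)) (v : V0) : Set V0 := {w | ∃ m ∈ M, m.1 v = w}

theorem os (M : Subgroup (OG q0)) (v : V0) : Nat.card M = (Ob M v).ncard * Nat.card ↥(M ⊓ St v) := by
  have e1 : MulAction.orbit M v = Ob M v :=
    Set.ext fun w => ⟨fun ⟨m, e⟩ => ⟨m, m.2, e⟩, fun ⟨m, hm, e⟩ => ⟨⟨m, hm⟩, e⟩⟩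
  have e2 : MulAction.stabilizer M v = (M ⊓ St v).subgroupOf M := Subgroup.ext fun m => ⟨fun e => ⟨m.2, e⟩, fun e => e.2⟩
  rw [← e1, ← MulAction.index_stabilizer, ← Nat.card_congr (subgroupOfEquivOfLe (inf_le_left : M ⊓ St v ≤ M)).toEquiv,
    ← e2, index_mul_card]

theorem d1 : dO.1 (vec 1) = vec 2 := cd_d 1
theorem d2 : dO.1 (vec 2) = vec 3 := cd_d 2
theorem d3 : dO.1 (vec 3) = vec 1 := cd_d 3

/-- an element moving `vec 1` inside `Z / z` -/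
theorem tri {m : OG q0} (h : m.1 (vec 1) = vec 1 ∨ m.1 (vec 1) = vec 2 ∨ m.1 (vec 1) = vec 3) :
    ∃ e ∈ zpowers dO, e * m ∈ St (vec 1) := by
  rcases h with h | h | h
  · exact ⟨1, one_mem _, by rwa [one_mul]⟩
  · exact ⟨dO * dO, mul_mem (mem_zpowers _) (mem_zpowers _), by rw [mem_St, OG.mul_app, h, OG.mul_app, d2, d3]⟩
  · exact ⟨dO, mem_zpowers _, by rw [mem_St, OG.mul_app, h, d3]⟩

variable {H0 H : Subgroup (OG q0)}

theorem cst (h : HH H0 H) : H ⊓ centralizer {dO} ⊓ St (vec 1) = H0 ⊓ FZ :=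
  le_antisymm (fun g hg => ⟨h.stab g hg.1.1 hg.2, hg.2, by
      rw [← d1, ← OG.mul_app, mem_centralizer_singleton_iff.1 hg.1.2, OG.mul_app, mem_St.1 hg.2]⟩)
    fun g hg => ⟨⟨h.le hg.1, mem_centralizer_singleton_iff.2 (h.hx.cd g hg.1 hg.2).eq⟩, hg.2.1⟩

theorem d_ne : dO⁻¹ ≠ dO := fun e => by
  have : dO = 1 := by rw [← d_cube, mul_assoc, mul_eq_left.2 (mul_eq_one_iff_inv_eq.2 e)]
  exact absurd (d_fpf (v := 1) (by rw [this]; rfl)) one_ne_zero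

theorem mem_cd {g : OG q0} : g ∈ centralizer {dO} ↔ g * dO * g⁻¹ = dO := by
  rw [mem_centralizer_singleton_iff, mul_inv_eq_iff_eq_mul]

theorem cj_mul {g s : OG q0} (e : s * dO * s⁻¹ = dO⁻¹) : g * s * dO * (g * s)⁻¹ = (g * dO * g⁻¹)⁻¹ := by
  rw [show g * s * dO * (g * s)⁻¹ = g * (s * dO * s⁻¹) * g⁻¹ by group, e]; group

theorem obC (h : HH H0 H) (nd : ND H) : Ob (H ⊓ centralizer {dO}) (vec 1) = Ob H (vec 1) := by
  obtain ⟨s, s0, s1, e⟩ := h.hx.sg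
  refine Set.ext fun w => ⟨fun ⟨m, hm, k⟩ => ⟨m, hm.1, k⟩, fun ⟨m, hm, k⟩ => ?_⟩
  rcases nd m hm with a | a
  · exact ⟨m, ⟨hm, mem_cd.2 a⟩, k⟩
  · exact ⟨m * s, ⟨mul_mem hm (h.le s0), mem_cd.2 (by rw [cj_mul e, a, inv_inv])⟩, by rw [OG.mul_app, s1, k]⟩

theorem idx (h : HH H0 H) (nd : ND H) : (centralizer {dO}).relIndex H = 2 := by
  obtain ⟨s, s0, -, e⟩ := h.hx.sg
  refine relIndex_eq_two_iff.2 ⟨s, h.le s0, fun b hb => ?_⟩
  rw [mem_cd, mem_cd, cj_mul e]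
  rcases nd b hb with a | a
  · exact .inr ⟨a, by rw [a]; exact d_ne⟩
  · exact .inl ⟨by rw [a, inv_inv], by rw [a]; exact d_ne⟩

theorem ob693 (om : OM H) : (Ob H (vec 1)).ncard = 693 := by
  obtain ⟨o, ho, k⟩ := om
  rw [ncard_cntB (f := fun c => o.testBit c) k]
  rcases ho with rfl | rfl <;> decide +kernel

theorem cardC (h : HH H0 H) (om : OM H) (nd : ND H) : Nat.card ↥(H ⊓ centralizer {dO}) = 1330560 := by
  rw [os _ (vec 1), cst h, obC h nd, ob693 om, h.hc.card]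

theorem nrm1 (h : HH H0 H) {M : Subgroup (OG q0)} (h1 : M ≤ H ⊓ centralizer {dO}) (h2 : H ⊓ centralizer {dO} ≤ 𝒩(M)) :
    M ⊓ St (vec 1) ≤ H0 ⊓ FZ ∧ H0 ⊓ FZ ≤ 𝒩(M ⊓ St (vec 1)) := by
  rw [← cst h]
  exact ⟨inf_le_inf_right _ h1, (inf_le_inf h2 le_normalizer).trans inf_normalizer_le_normalizer_inf⟩

/-- a union of labels -/
def sel (i : ℕ) (a b c : Bool) (l : ℕ) : Bool := l == 0 || (l == 1 && a) || ((l == 4 || l == 5) && b) || (l == i && c)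

theorem sel_cnt : ∀ i ∈ [6, 7], ∀ a b c : Bool, cntB (fun x => sel i a b c (lab x)) 12 0 ∣ 693 →
    a = true ∧ b = true ∧ c = true ∨ a = false ∧ b = false ∧ c = false := by decide +kernel

theorem fz_g : xO ∈ FZ ∧ x1O ∈ FZ ∧ x2O ∈ FZ ∧ nO 1 ∈ FZ ∧ tauO ∈ FZ ∧ tauO * tO ∈ FZ :=
  ⟨⟨cd_x 1, cd_x 2⟩, ⟨cd_x1 1, cd_x1 2⟩, ⟨cd_x2 1, cd_x2 2⟩, ⟨cd_n 1 1, cd_n 1 2⟩, ⟨cd_tau 1, cd_tau 2⟩,
    ⟨cd_taut 1, cd_taut 2⟩⟩

theorem om_lab (om : OM H) : ∃ i ∈ [6, 7], ∀ c < 4096, vec c ∈ Ob H (vec 1) ↔ lab c ∈ [0, 1, 4, 5, i] := by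
  obtain ⟨o, rfl | rfl, k⟩ := om
  · exact ⟨6, by simp, fun c hc => (k c hc).trans (om6_iff hc)⟩
  · exact ⟨7, by simp, fun c hc => (k c hc).trans (om7_iff hc)⟩

theorem Ob.app {K : Subgroup (OG q0)} {g : OG q0} (hg : g ∈ K) {v w : V0} : g.1 w ∈ Ob K v ↔ w ∈ Ob K v :=
  ⟨fun ⟨m, hm, e⟩ => ⟨g⁻¹ * m, mul_mem (inv_mem hg) hm, by rw [OG.mul_app, e, OG.inv_app_app]⟩,
    fun ⟨m, hm, e⟩ => ⟨g * m, mul_mem hg hm, by rw [OG.mul_app, e]⟩⟩

/-- overgroups of `⟨d, H1⟩` -/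
theorem ovr (h : HH H0 H) (om : OM H) (nd : ND H) {K : Subgroup (OG q0)} (h1 : K ≤ H ⊓ centralizer {dO})
    (h2 : H0 ⊓ FZ ≤ K) (h3 : dO ∈ K) : Ob K (vec 1) = Ob H (vec 1) ∨
      ∀ w ∈ Ob K (vec 1), w = vec 1 ∨ w = vec 2 ∨ w = vec 3 := by
  classical
  have dv : (Ob K (vec 1)).ncard ∣ 693 := by
    have := card_dvd_of_le h1
    rw [cardC h om nd, os K (vec 1), show K ⊓ St (vec 1) = H0 ⊓ FZ from
      le_antisymm (cst h ▸ inf_le_inf_right _ h1) (le_inf h2 fun g hg => hg.2.1), h.hc.card] at this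
    exact Nat.dvd_of_mul_dvd_mul_right (by norm_num) (show _ ∣ 693 * 1920 from this)
  have BK : BO ≤ K := (closure_le _).2 <| by
    rintro _ ⟨k, rfl⟩
    match k with
    | 0 => exact h3
    | 1 => exact h2 ⟨h.hx.x, fz_g.1⟩
    | 2 => exact h2 ⟨h.hx.x1, fz_g.2.1⟩
    | 3 => exact h2 ⟨h.hx.x2, fz_g.2.2.1⟩
    | 4 => exact h2 ⟨h.hx.n ⟨1, rfl⟩, fz_g.2.2.2.1⟩
    | _ + 5 => exact one_mem K
  have rp : ∀ c < 4096, lab c < 10 → (vec c ∈ Ob K (vec 1) ↔ vec (rep (lab c)) ∈ Ob K (vec 1)) := fun c hc l => by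
    obtain ⟨g, hg, e⟩ := lab_reach hc l
    rw [← e, Ob.app (BK hg)]
  have r5 : vec (rep 5) ∈ Ob K (vec 1) ↔ vec (rep 4) ∈ Ob K (vec 1) := by
    obtain ⟨a, b, c, d⟩ := lab_tau 4 (by norm_num)
    rcases h.hx.tau with t | t
    · rw [← Ob.app (h2 ⟨t, fz_g.2.2.2.2.1⟩) (w := vec (rep 4)), cd_tau, rp _ a (by rw [c]; decide), c]; rfl
    · rw [← Ob.app (h2 ⟨t, fz_g.2.2.2.2.2⟩) (w := vec (rep 4)), cd_taut, rp _ b (by rw [d]; decide), d]; rfl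
  obtain ⟨i, hi, k⟩ := om_lab om
  have sub : Ob K (vec 1) ⊆ Ob H (vec 1) := fun w ⟨m, hm, e⟩ => ⟨m, (h1 hm).1, e⟩
  have key : ∀ c < 4096, vec c ∈ Ob K (vec 1) ↔ sel i (decide (vec (rep 1) ∈ Ob K (vec 1)))
      (decide (vec (rep 4) ∈ Ob K (vec 1))) (decide (vec (rep i) ∈ Ob K (vec 1))) (lab c) = true := fun c hc => by
    have r0 : vec (rep 0) ∈ Ob K (vec 1) := ⟨1, one_mem _, rfl⟩
    by_cases l : lab c ∈ [0, 1, 4, 5, i]
    · simp only [List.mem_cons, List.not_mem_nil, or_false] at l hi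
      rw [rp c hc (by omega)]
      rcases hi with rfl | rfl <;> rcases l with l | l | l | l | l <;> simp [l, sel, r0, r5]
    · refine iff_of_false (fun e => l ((k c hc).1 (sub e))) fun e => l ?_
      simp only [sel, Bool.or_eq_true, Bool.and_eq_true, beq_iff_eq] at e
      simp only [List.mem_cons, List.not_mem_nil, or_false]
      tauto
  rw [ncard_cntB key] at dv
  rcases sel_cnt i hi _ _ _ dv with ⟨a, b, c⟩ | ⟨a, b, c⟩ <;> rw [a, b, c] at key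
  · refine .inl (sub.antisymm fun w hw => ?_)
    obtain ⟨x, hx, rfl⟩ := vec_surj w
    have := (k x hx).1 hw
    simp only [List.mem_cons, List.not_mem_nil, or_false] at this
    refine (key x hx).2 ?_
    simp only [sel, Bool.and_true, Bool.or_eq_true, beq_iff_eq]
    tauto
  · refine .inr fun w hw => ?_
    obtain ⟨x, hx, rfl⟩ := vec_surj w
    have := (lab_sing hx).2.1 (by simpa [sel] using (key x hx).1 hw)
    obtain ⟨p, q⟩ := this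
    interval_cases x <;> simp

end P3x

open P3x

theorem p3a : P3A := fun H0 H h om nd => by
  have cC := cardC h om nd
  refine ⟨by rw [← card_inf_mul_relIndex (centralizer {dO}) H, inf_comm, cC, idx h nd], cC,
    fun M h1 h2 h3 h4 g hg => ?_⟩
  have l1 : H0 ⊓ FZ ≤ H ⊓ centralizer {dO} := cst h ▸ inf_le_left
  have e : Ob (M ⊔ (H0 ⊓ FZ)) (vec 1) = Ob M (vec 1) := Set.ext fun w => ⟨fun ⟨m, hm, k⟩ => by
    obtain ⟨a, ha, b, hb, rfl⟩ := (mem_sup_of_le_normalizer' (l1.trans h2)).1 hm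
    exact ⟨a, ha, by rw [← k, OG.mul_app, hb.2.1]⟩, fun ⟨m, hm, k⟩ => ⟨m, mem_sup_left hm, k⟩⟩
  rcases ovr h om nd (sup_le h1 l1) le_sup_right (mem_sup_left h3) with k | k <;> rw [e] at k
  · exact k.ge ⟨g, hg, rfl⟩
  exfalso
  have n1 : nO 1 ∈ M := by
    obtain ⟨a, b⟩ := nrm1 h h1 h2
    rcases h.hc.nrm _ a b with c | c | c | c
    · refine (h4 (le_antisymm (fun m hm => ?_) (zpowers_le.2 h3))).elim
      obtain ⟨x, hx, hx'⟩ := tri (k _ ⟨m, hm, rfl⟩)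
      rw [eq_inv_of_mul_eq_one_right (mem_bot.1 (c.le ⟨mul_mem (zpowers_le.2 h3 hx) hm, hx'⟩))]
      exact inv_mem hx
    · exact (c.ge ⟨1, rfl⟩).1
    · exact (c.ge ⟨h.hx.n ⟨1, rfl⟩, fz_g.2.2.2.1⟩).1
    · exact c.2.2.1.1
  obtain ⟨c, hc, ec⟩ : vec 172 ∈ Ob (H ⊓ centralizer {dO}) (vec 1) := by
    obtain ⟨o, ho, k⟩ := om
    rw [obC h nd]
    exact (k 172 (by norm_num)).2 (by rcases ho with rfl | rfl <;> decide +kernel)
  have cd : ∀ v, c.1 (dO.1 v) = dO.1 (c.1 v) := fun v => by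
    rw [← OG.mul_app, mem_centralizer_singleton_iff.1 hc.2, OG.mul_app]
  have := k _ ⟨c⁻¹ * nO 1 * c, (mem_normalizer_iff''.1 (h2 hc) _).1 n1, rfl⟩
  rw [OG.mul_app, OG.mul_app, ec, ← d2, ← d1] at this
  have t : ∀ {u v : V0}, (c⁻¹).1 u = v → u = c.1 v := fun e => by rw [← e, OG.app_inv_app]
  have n : (nO 1).1 (vec 172) = vec (xs (nL 1) 172) := cd_n 1 _
  have v : ∀ {a : ℕ}, a < 4096 → xs (nL 1) 172 ≠ a → (nO 1).1 (vec 172) ≠ vec a := fun ha k e =>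
    k (vec_inj (by decide +kernel) ha (n.symm.trans e))
  rcases this with a | a | a <;> have a := t a
  · exact v (by norm_num) (by decide +kernel) (a.trans ec)
  · exact v (a := xs dL 172) (by decide +kernel) (by decide +kernel) (by rw [a, cd, ec, cd_d])
  · exact v (a := xs dL (xs dL 172)) (by decide +kernel) (by decide +kernel) (by rw [a, cd, cd, ec, cd_d, cd_d])

end CL.Pen
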