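/-
Project PEN (S3321), job P3: simplicity.
-/
import Cfsg.Agent.Pen.P3A
import Cfsg.Agent.Fus.SylIn

set_option autoImplicit false

namespace CL.Pen

open Cfsg Subgroup Matrix CL.Cls CL.Grp CL.Even CL.L10 CL.Mx QuadraticMap CL.Fus

namespace P3x

section
variable {G : Type*} [Group G] [Finite G]

/-- Burnside's theorem inside a subgroup -/
theorem burn {p : ℕ} [hp : Fact p.Prime] {X Y : Subgroup G} (h : SylIn p X Y)
    (hN : ∀ g ∈ Y, g ∈ normalizer (X : Set G) → ∀ x ∈ X, x * g = g * x) :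
    ∃ O ≤ Y, Nat.card Y = Nat.card O * Nat.card X ∧ ∀ g ∈ Y, (orderOf g).Coprime p → g ∈ O := by
  have hP : normalizer ((h.toSylow : Subgroup Y) : Set Y) ≤ centralizer (h.toSylow : Set Y) := fun g hg x hx => by
    rw [h.coe_toSylow, ← subgroupOf_normalizer_eq h.le] at hg
    exact Subtype.ext (hN g g.2 hg x hx)
  have hc := MonoidHom.ker_transferSylow_isComplement' h.toSylow hP
  refine ⟨(MonoidHom.transferSylow h.toSylow hP).ker.map Y.subtype, map_subtype_le _, ?_, fun x hx c => ⟨⟨x, hx⟩, ?_, rfl⟩⟩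
  · rw [card_map_of_injective Y.subtype_injective, ← hc.card_mul_card,
      ← Nat.card_congr (subgroupOfEquivOfLe h.le).toEquiv]
    rfl
  · obtain ⟨k, hk⟩ := h.toSylow.isPGroup' (MonoidHom.transferSylow h.toSylow hP ⟨x, hx⟩)
    exact orderOf_eq_one_iff.1 (Nat.eq_one_of_dvd_coprimes (c.pow_right k)
      ((orderOf_map_dvd _ _).trans (orderOf_mk x hx).dvd) (orderOf_dvd_of_pow_eq_one hk))

/-- a group of order 693 has a characteristic subgroup of order 11 -/
theorem eleven {R : Subgroup G} (h : Nat.card R = 693) : ∃ P ≤ R, Nat.card P = 11 ∧ 𝒩(R) ≤ 𝒩(P) := by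
  have : Fact (Nat.Prime 11) := ⟨by norm_num⟩
  obtain ⟨P⟩ : Nonempty (Sylow 11 R) := inferInstance
  have c : Nat.card P = 11 := by
    rw [P.card_eq_multiplicity, h, show 693 = 11 * 63 from rfl, Nat.factorization_mul (by norm_num) (by norm_num),
      Finsupp.add_apply, this.out.factorization_self, Nat.factorization_eq_zero_of_not_dvd (by norm_num)]
    rfl
  have i : P.index = 63 := by
    have := P.index_mul_card
    rw [c, h] at this
    omega
  have h1 := card_sylow_modEq_one 11 R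
  have h2 := P.card_dvd_index
  rw [i] at h2
  have h3 : Nat.card (Sylow 11 R) = 1 := by
    have := Nat.le_of_dvd (by norm_num) h2
    generalize Nat.card (Sylow 11 R) = n at *
    unfold Nat.ModEq at h1
    interval_cases n <;> omega
  have := (Nat.card_eq_one_iff_unique.1 h3).1
  have := P.characteristic_of_subsingleton
  exact ⟨_, map_subtype_le (P : Subgroup R), by rw [card_map_of_injective R.subtype_injective, c],
    normalizer_le_normalizer_map_subtype _⟩

end

theorem cnt (M : Subgroup (OG q0)) {n : OG q0} (hn : n ∈ M) (v : V0) :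
    {w | w ∈ Ob M v ∧ n.1 w = w}.ncard * Nat.card ↥(M ⊓ St v) ≤
      {g | g ∈ M ⊓ St v ∧ orderOf g = orderOf n}.ncard * Nat.card ↥(M ⊓ centralizer {n}) := by
  classical
  have h1 : ∀ w : {w | w ∈ Ob M v ∧ n.1 w = w}, ∃ t ∈ M, t.1 v = w := fun w => w.2.1
  choose t tM tv using h1
  have h2 : ∀ i : OG q0, ∃ r, (∃ m ∈ M, m⁻¹ * n * m = i) → r ∈ M ∧ r⁻¹ * n * r = i := fun i => by
    by_cases k : ∃ m ∈ M, m⁻¹ * n * m = i
    · exact k.imp fun _ e _ => e
    · exact ⟨1, fun e => absurd e k⟩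
  choose r hr using h2
  have a : ∀ (w) (f : ↥(M ⊓ St v)), (t w * f).1 v = w := fun w f => by rw [OG.mul_app, mem_St.1 f.2.2, tv]
  have b : ∀ m ∈ M, m * (r (m⁻¹ * n * m))⁻¹ ∈ M ⊓ centralizer {n} := fun m hm => by
    obtain ⟨x, e⟩ := hr _ ⟨m, hm, rfl⟩
    generalize r (m⁻¹ * n * m) = s at *
    refine mem_inf.2 ⟨mul_mem hm (inv_mem x), mem_centralizer_singleton_iff.2 ?_⟩
    rw [show m * s⁻¹ * n = m * (s⁻¹ * n * s) * s⁻¹ by group, e]
    group
  rw [← Nat.card_coe_set_eq, ← Nat.card_coe_set_eq, ← Nat.card_prod, ← Nat.card_prod]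
  refine Nat.card_le_card_of_injective (fun x => (⟨(t x.1 * x.2)⁻¹ * n * (t x.1 * x.2),
    mem_inf.2 ⟨M.mul_mem (M.mul_mem (M.inv_mem (M.mul_mem (tM _) x.2.2.1)) hn) (M.mul_mem (tM _) x.2.2.1), by
      rw [mem_St, OG.mul_app, OG.mul_app, a, x.1.2.2, ← a x.1 x.2, OG.inv_app_app]⟩, by
      simpa only [MulAut.conj_apply, inv_inv] using (MulAut.conj (t x.1 * x.2)⁻¹).orderOf_eq n⟩,
    ⟨_, b _ (M.mul_mem (tM x.1) x.2.2.1)⟩)) ?_
  rintro ⟨w, f⟩ ⟨w', f'⟩ e
  obtain ⟨e1, e2⟩ := Prod.ext_iff.1 e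
  have e1 := congrArg Subtype.val e1
  have e2 := congrArg Subtype.val e2
  simp only at e1 e2
  rw [e1, mul_left_inj] at e2
  obtain rfl : w = w' := Subtype.ext (by rw [← a w f, e2, a])
  exact Prod.ext rfl (Subtype.ext (mul_left_cancel e2))

theorem card_NO : Nat.card NO = 16 := by
  have : Function.Injective nO := fun k l e => (by decide +kernel : ∀ k l : Fin 16, xs (nL k) 1024 < 4096 ∧
      (xs (nL k) 1024 = xs (nL l) 1024 → k = l)) k l |>.2 (vec_inj
        ((by decide +kernel : ∀ k : Fin 16, xs (nL k) 1024 < 4096) k)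
        ((by decide +kernel : ∀ k : Fin 16, xs (nL k) 1024 < 4096) l) (by rw [← cd_n, ← cd_n, e]))
  exact (Nat.card_range_of_injective this).trans (by simp)

theorem v1 : vec 1 ≠ 0 := by decide

theorem ord_n : orderOf (nO 1) = 2 := by
  have : Fact (Nat.Prime 2) := ⟨Nat.prime_two⟩
  refine orderOf_eq_prime (by rw [pow_two, nO_mul]; exact nO_zero) fun e => ?_
  have := cd_n 1 32
  rw [e] at this
  exact absurd (vec_inj (by norm_num) (by decide +kernel) this) (by decide +kernel)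

theorem ord_d : orderOf dO = 3 := by
  have : Fact (Nat.Prime 3) := ⟨Nat.prime_three⟩
  exact orderOf_eq_prime (by rw [pow_three', d_cube]) fun e => d_ne (by rw [e, inv_one])

variable {H : Subgroup (OG q0)}

theorem fix69 (om : OM H) : {w | w ∈ Ob H (vec 1) ∧ (nO 1).1 w = w}.ncard = 69 := by
  obtain ⟨o, ho, k⟩ := om
  rw [ncard_cntB (f := fun c => o.testBit c && xs (nL 1) c == c) fun c hc => by
    rw [Bool.and_eq_true, beq_iff_eq, Set.mem_ofPred_eq, cd_n]
    exact and_congr (k c hc) ⟨vec_inj (of_decide_eq_true (allB_spec (by decide +kernel :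
      allB (fun c => decide (xs (nL 1) c < 4096)) 12 0 = true) hc)) hc, congrArg vec⟩]
  rcases ho with rfl | rfl <;> decide +kernel

theorem nine (om : OM H) {K : Subgroup (OG q0)} (h1 : K ≤ H) (h2 : K ≤ centralizer {nO 1}) :
    (Ob K (vec 1)).ncard ≤ 9 := by
  obtain ⟨o, ho, k⟩ := om
  have e : {w | ∃ c < 4096, vec c = w ∧ (o.testBit c && c &&& 4024 == 0) = true}.ncard = 9 := by
    refine (ncard_cntB (f := fun c => o.testBit c && c &&& 4024 == 0) fun c hc => ?_).trans ?_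
    · exact ⟨fun ⟨c', a, b, d⟩ => vec_inj a hc b ▸ d, fun d => ⟨c, hc, rfl, d⟩⟩
    · rcases ho with rfl | rfl <;> decide +kernel
  rw [← e]
  refine Set.ncard_le_ncard ?_ (Set.toFinite _)
  rintro _ ⟨g, hg, rfl⟩
  obtain ⟨a, ha, ea⟩ := vec_surj (g.1 (vec 32))
  have e1 : g.1 (vec 1) = vec (a ^^^ xs (nL 1) a) := by
    rw [vec_xor, ← cd_n, ea, ← OG.mul_app, ← mem_centralizer_singleton_iff.1 (h2 hg), OG.mul_app, ← map_add, cd_n,
      ← vec_xor]
    rfl
  have := of_decide_eq_true (allB_spec (by decide +kernel : allB (fun a => decide (a ^^^ xs (nL 1) a < 4096 ∧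
    (a ^^^ xs (nL 1) a) &&& 4024 = 0)) 12 0 = true) ha)
  exact ⟨_, this.1, e1.symm, by rw [Bool.and_eq_true, beq_iff_eq]; exact ⟨(k _ this.1).1 ⟨g, h1 hg, e1⟩, this.2⟩⟩

end P3x

open P3x

theorem p3 (ha : P3A) : P3 := fun H0 H h om nd => by
  obtain ⟨c1, c2, tr⟩ := ha H0 H h om nd
  have ob : ∀ M ≤ H ⊓ centralizer {dO}, H ⊓ centralizer {dO} ≤ 𝒩(M) → dO ∈ M → M ≠ zpowers dO →
      Ob M (vec 1) = Ob H (vec 1) := fun M h1 h2 h3 h4 =>
    Set.ext fun w => ⟨fun ⟨m, hm, e⟩ => ⟨m, (h1 hm).1, e⟩, fun ⟨g, hg, e⟩ => e ▸ tr M h1 h2 h3 h4 g hg⟩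
  have l693 : ∀ R ≤ H ⊓ centralizer {dO}, H ⊓ centralizer {dO} ≤ 𝒩(R) → dO ∈ R → Nat.card R ≠ 693 := fun R h1 h2 h3 e => by
    obtain ⟨P, a, b, c⟩ := eleven e
    have n : H ⊓ centralizer {dO} ≤ 𝒩(zpowers dO) := inf_le_right.trans
      ((zpowers_eq_closure dO ▸ (centralizer_closure _).ge :
        centralizer {dO} ≤ centralizer (zpowers dO : Set (OG q0))).trans (centralizer_le_normalizer _))
    have k := ob (P ⊔ zpowers dO) ((sup_le a (zpowers_le.2 h3)).trans h1)
      ((le_inf (h2.trans c) n).trans (normalizer_inf_normalizer_le_normalizer_sup _ _)) (mem_sup_right (mem_zpowers _))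
      fun k => by
        have := card_dvd_of_le (k ▸ le_sup_left : P ≤ zpowers dO)
        rw [b, Nat.card_zpowers, ord_d] at this
        omega
    have := card_sup_dvd ((a.trans h1).trans n)
    rw [b, Nat.card_zpowers, ord_d, os _ (vec 1), k, ob693 om] at this
    exact absurd ((dvd_mul_right _ _).trans this) (by norm_num)
  refine ⟨c1, c2, fun M h1 h2 h3 => or_iff_not_imp_left.2 fun h4 => ?_⟩
  have oM := ob M h1 h2 h3 h4
  have cM := os M (vec 1)
  rw [oM, ob693 om] at cM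
  obtain ⟨a, b⟩ := nrm1 h h1 h2
  rcases h.hc.nrm _ a b with c | c | c | ⟨c, i, n, k⟩
  · exact absurd (by rw [cM, c, card_bot]) (l693 M h1 h2 h3)
  · have : Fact (Nat.Prime 2) := ⟨Nat.prime_two⟩
    have l : NO ≤ M := c ▸ inf_le_left
    rw [c, card_NO] at cM
    obtain ⟨O, o1, o2, o3⟩ := burn (sylIn_of_not_dvd (p := 2) l (IsPGroup.of_card (n := 4) card_NO) (by
      have := card_mul_relIndex l
      rw [card_NO, cM] at this
      omega)) fun m hm hn x hx => by
        have z : inZ (m.1 (vec 1)) := fx_NO.1 fun y hy => by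
          have := mem_St.1 (c.ge ((mem_normalizer_iff''.1 hn y).1 hy)).2
          rw [OG.mul_app, OG.mul_app] at this
          conv_rhs => rw [← this, OG.app_inv_app]
        obtain ⟨e, he, f⟩ := tri ((inZ_iff.1 z).resolve_left (OG.app_ne_zero m v1))
        obtain ⟨j, ej⟩ := c.le ⟨mul_mem (zpowers_le.2 h3 he) hm, f⟩
        obtain ⟨s, rfl⟩ := he
        have c1 : Commute x dO := mem_centralizer_singleton_iff.1 (h1 (l hx)).2
        have c2 : Commute x (nO j) := by
          obtain ⟨i, rfl⟩ := hx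
          exact (nO_mul i j).trans (by rw [nO_mul, Fin.xor_comm])
        rw [show m = (dO ^ s)⁻¹ * nO j by rw [ej, inv_mul_cancel_left]]
        exact ((c1.zpow_right s).inv_right.mul_right c2).eq
    have cO : Nat.card O = 693 := by
      rw [cM, card_NO] at o2
      omega
    refine absurd cO (l693 O (o1.trans h1) (fun g hg => mem_normalizer_fintype fun x hx =>
      o3 _ ((mem_normalizer_iff.1 (h2 hg) x).1 (o1 hx)) ?_) (o3 _ h3 (by rw [ord_d]; decide)))
    rw [show orderOf (g * x * g⁻¹) = orderOf x from (MulAut.conj g).orderOf_eq x]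
    exact Nat.Coprime.coprime_dvd_left (cO ▸ O.orderOf_dvd_natCard hx) (by norm_num)
  · exact eq_of_le_of_card_ge h1 (by rw [c2, cM, c, h.hc.card])
  · have t := cnt M n.1 (vec 1)
    have u := nine om (K := M ⊓ centralizer {nO 1}) (inf_le_left.trans (h1.trans inf_le_left)) inf_le_right
    rw [oM, fix69 om, c, ord_n, os (M ⊓ centralizer {nO 1}) (vec 1), inf_right_comm, k] at t
    exact absurd (t.trans (Nat.mul_le_mul i (Nat.mul_le_mul_right _ u))) (by norm_num)

end CL.Pen
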