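/-
Project PEN (S3321): counting in an extension `2 ^ 4 . S₅` with the natural module (for `PC`).
-/
import Cfsg.Agent.Pen.D

set_option autoImplicit false

namespace CL.Pen

open Cfsg Subgroup Matrix CL.Cls CL.Grp CL.Even CL.L10 CL.Mx QuadraticMap Finset

/-- an extension of the natural module by `S₅` -/
structure PcX {X : Type*} [Group X] (θ : X →* S5) (α : S5 →* M4) (ι : N4 → X) : Prop where
  al : AL α
  surj : Function.Surjective θ
  add : ∀ a b, ι (a + b) = ι a * ι b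
  inj : Function.Injective ι
  ker : ∀ g, θ g = 1 ↔ ∃ a, ι a = g
  conj : ∀ g a, g * ι a * g⁻¹ = ι (α (θ g) *ᵥ a)

theorem pc_card_sub (T : Subgroup S5) (p : S5 → Prop) [DecidablePred p] (h : ∀ σ, σ ∈ T ↔ p σ) :
    Nat.card T = (univ.filter p).card := by
  rw [← Fintype.card_subtype, ← Nat.card_eq_fintype_card]
  exact Nat.card_congr (Equiv.subtypeEquivRight h)

/-- a double transposition -/
def pcZ : S5 := Equiv.swap 0 1 * Equiv.swap 3 4

def pcE : N4 := ![1, 0, 0, 0]

theorem AL.pc_stab {α : S5 →* M4} (h : AL α) (σ : S5) : α σ *ᵥ pcE = pcE ↔ σ * pcZ = pcZ * σ := by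
  obtain ⟨w, hw, rfl⟩ := pW_surj σ
  rw [h.word, mW_mulVec]
  exact (by decide +kernel : ∀ w ∈ W5, vW w pcE = pcE ↔ pW w * pcZ = pcZ * pW w) w hw

theorem pc_ea_S5 (T : Subgroup S5) (h : ∀ σ ∈ T, σ * σ = 1) : Nat.card T ≤ 4 := by
  classical
  rw [pc_card_sub T _ fun _ => Iff.rfl]
  have cm : ∀ σ ∈ T, ∀ τ ∈ T, σ * τ = τ * σ := fun σ a τ b => by
    rw [← mul_inv_eq_one, _root_.mul_inv_rev, inv_eq_of_mul_eq_one_right (h σ a), inv_eq_of_mul_eq_one_right (h τ b)]
    exact h _ (T.mul_mem a b)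
  by_cases e : ∃ σ ∈ T, ∃ τ ∈ T, σ ≠ 1 ∧ τ ≠ 1 ∧ σ ≠ τ
  · obtain ⟨σ, a, τ, b, c, d, e⟩ := e
    refine le_trans (card_le_card fun ρ hρ => ?_) ((by decide +kernel : ∀ σ : S5, σ * σ = 1 → σ ≠ 1 → ∀ τ : S5,
      τ * τ = 1 → τ ≠ 1 → σ ≠ τ → σ * τ = τ * σ →
      (univ.filter fun ρ : S5 => ρ * ρ = 1 ∧ ρ * σ = σ * ρ ∧ ρ * τ = τ * ρ).card ≤ 4) σ (h σ a) c τ (h τ b) d e
      (cm σ a τ b))
    rw [mem_filter] at hρ ⊢
    exact ⟨mem_univ _, h ρ hρ.2, cm ρ hρ.2 σ a, cm ρ hρ.2 τ b⟩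
  · by_cases e1 : ∃ σ ∈ T, σ ≠ 1
    · obtain ⟨σ, a, c⟩ := e1
      refine le_trans (card_le_card (t := {1, σ}) fun ρ hρ => ?_) (card_le_two.trans (by norm_num))
      rw [mem_filter] at hρ
      by_contra k
      simp only [mem_insert, mem_singleton, not_or] at k
      exact e ⟨ρ, hρ.2, σ, a, k.1, c, k.2⟩
    · refine le_trans (card_le_card (t := {1}) fun ρ hρ => ?_) (by simp)
      rw [mem_filter] at hρ
      by_contra k
      exact e1 ⟨ρ, hρ.2, by simpa using k⟩

namespace PcX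

variable {X : Type*} [Group X] {θ : X →* S5} {α : S5 →* M4} {ι : N4 → X} (h : PcX θ α ι)
include h

theorem zero : ι 0 = 1 := by
  have := h.add 0 0
  rw [add_zero] at this
  exact (mul_eq_left.1 this.symm)

theorem sq (a : N4) : ι a * ι a = 1 := by
  rw [← h.add, show a + a = 0 from funext fun i => CharTwo.add_self_eq_zero _, h.zero]

theorem th (a : N4) : θ (ι a) = 1 := (h.ker _).2 ⟨a, rfl⟩

theorem card_ker : Nat.card θ.ker = 16 := by
  have : Nat.card N4 = 16 := by simp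
  rw [← this]
  exact (Nat.card_congr (Equiv.ofBijective (fun a => (⟨ι a, h.th a⟩ : θ.ker))
    ⟨fun a b e => h.inj (congrArg Subtype.val e), fun g => by
      obtain ⟨a, e⟩ := (h.ker g).1 g.2
      exact ⟨a, Subtype.ext e⟩⟩)).symm

theorem card : Nat.card X = 1920 := by
  rw [← card_mul_index θ.ker, h.card_ker, index_ker, MonoidHom.range_eq_top.2 h.surj, card_top]
  simp [Fintype.card_perm, Nat.factorial]

theorem fin : Finite X := Nat.finite_of_card_ne_zero (by rw [h.card]; norm_num)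

theorem card_comap (T : Subgroup S5) : Nat.card (T.comap θ) = 16 * Nat.card T := by
  have a := card_mul_index (T.comap θ)
  have b := card_mul_index T
  rw [index_comap_of_surjective _ h.surj, h.card] at a
  have c : Nat.card S5 = 120 := by simp [Fintype.card_perm, Nat.factorial]
  rw [c] at b
  refine Nat.eq_of_mul_eq_mul_right (Nat.pos_of_ne_zero (index_ne_zero_of_finite (H := T))) ?_
  rw [a, mul_assoc, b]
  rfl

theorem cent : centralizer {ι pcE} = (centralizer {pcZ}).comap θ := by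
  ext g
  rw [mem_comap, mem_centralizer_singleton_iff, mem_centralizer_singleton_iff, ← h.al.pc_stab,
    ← h.inj.eq_iff, ← h.conj, mul_inv_eq_iff_eq_mul]

theorem card_cent : Nat.card (centralizer {ι pcE} : Subgroup X) = 128 := by
  rw [h.cent, h.card_comap, pc_card_sub _ (fun σ => σ * pcZ = pcZ * σ) fun _ => mem_centralizer_singleton_iff]
  decide +kernel

theorem card_alt : Nat.card ((alternatingGroup (Fin 5)).comap θ) = 960 := by
  rw [h.card_comap, pc_card_sub _ (fun σ => Equiv.Perm.sign σ = 1) fun _ => Equiv.Perm.mem_alternatingGroup]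
  decide +kernel

theorem card_cent_alt : Nat.card ((alternatingGroup (Fin 5)).comap θ ⊓ centralizer {ι pcE} : Subgroup X) = 64 := by
  rw [h.cent, ← comap_inf, h.card_comap, pc_card_sub _ (fun σ => Equiv.Perm.sign σ = 1 ∧ σ * pcZ = pcZ * σ)
    fun _ => by rw [Subgroup.mem_inf, Equiv.Perm.mem_alternatingGroup, mem_centralizer_singleton_iff]]
  decide +kernel

theorem inv (p : S5 → Prop) [DecidablePred p] :
    {g | p (θ g) ∧ orderOf g = 2}.ncard ≤ ∑ σ : S5, if σ = 1 then 15 else if σ * σ = 1 ∧ p σ then 4 else 0 := by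
  classical
  have := h.fin
  have := Fintype.ofFinite X
  rw [Set.ncard_eq_toFinset_card', card_eq_sum_card_fiberwise (f := θ) (t := univ) fun _ _ => mem_univ _]
  refine sum_le_sum fun σ _ => ?_
  have sq : ∀ g : X, orderOf g = 2 → g * g = 1 := fun g e => by rw [← pow_two, ← e, pow_orderOf_eq_one]
  split_ifs with a b
  · refine le_trans (card_le_card (t := (univ.erase 0).image ι) fun g hg => ?_) (card_image_le.trans (by decide))
    simp only [Set.toFinset_ofPred, mem_filter, mem_univ, true_and] at hg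
    obtain ⟨c, rfl⟩ := (h.ker g).1 (hg.2.trans a)
    refine mem_image_of_mem _ (mem_erase.2 ⟨?_, mem_univ _⟩)
    rintro rfl
    simp [h.zero] at hg
  · rcases (Finset.filter (fun g => θ g = σ) {g | p (θ g) ∧ orderOf g = 2}.toFinset).eq_empty_or_nonempty with e | ⟨g, hg⟩
    · rw [e]; simp
    simp only [Set.toFinset_ofPred, mem_filter, mem_univ, true_and] at hg
    refine le_trans (card_le_card (t := (univ.filter fun v => α σ *ᵥ v = v).image fun v => g * ι v) fun k hk => ?_)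
      (card_image_le.trans (h.al.fix4 b.1 a).le)
    simp only [Set.toFinset_ofPred, mem_filter, mem_univ, true_and] at hk
    obtain ⟨c, e⟩ := (h.ker (g⁻¹ * k)).1 (by rw [map_mul, map_inv, hg.2, hk.2, inv_mul_cancel])
    obtain rfl : k = g * ι c := by rw [e, mul_inv_cancel_left]
    refine mem_image_of_mem _ (mem_filter.2 ⟨mem_univ _, h.inj ?_⟩)
    rw [← hg.2, ← h.conj, inv_eq_of_mul_eq_one_right (sq g hg.1.2), eq_inv_of_mul_eq_one_left
      (show g * ι c * g * ι c = 1 by rw [mul_assoc]; exact sq _ hk.1.2), inv_eq_of_mul_eq_one_right (h.sq c)]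
  · rw [Nat.le_zero, card_eq_zero, filter_eq_empty_iff]
    rintro g hg rfl
    simp only [Set.toFinset_ofPred, mem_filter, mem_univ, true_and] at hg
    exact b ⟨by rw [← map_mul, sq g hg.2, map_one], hg.1⟩

theorem inv_all : {g : X | orderOf g = 2}.ncard ≤ 115 := by
  have := h.inv fun _ => True
  simp only [true_and] at this
  exact this.trans (by decide +kernel)

theorem inv_alt : {g : X | g ∈ (alternatingGroup (Fin 5)).comap θ ∧ orderOf g = 2}.ncard ≤ 75 :=
  (h.inv fun σ => Equiv.Perm.sign σ = 1).trans (by decide +kernel)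

theorem nrm (M : Subgroup X) [hM : M.Normal] :
    M = ⊥ ∨ M = θ.ker ∨ M = ⊤ ∨ M = (alternatingGroup (Fin 5)).comap θ := by
  by_cases e : ∃ a, a ≠ 0 ∧ ι a ∈ M
  · obtain ⟨a, a0, ha⟩ := e
    have k : θ.ker ≤ M := fun g hg => by
      obtain ⟨b, rfl⟩ := (h.ker g).1 hg
      by_cases b0 : b = 0
      · rw [b0, h.zero]; exact one_mem _
      obtain ⟨σ, -, hσ⟩ := h.al.trans a0
      obtain ⟨τ, -, hτ⟩ := h.al.trans b0
      obtain ⟨g, hg⟩ := h.surj (τ * σ⁻¹)
      have := hM.conj_mem _ ha g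
      rwa [h.conj, hg, ← hσ, mulVec_mulVec, ← map_mul, inv_mul_cancel_right, hτ] at this
    have n := hM.map θ h.surj
    have m : (M.map θ).comap θ = M := by rw [comap_map_eq, sup_eq_left.2 k]
    rcases (M.map θ).bot_or_nontrivial with b | b
    · exact .inr (.inl (by rw [← m, b, MonoidHom.comap_bot]))
    have l := Equiv.Perm.alternatingGroup_le_of_normal (α := Fin 5) (by simp) b
    have i := index_dvd_of_le l
    rw [alternatingGroup.index_eq_two, Nat.dvd_prime Nat.prime_two, index_eq_one] at i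
    rcases i with i | i
    · exact .inr (.inr (.inl (by rw [← m, i, comap_top])))
    · exact .inr (.inr (.inr (by rw [← m, Equiv.Perm.eq_alternatingGroup_of_index_eq_two i])))
  · refine .inl (eq_bot_iff.2 fun g hg => ?_)
    have z : ∀ a, ι a ∈ M → a = 0 := fun a ha => by_contra fun a0 => e ⟨a, a0, ha⟩
    obtain ⟨a, rfl⟩ := (h.ker g).1 (h.al.inj1 fun v => by
      have k := z (α (θ g) *ᵥ v + v) (by
        rw [h.add, ← h.conj, mul_assoc, mul_assoc]
        refine M.mul_mem hg ?_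
        have := hM.conj_mem _ (M.inv_mem hg) (ι v)
        rwa [inv_eq_of_mul_eq_one_right (h.sq v), mul_assoc] at this)
      exact (by decide : ∀ a b : N4, a + b = 0 → a = b) _ _ k)
    rw [z a hg, h.zero]
    exact one_mem _

theorem three {x g : X} (hx : θ x = x5) (hg : orderOf g = 3) : ∃ c, c * g * c⁻¹ = x := by
  have g3 : θ g * θ g * θ g = 1 := by rw [← map_mul, ← map_mul, ← pow_three', ← hg, pow_orderOf_eq_one, map_one]
  have g1 : θ g ≠ 1 := fun e => by
    obtain ⟨a, rfl⟩ := (h.ker g).1 e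
    have := orderOf_dvd_of_pow_eq_one ((pow_two _).trans (h.sq a))
    rw [hg] at this
    omega
  obtain ⟨τ, hτ⟩ := (by decide +kernel : ∀ σ : S5, σ * σ * σ = 1 → σ ≠ 1 → ∃ τ, τ * σ = x5 * τ) _ g3 g1
  obtain ⟨c, rfl⟩ := h.surj τ
  obtain ⟨a, ha⟩ := (h.ker (c * g * c⁻¹ * x⁻¹)).1 (by simp [hτ, hx])
  obtain ⟨b, hb⟩ := (by decide : ∀ a : N4, ∃ b, b + a + vW [0, 1] b = 0) a
  refine ⟨ι b * c, ?_⟩
  have e : α (θ x) *ᵥ b = vW [0, 1] b := by rw [← mW_mulVec, ← h.al.word, hx]; rfl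
  have k : ι b * ι a * (x * ι b * x⁻¹) = 1 := by rw [h.conj, e, ← h.add, ← h.add, hb, h.zero]
  rw [ha] at k
  rw [_root_.mul_inv_rev, inv_eq_of_mul_eq_one_right (h.sq b), ← mul_inv_eq_one, ← k]
  group

theorem ea (K : Subgroup X) (hK : EA K) : Nat.card K ≤ 16 ∧ (8 ≤ Nat.card K →
    (∃ a b, a ≠ 0 ∧ b ≠ 0 ∧ a ≠ b ∧ ι a ∈ K ∧ ι b ∈ K) ∨ ∃ a, a ≠ 0 ∧ ι a ∈ K ∧ ∃ k ∈ K, θ k ≠ 1) := by
  classical
  have := h.fin
  have c0 : Nat.card (θ.comp K.subtype).ker = (univ.filter fun a => ι a ∈ K).card := by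
    rw [← Fintype.card_subtype, ← Nat.card_eq_fintype_card]
    exact (Nat.card_congr (Equiv.ofBijective (fun a : {a // ι a ∈ K} =>
      (⟨⟨ι a, a.2⟩, h.th a⟩ : (θ.comp K.subtype).ker))
      ⟨fun a b e => Subtype.ext (h.inj (congrArg (fun x : (θ.comp K.subtype).ker => x.1.1) e)), fun g => by
        obtain ⟨a, e⟩ := (h.ker g.1.1).1 g.2
        exact ⟨⟨a, e ▸ g.1.2⟩, Subtype.ext (Subtype.ext e)⟩⟩)).symm
  have c := card_mul_index (θ.comp K.subtype).ker
  rw [index_ker, c0] at c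
  by_cases e : ∃ k ∈ K, θ k ≠ 1
  · obtain ⟨k, hk, e⟩ := e
    have c1 : Nat.card (θ.comp K.subtype).range ≤ 4 := pc_ea_S5 _ (by
      rintro _ ⟨g, rfl⟩
      rw [← map_mul, show g * g = 1 from Subtype.ext (hK _ g.2), map_one])
    have c2 : (univ.filter fun a => ι a ∈ K).card ≤ 4 := by
      refine (card_le_card fun a ha => ?_).trans (h.al.fix4 (by rw [← map_mul, hK k hk, map_one]) e).le
      rw [mem_filter] at ha ⊢
      refine ⟨ha.1, h.inj ?_⟩
      rw [← h.conj, inv_eq_of_mul_eq_one_right (hK k hk), eq_inv_of_mul_eq_one_left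
        (show k * ι a * k * ι a = 1 by rw [mul_assoc]; exact hK _ (K.mul_mem hk ha.2)),
        inv_eq_of_mul_eq_one_right (h.sq a)]
    refine ⟨c ▸ Nat.mul_le_mul c2 c1, fun k8 => .inr ?_⟩
    obtain ⟨a, ha, a0⟩ := exists_mem_ne (s := univ.filter fun a => ι a ∈ K) (by nlinarith) 0
    exact ⟨a, a0, (mem_filter.1 ha).2, k, hk, e⟩
  · have c1 : (θ.comp K.subtype).range = ⊥ := eq_bot_iff.2 (by
      rintro _ ⟨g, rfl⟩
      exact by_contra fun k => e ⟨g, g.2, k⟩)
    rw [c1, Subgroup.card_bot, mul_one] at c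
    refine ⟨c ▸ (card_le_univ _).trans (by simp), fun k8 => .inl ?_⟩
    have : 1 < ((univ.filter fun a => ι a ∈ K).erase 0).card := by
      have := pred_card_le_card_erase (s := univ.filter fun a => ι a ∈ K) (a := 0)
      omega
    obtain ⟨a, ha, b, hb, n⟩ := one_lt_card.1 this
    rw [mem_erase, mem_filter] at ha hb
    exact ⟨a, b, ha.1, hb.1, n, ha.2.2, hb.2.2⟩

end PcX

end CL.Pen
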