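/-
Project PEN: the conditions on the image of a Sylow group.
-/
import Cfsg.Agent.Pen.D

set_option autoImplicit false

namespace CL.Pen

open Cfsg Subgroup Matrix CL.Cls CL.Grp CL.Even CL.L10 CL.Mx QuadraticMap

namespace PRx

instance : Finite (OG q0) := Finite.of_injective (fun g : OG q0 => (g.1 : V0 → V0)) fun _ _ e => OG.ext' (congrFun e)

theorem aa (v : V0) : v + v = 0 := funext fun _ => CharTwo.add_self_eq_zero _

theorem dv : dO.1 (vec 1) = vec 2 ∧ dO.1 (vec 2) = vec 3 ∧ dO.1 (vec 3) = vec 1 := ⟨cd_d 1, cd_d 2, cd_d 3⟩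

theorem capp {g : OG q0} (c : Commute g dO) (v : V0) : g.1 (dO.1 v) = dO.1 (g.1 v) := by
  rw [← OG.mul_app, c.eq, OG.mul_app]

theorem gg {g : OG q0} (h : g * g = 1) (v : V0) : g.1 (g.1 v) = v := by rw [← OG.mul_app, h, OG.one_app]

variable {H0 K K1 : Subgroup (OG q0)}

theorem fz (hx : HX H0) {k : OG q0} (hk : k ∈ H0) (k2 : k * k = 1) (c : Commute k dO) : k ∈ FZ := by
  have e2 := capp c (vec 1)
  have e3 := capp c (vec 2)
  have e1 := gg k2 (vec 1)
  rw [dv.1] at e2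
  rw [dv.2.1, e2] at e3
  rcases inZ_iff.1 (hx.zb k hk _ (inZ_iff.2 (.inr (.inl rfl)))) with e | e | e | e
  · exact absurd e (OG.app_ne_zero k (by decide))
  · exact ⟨e, by rw [e2, e, dv.1]⟩
  · rw [e, e2, e, dv.2.1] at e1; exact absurd e1 (by decide)
  · rw [e, e3, e, dv.2.2, dv.1] at e1; exact absurd e1 (by decide)

theorem fx_mono (h : K1 ≤ K) : Nat.card (Fx K) ≤ Nat.card (Fx K1) :=
  Nat.card_le_card_of_injective (fun v : Fx K => (⟨v.1, fun g hg => v.2 g (h hg)⟩ : Fx K1))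
    fun _ _ e => Subtype.ext (congrArg (fun x : Fx K1 => x.1) e)

theorem bnd (hc : HC H0) (h : K1 ≤ H0 ⊓ FZ) (e : EA K1) : K1 = ⊥ ∨ (Nat.card K1 ≤ 7 ∧ Nat.card (Fx K1) ≤ 256) ∨
    (Nat.card K1 ≤ 16 ∧ Nat.card (Fx K1) ≤ 64) := by
  rcases K1.bot_or_exists_ne_one with k | ⟨k, hk, k1⟩
  · exact .inl k
  · rcases le_or_gt 8 (Nat.card K1) with l | l
    · exact .inr (.inr ⟨(hc.ea _ h e).1, (hc.ea _ h e).2 l⟩)
    · exact .inr (.inl ⟨by omega, (fx_mono (zpowers_le.2 hk)).trans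
        (hc.fix2 k (h hk) (orderOf_eq_prime (by rw [pow_two, e k hk]) k1))⟩)

theorem at' {g : OG q0} (h : g * g = 1) (c : Commute g dO) : AT g := fun v => by
  have e : v = dO.1 v + dO.1 (dO.1 v) := by
    have d3 : dO.1 (dO.1 (dO.1 v)) = v := by rw [← OG.mul_app, ← OG.mul_app, d_cube, OG.one_app]
    have := d_fpf (v := v + dO.1 v + dO.1 (dO.1 v)) (by rw [map_add, map_add, d3]; abel)
    linear_combination (exp := 1) this - aa (dO.1 v) - aa (dO.1 (dO.1 v))
  have k : q0 (v + g.1 v) = polar q0 v (g.1 v) := by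
    rw [polar, OG.map_app, sub_sub, CharTwo.add_self_eq_zero, sub_zero]
  rw [k, e]
  generalize dO.1 v = w
  have a1 : polar q0 (dO.1 w) (g.1 (dO.1 w)) = polar q0 w (g.1 w) := by rw [capp c, OG.polar_app]
  have a2 : polar q0 w (g.1 (dO.1 w)) = polar q0 (dO.1 w) (g.1 w) := by
    rw [← OG.polar_app g, gg h, polar_comm]
  rw [map_add, polar_add_left, polar_add_right, polar_add_right, a1, a2, add_comm (polar q0 w _),
    CharTwo.add_self_eq_zero]

theorem two (hx : HX H0) (h : K ≤ H0) {k : OG q0} (hk : k ∈ K) (hi : k * dO * k⁻¹ = dO⁻¹) :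
    Nat.card K ≤ 2 * Nat.card ↥(K ⊓ centralizer {dO}) := by
  have : Nat.card K ≤ Nat.card (Bool × ↥(K ⊓ centralizer {dO})) := by
    refine Nat.card_le_card_of_surjective (fun p => ⟨cond p.1 (k * p.2) p.2, by
      rcases p with ⟨_ | _, x⟩
      exacts [x.2.1, mul_mem hk x.2.1]⟩) fun g => ?_
    rcases hx.nd g (h g.2) with e | e
    · exact ⟨(false, ⟨g, g.2, mem_centralizer_singleton_iff.2 (mul_inv_eq_iff_eq_mul.1 e)⟩), rfl⟩
    · refine ⟨(true, ⟨k⁻¹ * g, K.mul_mem (K.inv_mem hk) g.2, mem_centralizer_singleton_iff.2 ?_⟩),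
        Subtype.ext (mul_inv_cancel_left _ _)⟩
      calc _ = k⁻¹ * (g * dO * (g : OG q0)⁻¹) * g := by group
        _ = _ := by rw [e, ← hi]; group
  simpa using this

theorem cases (hx : HX H0) (hc : HC H0) (h : K ≤ H0) (e : EA K) (n : K ≠ ⊥) :
    ((∀ k ∈ K, AT k) ∧ Nat.card K * Nat.card (Fx K) < 4096) ∨
      (Nat.card K ≤ 2 ∧ Nat.card (Fx K) ≤ 64) ∨ (Nat.card K ≤ 14 ∧ Nat.card (Fx K) ≤ 16) ∨
      (Nat.card K ≤ 32 ∧ Nat.card (Fx K) ≤ 8) := by
  by_cases a : ∀ k ∈ K, Commute k dO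
  · refine .inl ⟨fun k hk => at' (e k hk) (a k hk), ?_⟩
    rcases bnd hc (fun k hk => ⟨h hk, fz hx (h hk) (e k hk) (a k hk)⟩) e with b | b | b
    · exact absurd b n
    · exact (Nat.mul_le_mul b.1 b.2).trans_lt (by norm_num)
    · exact (Nat.mul_le_mul b.1 b.2).trans_lt (by norm_num)
  · push Not at a
    obtain ⟨k, hk, a⟩ := a
    have hi := (hx.nd k (h hk)).resolve_left fun e => a (mul_inv_eq_iff_eq_mul.1 e)
    have c : ∀ g ∈ K ⊓ centralizer {dO}, Commute g dO := fun g hg => mem_centralizer_singleton_iff.1 hg.2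
    have t := two hx h hk hi
    have s := fx_sq inf_le_left c hk hi
    have r : ∀ {m : ℕ}, Nat.card (Fx (K ⊓ centralizer {dO})) ≤ m ^ 2 → Nat.card (Fx K) ≤ m := fun l =>
      (Nat.pow_le_pow_iff_left two_ne_zero).1 (s.trans l)
    right
    rcases bnd (K1 := K ⊓ centralizer {dO}) hc (fun g hg => ⟨h hg.1, fz hx (h hg.1) (e g hg.1) (c g hg)⟩) (fun g hg => e g hg.1) with b | b | b
    · refine .inl ⟨by simpa [b] using t, r ?_⟩
      exact (Nat.card_le_card_of_injective _ Subtype.val_injective).trans card_V0.le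
    · exact .inr (.inl ⟨by omega, r b.2⟩)
    · exact .inr (.inr ⟨by omega, r b.2⟩)

end PRx

open PRx in
theorem pr : PR := fun H0 P hx hc hP hN hF _ => by
  refine ⟨fun K hK e n => ?_, fun K hK e n => ?_, fun v hv w hw v0 w0 => ?_⟩
  · rw [card_V0]
    rcases cases hx hc (hK.trans hP) e n with b | b | b | b
    exacts [b.2, (Nat.mul_le_mul b.1 b.2).trans_lt (by norm_num), (Nat.mul_le_mul b.1 b.2).trans_lt (by norm_num),
      (Nat.mul_le_mul b.1 b.2).trans_lt (by norm_num)]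
  · rw [card_V0]
    rcases cases hx hc (hK.trans hP) e n with b | b | b | b
    exacts [.inl b.1,
      .inr ((Nat.mul_le_mul (Nat.mul_le_mul b.1 b.2) ((min_le_left _ _).trans b.1)).trans_lt (by norm_num)),
      .inr ((Nat.mul_le_mul (Nat.mul_le_mul b.1 b.2) ((min_le_left _ _).trans b.1)).trans_lt (by norm_num)),
      .inr ((Nat.mul_le_mul (Nat.mul_le_mul b.1 b.2) ((min_le_right _ _).trans b.2)).trans_lt (by norm_num))]
  · by_contra ne
    refine hF fun p hp => ?_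
    have a := hv p hp
    have b := hw p hp
    have c : p.1 (v + w) = v + w := by rw [map_add, a, b]
    have e : vec 1 + vec 3 = vec 2 ∧ vec 3 + vec 1 = vec 2 ∧ vec 2 + vec 3 = vec 1 ∧ vec 3 + vec 2 = vec 1 := by decide
    rcases (inZ_iff.1 (fx_NO.1 fun g hg => hv g (hN hg))).resolve_left v0 with rfl | rfl | rfl <;>
      rcases (inZ_iff.1 (fx_NO.1 fun g hg => hw g (hN hg))).resolve_left w0 with rfl | rfl | rfl <;>
      first
      | exact absurd rfl ne
      | (simp only [e] at c; exact ⟨by assumption, by assumption⟩)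
      | exact ⟨by assumption, by assumption⟩

end CL.Pen
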