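/-
Project PEN (S3321), job QA: generators `x, d, u, v`.
-/
import Cfsg.Agent.Pen.D
import Cfsg.Agent.Grp.Cores

set_option autoImplicit false

namespace CL.Pen

open Cfsg Subgroup Matrix CL.Cls CL.Grp CL.Even CL.L10 CL.Mx QuadraticMap
open scoped MatrixGroups

universe u

namespace QAJ

theorem lift3 {G H : Type*} [Group G] [Finite G] [Group H] (φ : G →* H) (hk : IsPGroup 2 φ.ker) {d c : G}
    (d3 : d ^ 3 = 1) (d1 : φ d ≠ 1) (h : φ c * φ d = φ d * φ c) : ∃ c', φ c' = φ c ∧ c' * d = d * c' := by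
  classical
  have p3 : ∀ {x : G}, x ^ 3 = 1 → IsPGroup 3 (zpowers x) := fun h => isPGroup_zpowers (k := 1) h
  have hn : zpowers d ≤ 𝒩(φ.ker) := le_normalizer_of_normal
  have h1 : IsSylowIn 3 (zpowers d) (zpowers d ⊔ φ.ker) := ⟨le_sup_left, p3 d3, fun h => by
    obtain ⟨k, hk⟩ := hk.exists_card_eq
    have h2 := card_sup_mul_card_inf hn
    rw [← ((zpowers d).subgroupOf (zpowers d ⊔ φ.ker)).card_mul_index, card_subgroupOf_of_le le_sup_left, mul_assoc,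
      Nat.mul_left_cancel_iff Nat.card_pos, hk] at h2
    exact absurd (Nat.prime_three.dvd_of_dvd_pow (h2 ▸ h.mul_right _)) (by norm_num)⟩
  have e1 : φ (c * d * c⁻¹) = φ d := by rw [map_mul, map_mul, h, map_inv, mul_inv_cancel_right]
  obtain ⟨g, hg, e⟩ := h1.exists_conj_le (p3 (x := c * d * c⁻¹) (by rw [conj_pow, d3]; simp)) (zpowers_le.2
    ((mem_sup_nr hn).2 ⟨d, mem_zpowers d, d⁻¹ * (c * d * c⁻¹), by rw [MonoidHom.mem_ker, map_mul, e1]; simp, by group⟩))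
  obtain ⟨a, ha, b, hb, rfl⟩ := (mem_sup_nr hn).1 hg
  have e2 : b * c * d * (b * c)⁻¹ ∈ zpowers d := by
    simpa [mul_assoc] using mul_mem (mul_mem (inv_mem ha) (e (conj_mem_conj_smul _ (mem_zpowers _)))) ha
  have e3 : φ (b * c) = φ c := by rw [map_mul, hb, one_mul]
  have e4 : φ (b * c * d * (b * c)⁻¹) = φ d := by rw [map_mul, map_mul, map_inv, e3, h, mul_inv_cancel_right]
  refine ⟨b * c, e3, mul_inv_eq_iff_eq_mul.1 ?_⟩
  rw [mem_zpowers_iff_mem_range_orderOf, orderOf_eq_prime d3 (by rintro rfl; exact d1 (map_one _))] at e2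
  obtain ⟨i, hi, e5⟩ := Finset.mem_image.1 e2
  rw [← e5] at e4 ⊢
  rw [Finset.mem_range] at hi
  interval_cases i
  · exact absurd (by simpa using e4.symm) d1
  · exact pow_one d
  · exact absurd (by simpa [pow_two] using e4) d1

/-- the computation in the extension of `2 ^ 3` -/
theorem core {H : Type*} [Group H] (q : H →* SL3) (j : W3 → H) (ja : ∀ c c', j (c + c') = j c * j c')
    (ji : ∀ {c}, j c = 1 → c = 0) (jc : ∀ k c, k * j c * k⁻¹ = j ((q k).1 *ᵥ c)) (qj : ∀ c, q (j c) = 1)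
    (ker : ∀ k, q k = 1 → ∃ c, j c = k) {d1 u0 : H} (hd : q d1 = d3) (hu : q u0 = t3 2 0) :
    ∃ d u v, q d = d3 ∧ q u = t3 2 0 ∧ q v = t3 2 1 ∧ d ^ 3 = 1 ∧ u * u = 1 ∧ v * v = 1 ∧ Commute u v ∧
      d * u * d⁻¹ = v ∧ (d * v * d⁻¹ = u * v ∨ d * v * d⁻¹ = u * v * j (Pi.single 2 1)) := by
  have aa : ∀ c : W3, c + c = 0 := by decide
  have j0 : j 0 = 1 := by simpa using ja 0 0
  have jj : ∀ c, j c * j c = 1 := fun c => by rw [← ja, aa, j0]
  have je : ∀ {c c' y}, j c * y = j c' * y → c + c' = 0 := fun e => ji (by rw [ja, mul_right_cancel e, jj])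
  have mv : ∀ k c y, k * (j c * y) = j ((q k).1 *ᵥ c) * (k * y) := fun k c y => by rw [← jc]; group
  have ja' : ∀ c c' y, j c * (j c' * y) = j (c + c') * y := fun c c' y => by rw [ja, mul_assoc]
  have ker' : ∀ k k', q k = q k' → ∃ c, k = j c * k' := fun k k' e => by
    obtain ⟨c, hc⟩ := ker (k * k'⁻¹) (by rw [map_mul, map_inv, e, mul_inv_cancel])
    exact ⟨c, by rw [hc, inv_mul_cancel_right]⟩
  obtain ⟨d, qd, dd⟩ : ∃ d, q d = d3 ∧ d ^ 3 = 1 := by
    obtain ⟨c, e⟩ := ker (d1 ^ 3) (by rw [map_pow, hd]; decide)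
    exact ⟨d1 ^ 4, by rw [map_pow, hd]; decide, by
      rw [← pow_mul, show 4 * 3 = 3 * 2 * 2 from rfl, pow_mul, pow_mul, ← e, pow_two (j c), jj, one_pow]⟩
  have key : ∀ u v, q u = t3 2 0 → d * u * d⁻¹ = v → q v = t3 2 1 ∧ ∃ c c', c 0 = 0 ∧ c 1 = 0 ∧
      v * u = j c * (u * v) ∧ d * v * d⁻¹ = j c' * (u * v) := fun u v qu e => by
    have qv : q v = t3 2 1 := by rw [← e, map_mul, map_mul, map_inv, qd, qu, mul_inv_eq_iff_eq_mul]; decide
    obtain ⟨c, hc⟩ := ker' (v * u) (u * v) (by rw [map_mul, map_mul, qu, qv]; decide)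
    obtain ⟨c', hc'⟩ := ker' (d * v * d⁻¹) (u * v) (by
      rw [map_mul, map_mul, map_mul, map_inv, qd, qu, qv, mul_inv_eq_iff_eq_mul]; decide)
    have h1 : d * v * d⁻¹ * v = j (d3.1 *ᵥ c) * (v * (d * v * d⁻¹)) := by
      have : d * (v * u) * d⁻¹ = d * (j c * (u * v)) * d⁻¹ := by rw [hc]
      rw [mv, qd] at this
      calc _ = d * (v * u) * d⁻¹ := by nth_rw 2 [← e]; group
        _ = _ := by rw [this]; nth_rw 2 [← e]; group
    rw [hc', mv, qv, ← mul_assoc v, hc, mul_assoc, mul_assoc (j c), ja', ja'] at h1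
    have h2 := je h1
    refine ⟨qv, c, c', ?_, ?_, hc, hc'⟩ <;> clear * - h2 <;> revert c c' <;> decide
  obtain ⟨u, qu, uu⟩ : ∃ u, q u = t3 2 0 ∧ u * u = 1 := by
    obtain ⟨qv, c, -, c0, -, hc, -⟩ := key u0 _ hu rfl
    generalize d * u0 * d⁻¹ = v at qv hc
    obtain ⟨b, hb⟩ := ker' (u0 * u0) 1 (by rw [map_mul, hu, map_one]; decide)
    have h1 : j b * (1 * u0) = j ((t3 2 0).1 *ᵥ b) * (1 * u0) := by
      have := mv u0 b 1
      rw [hu, mul_one u0] at this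
      rw [← mul_assoc, ← hb, mul_assoc, hb, this, one_mul]
    have h2 : v * (u0 * u0) = j c * (u0 * (j c * (u0 * v))) := by rw [← hc, ← mul_assoc u0, ← mul_assoc, hc]; group
    rw [mv u0, hu, ← mul_assoc u0, hb, mv v, qv, mul_assoc, ja', ja', mul_one, one_mul] at h2
    refine ⟨j (b 2 • Pi.single 0 1) * u0, by rw [map_mul, qj, one_mul, hu], ?_⟩
    rw [mul_assoc, mv u0, hu, hb, ja', ja', mul_one, ← j0]
    have h3 := je h1
    have h4 := je h2
    congr 1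
    clear * - h3 h4 c0
    revert b c; decide
  obtain ⟨qv, c, c', c0, c1, hc, hc'⟩ := key u _ qu rfl
  generalize e : d * u * d⁻¹ = v at qv hc hc'
  have vv : v * v = 1 := by rw [← e, conj_mul, uu, mul_one, mul_inv_cancel]
  have h1 : j 0 * u = d * (d * v * d⁻¹) * d⁻¹ := by
    rw [j0, ← e]
    calc _ = d ^ 3 * u * (d ^ 3)⁻¹ := by rw [dd]; group
      _ = _ := by rw [pow_succ, pow_two]; group
  rw [hc', mv, qd, mul_assoc, ← conj_mul, e, hc', mv, qv, ← mul_assoc v, hc, mul_assoc, mul_assoc, vv, mul_one, ja',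
    ja'] at h1
  have h2 : j 0 * 1 = d * v * d⁻¹ * (d * v * d⁻¹) := by rw [j0, conj_mul, vv]; group
  rw [hc', mul_assoc, mv (u * v), map_mul, qu, qv, mul_assoc u, ← mul_assoc v, hc, mul_assoc (j c), mul_assoc u, vv,
    mul_one u, mv u, qu, uu, ja', ja'] at h2
  have h3 := je h1
  have h4 := je h2
  have h5 : c = 0 ∧ (c' = 0 ∨ c' = (t3 2 0 * t3 2 1).1 *ᵥ Pi.single 2 1) := by
    clear * - h3 h4 c0 c1
    revert c c'; decide
  rw [h5.1, j0, one_mul] at hc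
  refine ⟨d, u, v, qd, qu, qv, dd, uu, vv, hc.symm, e, h5.2.imp (fun h => ?_) fun h => ?_⟩
  · rw [hc', h, j0, one_mul]
  · rw [hc', h, ← qu, ← qv, ← map_mul, ← jc, inv_mul_cancel_right]

end QAJ

open QAJ in
/-- (job QA) -/
theorem qa : QA.{u} := by
  intro G _ _ K L Z p α φ ι h
  have iZ : ∀ c, ι c ∈ Z := fun c => h.mem_Z.2 ⟨c, rfl⟩
  have iK : ∀ c, ι c ∈ K := fun c => h.LK (h.ZL (iZ c))
  have i0 : ι 0 = 1 := by simpa using h.ι_add 0 0
  have l4 : ∀ l : K, p l = 1 → l ^ 2 ^ 2 = 1 := fun l hl => Subtype.ext (by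
    rw [coe_pow, pow_two, pow_mul, pow_two (l : G), h.sq ((h.ker l).1 hl), pow_two, ← h.ι_add,
      (by decide : ∀ c : W3, c + c = 0), i0, coe_one])
  have hk : IsPGroup 2 p.ker := isPGroup_iff_forall.2 fun l hl => ⟨2, l4 l hl⟩
  obtain ⟨x, px, x3⟩ : ∃ x : K, p x = (x5, 1) ∧ x ^ 3 = 1 := by
    obtain ⟨k, e⟩ := h.surj (x5, 1)
    have e3 : p k ^ 3 = 1 := by rw [e]; decide
    exact ⟨k ^ 2 ^ 2, by rw [map_pow, show 2 ^ 2 = 3 + 1 from rfl, pow_succ, e3, one_mul, e],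
      by rw [← pow_mul, mul_comm, pow_mul, l4 _ (by rw [map_pow, e3])]⟩
  have lf : ∀ γ, ∃ k : K, p k = (1, γ) ∧ k * x = x * k := fun γ => by
    obtain ⟨k, e⟩ := h.surj (1, γ)
    obtain ⟨k', e1, e2⟩ := lift3 p hk (c := k) x3 (by rw [px]; decide) (by rw [px, e]; simp)
    exact ⟨k', e1.trans e, e2⟩
  let H : Subgroup K := ((MonoidHom.fst _ _).comp p).ker ⊓ centralizer {x}
  have pi : ∀ c, p ⟨ι c, iK c⟩ = 1 := fun c => (h.ker _).2 (h.ZL (iZ c))
  have jH : ∀ c, ⟨ι c, iK c⟩ ∈ H := fun c => ⟨congrArg Prod.fst (pi c), mem_centralizer_singleton_iff.2 (Subtype.ext (by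
    have := h.ι_conj x c
    rw [px, mul_inv_eq_iff_eq_mul] at this
    simpa using this.symm))⟩
  obtain ⟨d1, hd, hd'⟩ := lf d3
  obtain ⟨u0, hu, hu'⟩ := lf (t3 2 0)
  obtain ⟨d, u, v, a1, a2, a3, a4, a5, a6, a7, a8, a9⟩ := core ((MonoidHom.snd _ _).comp (p.comp H.subtype))
    (fun c => ⟨_, jH c⟩) (fun c c' => Subtype.ext (Subtype.ext (h.ι_add c c')))
    (fun e => h.ι_inj (congrArg (fun y : H => y.1.1) e)) (fun k c => Subtype.ext (Subtype.ext (h.ι_conj k c)))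
    (fun c => congrArg Prod.snd (pi c)) (fun k e => by
      have hl := (h.ker k).1 (Prod.ext k.2.1 e)
      have h1 := h.φ_conj x hl
      rw [← coe_mul, ← mem_centralizer_singleton_iff.1 k.2.2, coe_mul, mul_inv_cancel_right, px, x5, map_mul, h.al.s1,
        h.al.s2] at h1
      obtain ⟨c, hc⟩ := h.mem_Z.1 ((h.φ_zero hl).1 (funext fun i =>
        (by decide : ∀ n : N4, n = (mS1 * mS2) *ᵥ n → n = 0) _ (by
          simpa [actM, one_apply] using congrFun h1 i)))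
      exact ⟨c, Subtype.ext (Subtype.ext hc)⟩)
    (d1 := ⟨d1, congrArg Prod.fst hd, mem_centralizer_singleton_iff.2 hd'⟩)
    (u0 := ⟨u0, congrArg Prod.fst hu, mem_centralizer_singleton_iff.2 hu'⟩) (congrArg Prod.snd hd)
    (congrArg Prod.snd hu)
  have cx : ∀ k : H, Commute x k := fun k => (mem_centralizer_singleton_iff.1 k.2.2).symm
  exact ⟨x, d, u, v, px, Prod.ext d.2.1 a1, Prod.ext u.2.1 a2, Prod.ext v.2.1 a3, x3, congrArg Subtype.val a4, cx d,
    cx u, cx v, congrArg Subtype.val a5, congrArg Subtype.val a6, congrArg Subtype.val a7, congrArg Subtype.val a8,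
    a9.imp (congrArg fun y : H => y.1.1) (congrArg fun y : H => y.1.1)⟩

end CL.Pen
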