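/-
Project PEN (S3321): the subgroup `Q` is normalised by the centraliser of `z` in `K`.
-/
import Cfsg.Agent.Pen.D

set_option autoImplicit false

namespace CL.Pen

open Cfsg Subgroup Matrix CL.Cls CL.Grp CL.Even CL.L10 CL.Mx QuadraticMap
open scoped MatrixGroups

universe u

namespace Qb

/-- the transvections with centre `e 2` -/
def T (i j : F) : SL3 := t3 2 0 ^ i.val * t3 2 1 ^ j.val

/-- `γ` fixes `e 2` -/
def Fx2 (γ : SL3) : Prop := γ.1 *ᵥ Pi.single 2 1 = Pi.single 2 1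

theorem T_val : ∀ i j : F, (T i j).1 = !![1, 0, 0; 0, 1, 0; i, j, 1] := by decide

theorem T_fx (i j : F) : Fx2 (T i j) := by unfold Fx2; rw [T_val]; revert i j; decide

theorem d_fx : Fx2 d3 := by unfold Fx2; rw [d3_val]; decide

theorem T_inj {i j i' j' : F} (h : T i j = T i' j') : i = i' ∧ j = j' := by
  have := congrArg Subtype.val h
  rw [T_val, T_val] at this
  exact ⟨congrFun (congrFun this 2) 0, congrFun (congrFun this 2) 1⟩

theorem fin : ∀ a b c d e f : F, a * d - b * c = 1 → ∀ m : Matrix (Fin 3) (Fin 3) F, m = !![a, b, 0; c, d, 0; e, f, 1] →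
    (∀ i j, ∃ i' j', m * (T i j).1 = (T i' j').1 * m) ∧
      ∃ i j, m * d3.1 = (T i j).1 * d3.1 * m ∨ m * d3.1 = (T i j).1 * (d3.1 * d3.1) * m := by
  simp only [forall_eq, T_val, d3_val]
  decide +kernel

theorem Fx2.conj {γ : SL3} (h : Fx2 γ) : (∀ i j, ∃ i' j', γ * T i j * γ⁻¹ = T i' j') ∧
    ∃ i j, γ * d3 * γ⁻¹ = T i j * d3 ∨ γ * d3 * γ⁻¹ = T i j * (d3 * d3) := by
  have c : ∀ i, γ.1 i 2 = (Pi.single 2 1 : W3) i := fun i => by simpa using congrFun h i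
  have d := γ.2
  rw [det_fin_three, c, c, c] at d
  simp only [mul_inv_eq_iff_eq_mul]
  obtain ⟨h1, i, j, h2⟩ := fin (γ.1 0 0) (γ.1 0 1) (γ.1 1 0) (γ.1 1 1) (γ.1 2 0) (γ.1 2 1) (by simpa using d) γ.1 (by
    ext i j
    fin_cases i <;> fin_cases j <;> simp [c])
  exact ⟨fun i j => (h1 i j).imp fun _ => Exists.imp fun _ e => Subtype.ext e, i, j,
    h2.imp (fun e => Subtype.ext e) fun e => Subtype.ext e⟩

theorem Fx2.act {γ : SL3} (h : Fx2 γ) (A : M4) (a : M43) : actM A γ a 2 = A *ᵥ a 2 := by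
  have e : (γ⁻¹).1 *ᵥ Pi.single 2 1 = Pi.single 2 1 := by
    conv_lhs => rw [← h, mulVec_mulVec, show (γ⁻¹).1 * γ.1 = 1 from congrArg Subtype.val (inv_mul_cancel γ), one_mulVec]
  have c : ∀ i, (γ⁻¹).1 i 2 = (Pi.single 2 1 : W3) i := fun i => by
    rw [← e, mulVec_single_one]; rfl
  simp only [actM, c, Fin.sum_univ_three]
  simp

theorem pw_add {K : Type*} [Group K] {u : K} (h : u * u = 1) (i i' : F) : u ^ (i + i').val = u ^ i.val * u ^ i'.val := by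
  rw [← pow_add, ZMod.val_add, ← pow_eq_pow_mod _ (by rw [pow_two, h])]

end Qb

open Qb

theorem qb : QB.{u} := by
  intro G _ _ K L Z p α φ ι x d u v h U
  obtain ⟨w, hw⟩ : ∃ w : F → F → K, ∀ i j, w i j = u ^ i.val * v ^ j.val := ⟨_, fun _ _ => rfl⟩
  have pw : ∀ i j, p (w i j) = (1, T i j) := fun i j => by simp [hw, U.pu, U.pv, T]
  have wm : ∀ i j i' j', w i j * w i' j' = w (i + i') (j + j') := fun i j i' j' => by
    rw [hw, hw, hw, pw_add U.uu, pw_add U.vv, mul_assoc, ← mul_assoc (v ^ _), ← (U.uv.pow_pow _ _).eq]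
    simp only [mul_assoc]
  have w0 : w 0 0 = 1 := by simp [hw]
  have w1 : w 1 0 = u := by simp [hw, ZMod.val_one]
  have w2 : w 0 1 = v := by simp [hw, ZMod.val_one]
  have cL : ∀ k l : K, (l : G) ∈ L → ((k * l * k⁻¹ : K) : G) ∈ L := fun k l hl =>
    (h.ker _).1 (by rw [map_mul, map_mul, (h.ker l).2 hl, mul_one, map_inv, mul_inv_cancel])
  have cφ : ∀ k l : K, Fx2 (p k).2 → (l : G) ∈ L → φ (k * l * k⁻¹ : K) 2 = α (p k).1 *ᵥ φ l 2 := fun k l hk hl =>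
    (congrFun (h.φ_conj k hl) 2).trans (hk.act _ _)
  obtain ⟨Nu, hN⟩ : ∃ Nu : K → N4 → Prop, ∀ r n, Nu r n ↔ ∃ l : K, (l : G) ∈ L ∧ φ l 2 = n ∧ ∃ i j, r = l * w i j :=
    ⟨_, fun _ _ => Iff.rfl⟩
  have φ1 : φ 1 = 0 := (h.φ_zero (one_mem L)).2 (one_mem Z)
  have Nw : ∀ i j, Nu (w i j) 0 := fun i j => (hN _ _).2 ⟨1, one_mem L, congrFun φ1 2, i, j, (one_mul _).symm⟩
  have NL : ∀ l : K, (l : G) ∈ L → Nu l (φ l 2) := fun l hl => (hN _ _).2 ⟨l, hl, rfl, 0, 0, by rw [w0, mul_one]⟩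
  have Nm : ∀ {r r' n n'}, Nu r n → Nu r' n' → Nu (r * r') (n + n') := fun {r r' n n'} a b => by
    obtain ⟨l, hl, rfl, i, j, rfl⟩ := (hN _ _).1 a
    obtain ⟨l', hl', rfl, i', j', rfl⟩ := (hN _ _).1 b
    refine (hN _ _).2 ⟨l * (w i j * l' * (w i j)⁻¹), mul_mem hl (cL _ _ hl'), ?_, i + i', j + j', by rw [← wm]; group⟩
    rw [coe_mul, h.φ_mul hl (cL _ _ hl'), Pi.add_apply, cφ _ _ (by rw [pw]; exact T_fx i j) hl', pw, map_one, one_mulVec]
  have aa : ∀ n : N4, n + n = 0 := fun n => funext fun i => CharTwo.add_self_eq_zero _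
  have Ni : ∀ {r n}, Nu r n → Nu r⁻¹ n := fun {r n} a => by
    obtain ⟨l, hl, rfl, i, j, rfl⟩ := (hN _ _).1 a
    have e := congrFun (h.φ_mul hl (inv_mem hl)) 2
    rw [mul_inv_cancel, φ1, Pi.zero_apply, Pi.add_apply, ← aa (φ l 2), add_right_inj] at e
    have := Nm (Nw i j) (NL l⁻¹ (inv_mem hl))
    rwa [zero_add, coe_inv, ← e, eq_inv_of_mul_eq_one_left ((wm i j i j).trans (by
      rw [CharTwo.add_self_eq_zero, CharTwo.add_self_eq_zero, w0])), ← _root_.mul_inv_rev] at this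
  have Nu1 : ∀ {r n n'}, Nu r n → Nu r n' → n = n' := fun {r n n'} a b => by
    obtain ⟨l, hl, rfl, i, j, rfl⟩ := (hN _ _).1 a
    obtain ⟨l', hl', rfl, i', j', e⟩ := (hN _ _).1 b
    have := congrArg p e
    rw [map_mul, map_mul, (h.ker l).2 hl, (h.ker l').2 hl', one_mul, one_mul, pw, pw] at this
    obtain ⟨rfl, rfl⟩ := T_inj (congrArg Prod.snd this)
    rw [mul_right_cancel e]
  have Ne : ∀ (r : K) i j, p r = (1, T i j) → ∃ n, Nu r n := fun r i j e =>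
    ⟨_, (hN _ _).2 ⟨r * (w i j)⁻¹, (h.ker _).1 (by rw [map_mul, map_inv, e, pw, mul_inv_cancel]), rfl, i, j, by group⟩⟩
  have zZ : z0 ι ∈ Z := h.mem_Z.2 ⟨_, rfl⟩
  have Nz : Nu ⟨z0 ι, h.LK (h.ZL zZ)⟩ 0 := by
    have := NL ⟨z0 ι, h.LK (h.ZL zZ)⟩ (h.ZL zZ)
    rwa [(h.φ_zero (h.ZL zZ)).2 zZ] at this
  have gen : ∀ k : K, Fx2 (p k).2 → Nu (k * u * k⁻¹) 0 → Nu (k * v * k⁻¹) 0 → ∀ r n, Nu r n →
      Nu (k * r * k⁻¹) (α (p k).1 *ᵥ n) := fun k hk a b r n c => by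
    obtain ⟨l, hl, rfl, i, j, rfl⟩ := (hN _ _).1 c
    have pn : ∀ y : K, Nu y 0 → ∀ m : ℕ, Nu (y ^ m) 0 := fun y hy m => by
      induction m with
      | zero => rw [pow_zero, ← w0]; exact Nw 0 0
      | succ m ih => simpa only [pow_succ, add_zero] using Nm ih hy
    have := Nm (NL _ (cL k l hl)) (Nm (pn _ a i.val) (pn _ b j.val))
    rwa [cφ k l hk hl, add_zero, add_zero, conj_pow, conj_pow, conj_mul, conj_mul, ← hw] at this
  have dv : d * v * d⁻¹ = u * v ∨ d * v * d⁻¹ = u * v * ⟨z0 ι, h.LK (h.ZL zZ)⟩ :=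
    U.dv.imp (fun e => Subtype.ext e) fun e => Subtype.ext e
  have Nd : ∀ r n, Nu r n → Nu (d * r * d⁻¹) n := fun r n c => by
    have uv := Nm (w1 ▸ Nw 1 0) (w2 ▸ Nw 0 1)
    have := gen d (by rw [U.pd]; exact d_fx) (by rw [U.du, ← w2]; exact Nw 0 1) (by
      rcases dv with e | e <;> rw [e]
      · simpa only [add_zero] using uv
      · simpa only [add_zero] using Nm uv Nz) r n c
    rwa [U.pd, map_one, one_mulVec] at this
  have Nr : ∀ {r0 m r n}, Nu r0 m → Nu r n → Nu (r0 * r * r0⁻¹) n := fun {r0 m r n} a b => by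
    have := Nm (Nm a b) (Ni a)
    rwa [add_right_comm, aa, zero_add] at this
  let Q : Subgroup K :=
    { carrier := {r | Nu r 0}
      one_mem' := w0 ▸ Nw 0 0
      mul_mem' := fun a b => (add_zero (0 : N4) ▸ Nm a b : Nu _ 0)
      inv_mem' := Ni }
  refine ⟨Q.map K.subtype, fun g => ⟨?_, ?_⟩, fun k hk => mem_normalizer_fintype ?_⟩
  · rintro ⟨r, hr, rfl⟩
    obtain ⟨l, hl, e, i, j, rfl⟩ := (hN _ _).1 hr
    exact ⟨l, hl, e, i, j, by rw [hw]; rfl⟩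
  · rintro ⟨l, hl, e, i, j, rfl⟩
    exact ⟨_, (hN _ _).2 ⟨⟨l, h.LK hl⟩, hl, e, i, j, rfl⟩, by rw [hw]; rfl⟩
  obtain ⟨hk, kz⟩ := hk
  lift k to K using hk
  have kz' : (k : G) * z0 ι * (k : G)⁻¹ = z0 ι := mul_inv_eq_iff_eq_mul.2 (mem_centralizer_singleton_iff.1 kz)
  have fx : Fx2 (p k).2 := by
    have e := h.ι_add ((p k).2.1 *ᵥ Pi.single 2 1) (-Pi.single 2 1)
    rw [← h.ι_conj, show ι (Pi.single 2 1) = z0 ι from rfl, kz', z0, ← h.ι_add, add_neg_cancel,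
      left_eq_mul.1 (by rw [← h.ι_add, add_zero] : ι 0 = ι 0 * ι 0)] at e
    exact add_neg_eq_zero.1 (h.ι_inj e)
  have ex : ∀ i j, ∃ n, Nu (k * w i j * k⁻¹) n := fun i j => by
    obtain ⟨i', j', e⟩ := fx.conj.1 i j
    exact Ne _ i' j' (by rw [map_mul, map_mul, map_inv, pw, ← e]; ext : 1 <;> simp)
  obtain ⟨a, ha⟩ := ex 1 0
  obtain ⟨b, hb⟩ := ex 0 1
  rw [w1] at ha
  rw [w2] at hb
  have Ne' : ∀ r n, Nu r n → Nu (k * d * k⁻¹ * r * (k * d * k⁻¹)⁻¹) n := fun r n c => by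
    obtain ⟨i, j, e | e⟩ := fx.conj.2
    · obtain ⟨m, hm⟩ := Ne (k * d * k⁻¹ * d⁻¹) i j (by
        simp only [map_mul, map_inv, U.pd]; ext : 1 <;> simp [e])
      convert Nr hm (Nd r n c) using 1
      group
    · obtain ⟨m, hm⟩ := Ne (k * d * k⁻¹ * (d * d)⁻¹) i j (by
        simp only [map_mul, map_inv, U.pd]; ext : 1 <;> simp [e, mul_inv_eq_iff_eq_mul, -_root_.mul_inv_rev])
      convert Nr hm (Nd _ n (Nd r n c)) using 1
      group
  have e1 : a = b := Nu1 (Ne' _ a ha) (by rw [← U.du] at hb; convert hb using 1; group)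
  have e2 : b = a + b := Nu1 (Ne' _ b hb) (by
    rw [show k * d * k⁻¹ * (k * v * k⁻¹) * (k * d * k⁻¹)⁻¹ = k * (d * v * d⁻¹) * k⁻¹ by group]
    rcases dv with e | e <;> rw [e, ← conj_mul]
    · exact Nm ha hb
    · rw [← conj_mul, show k * ⟨z0 ι, h.LK (h.ZL zZ)⟩ * k⁻¹ = ⟨z0 ι, h.LK (h.ZL zZ)⟩ from Subtype.ext kz']
      simpa only [add_zero] using Nm (Nm ha hb) Nz)
  obtain rfl : a = 0 := right_eq_add.1 e2
  subst e1
  rintro _ ⟨r, hr, rfl⟩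
  exact ⟨_, (by simpa only [mulVec_zero] using gen k fx ha hb r 0 hr : Nu _ 0), rfl⟩

end CL.Pen
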