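/-
Project PEN (S3321), job QC: coordinates for the extraspecial group `Q`.
-/
import Cfsg.Agent.Pen.D

set_option autoImplicit false

namespace CL.Pen

open Cfsg Subgroup Matrix CL.Cls CL.Grp CL.Even CL.L10 CL.Mx QuadraticMap
open scoped MatrixGroups

universe u

def qc_mk (s0 s1 : F) (a b : N4) (i j : F) : V0 := ![s0, s1, a 0, a 1, a 2, a 3, b 0, b 1, b 2, b 3, i, j]

theorem qc_n1 (s0 s1 : F) (a b : N4) (i j : F) : n1 (qc_mk s0 s1 a b i j) = a :=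
  funext fun k => by fin_cases k <;> rfl

theorem qc_n2 (s0 s1 : F) (a b : N4) (i j : F) : n2 (qc_mk s0 s1 a b i j) = b :=
  funext fun k => by fin_cases k <;> rfl

theorem qc_eta (v : V0) : qc_mk (v 0) (v 1) (n1 v) (n2 v) (v 10) (v 11) = v :=
  funext fun k => by fin_cases k <;> rfl

theorem qc_add (s0 s1 : F) (a b : N4) (i j t0 t1 : F) (c d : N4) (k l : F) :
    qc_mk (s0 + t0) (s1 + t1) (a + c) (b + d) (i + k) (j + l) = qc_mk s0 s1 a b i j + qc_mk t0 t1 c d k l :=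
  funext fun k => by fin_cases k <;> rfl

theorem qc_lin (L : List ℕ) (v : V0) (i : Fin 12) :
    linL L v i = ∑ j : Fin 12, if (L.getD j 0).testBit i then v j else 0 := by
  rw [linL_apply]
  refine Finset.sum_congr rfl fun j _ => ?_
  cases (L.getD j 0).testBit i <;> simp [b2]

theorem qc_xO (s0 s1 : F) (a b : N4) (i j : F) :
    xO.1 (qc_mk s0 s1 a b i j) = qc_mk s0 s1 ((mS1 * mS2) *ᵥ a) ((mS1 * mS2) *ᵥ b) i j := by
  have e : ∀ a : N4, (mS1 * mS2) *ᵥ a = ![a 1, a 0 + a 1, a 3, a 2 + a 3] := by decide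
  rw [e, e]
  funext k
  change linL xL _ k = _
  rw [qc_lin]
  fin_cases k <;> simp +decide [Fin.sum_univ_succ, qc_mk]

theorem qc_dO (s0 s1 : F) (a b : N4) (i j : F) :
    dO.1 (qc_mk s0 s1 a b i j) = qc_mk s1 (s0 + s1) b (a + b) j (i + j) := by
  funext k
  change linL dL _ k = _
  rw [qc_lin]
  fin_cases k <;> simp +decide [Fin.sum_univ_succ, qc_mk]

def qc_g (i j : F) : SL3 := t3 2 0 ^ i.val * t3 2 1 ^ j.val

theorem qc_gval : ∀ i j : F, (qc_g i j).1 = 1 + single 2 0 i + single 2 1 j := by decide +kernel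

theorem qc_ginv : ∀ i j : F, ((qc_g i j)⁻¹).1 = !![1, 0, 0; 0, 1, 0; i, j, 1] := by decide +kernel

theorem qc_gvec : ∀ (i j : F) (t : W3), (qc_g i j).1 *ᵥ t = (Pi.single 2 (i * t 0 + j * t 1) : W3) + t := by
  decide +kernel

theorem qc_actg (i j : F) {a : M43} (ha : a 2 = 0) : actM 1 (qc_g i j) a = a := funext fun k => by
  rw [actM, qc_ginv, Fin.sum_univ_three, ha]
  fin_cases k <;> simp [ha]

theorem qc_act1 (A : M4) (a : M43) : actM A 1 a = fun j => A *ᵥ a j := funext fun k => by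
  simp [actM, one_apply]

theorem qc_actd (a : M43) : actM 1 d3 a = ![a 1, a 0 + a 1, a 2] := funext fun k => by
  rw [actM, show (d3⁻¹).1 = !![0, 1, 0; 1, 1, 0; 0, 0, 1] by decide +kernel, Fin.sum_univ_three]
  fin_cases k <;> simp

variable {G : Type u} [Group G] {K L Z : Subgroup G} {p : K →* S5 × SL3} {α : S5 →* M4} {φ : G → M43} {ι : W3 → G}

def qc_T (x l : G) : G := l * (x * l * x⁻¹) * (x * (x * l * x⁻¹) * x⁻¹)

noncomputable def qc_τ (ι : W3 → G) (x l : G) : W3 := Function.invFun ι (qc_T x l)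

def qc_W (u v : K) (i j : F) : K := u ^ i.val * v ^ j.val

noncomputable def qc_c (φ : G → M43) (ι : W3 → G) (x l : G) (i j : F) : V0 :=
  qc_mk (qc_τ ι x l 1) (qc_τ ι x l 0) (φ l 0) (φ l 1) i j

open Classical in
noncomputable def qc_π (p : K →* S5 × SL3) (φ : G → M43) (ι : W3 → G) (x u v : K) (g : G) : V0 :=
  if hg : g ∈ K then qc_c φ ι x (g * (qc_W u v ((p ⟨g, hg⟩).2.1 2 0) ((p ⟨g, hg⟩).2.1 2 1) : G)⁻¹)
    ((p ⟨g, hg⟩).2.1 2 0) ((p ⟨g, hg⟩).2.1 2 1) else 0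

section
variable (h : KM K L Z p α φ ι)
include h

theorem qc_ι0 : ι 0 = 1 := by simpa using h.ι_add 0 0

theorem qc_ιι (c : W3) : ι c * ι c = 1 := by
  rw [← h.ι_add, (by decide : ∀ c : W3, c + c = 0), qc_ι0 h]

theorem qc_inj : Function.Injective ι := fun a b e =>
  (by decide : ∀ a b : W3, a + b = 0 → a = b) a b (h.ι_inj (by rw [h.ι_add, e, qc_ιι h]))

theorem qc_ιL (c : W3) : ι c ∈ L := h.ZL (h.mem_Z.2 ⟨c, rfl⟩)

theorem qc_φι (c : W3) {l : G} (hl : l ∈ L) : φ (ι c * l) = φ l := by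
  rw [h.φ_mul (qc_ιL h c) hl, (h.φ_zero (qc_ιL h c)).2 (h.mem_Z.2 ⟨c, rfl⟩), zero_add]

theorem qc_φ1 : φ 1 = 0 := (h.φ_zero (one_mem _)).2 (one_mem _)

theorem qc_fix {k : K} {c : W3} (e : (p k).2.1 *ᵥ c = c) : k * ι c = ι c * k := by
  have := h.ι_conj k c
  rwa [e, mul_inv_eq_iff_eq_mul] at this

theorem qc_cen {l : G} (hl : l ∈ L) (c : W3) (g : G) : l * (ι c * g) = ι c * (l * g) := by
  rw [← mul_assoc, ← mul_assoc, qc_fix h (k := ⟨l, h.LK hl⟩) (by rw [(h.ker _).2 hl]; exact one_mulVec c)]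

theorem qc_cj (k : K) {l : G} (hl : l ∈ L) : k * l * (k : G)⁻¹ ∈ L :=
  (h.ker (k * ⟨l, h.LK hl⟩ * k⁻¹)).1 (by rw [map_mul, map_mul, (h.ker ⟨l, h.LK hl⟩).2 hl]; simp)

theorem qc_sw {a b : G} (ha : a ∈ L) (hb : b ∈ L) (a2 : φ a 2 = 0) (b2 : φ b 2 = 0) (g : G) :
    a * (b * g) = ι (Pi.single 2 (fN (φ a 0) (φ b 1) + fN (φ a 1) (φ b 0))) * (b * (a * g)) := by
  rw [← mul_assoc, h.comm ha hb, mul_assoc, mul_assoc]
  congr 2
  funext k
  fin_cases k <;> simp [B0, fN, a2, b2]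

theorem qc_six {a b a1 a2 b1 : G} (ha : a ∈ L) (hb : b ∈ L) (a' : a1 ∈ L) (a'' : a2 ∈ L) (b' : b1 ∈ L)
    (k1 : φ b 2 = 0) (k2 : φ a1 2 = 0) (k3 : φ a2 2 = 0) (k4 : φ b1 2 = 0) (b2 : G) :
    ∃ e, a * b * (a1 * b1) * (a2 * b2) = ι (Pi.single 2 e) * (a * a1 * a2 * (b * b1 * b2)) := by
  simp only [mul_assoc]
  rw [qc_sw h b' a'' k4 k3, qc_sw h hb a' k1 k2, qc_cen h ha, qc_cen h hb, qc_cen h a', qc_cen h ha,
    qc_sw h hb a'' k1 k3, qc_cen h a', qc_cen h ha, ← mul_assoc, ← mul_assoc, ← h.ι_add, ← h.ι_add, ← Pi.single_add,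
    ← Pi.single_add]
  exact ⟨_, rfl⟩

variable {x d u v : K} (U : UU p ι x d u v)
include U

theorem qc_φx {l : G} (hl : l ∈ L) : φ (x * l * (x : G)⁻¹) = fun j => (mS1 * mS2) *ᵥ φ l j := by
  rw [h.φ_conj x hl, U.px, qc_act1, x5, map_mul, h.al.s1, h.al.s2]

theorem qc_ιτ {l : G} (hl : l ∈ L) : ι (qc_τ ι x l) = qc_T (x : G) l := by
  have a := qc_cj h x hl
  have b := qc_cj h x a
  refine Function.invFun_eq (h.mem_Z.1 ((h.φ_zero (mul_mem (mul_mem hl a) b)).1 ?_))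
  rw [h.φ_mul (mul_mem hl a) b, h.φ_mul hl a, qc_φx h U a, qc_φx h U hl]
  exact funext fun j => (by decide : ∀ a : N4, a + (mS1 * mS2) *ᵥ a + (mS1 * mS2) *ᵥ (mS1 * mS2) *ᵥ a = 0) _

theorem qc_τcj {k : K} (c : Commute x k) {l : G} (hl : l ∈ L) :
    qc_τ ι x (k * l * (k : G)⁻¹) = (p k).2.1 *ᵥ qc_τ ι x l := qc_inj h (by
  have e : ∀ g : G, x * (k * g * (k : G)⁻¹) * (x : G)⁻¹ = k * (x * g * (x : G)⁻¹) * (k : G)⁻¹ := fun g => by
    have e : (x : G) * k = k * x := congrArg Subtype.val c.eq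
    calc _ = x * k * g * ((x : G) * k)⁻¹ := by group
      _ = _ := by rw [e]; group
  rw [← h.ι_conj, qc_ιτ h U hl, qc_ιτ h U (qc_cj h k hl), qc_T, e, e, qc_T]
  group)

theorem qc_τι (c : W3) {l : G} (hl : l ∈ L) : qc_τ ι x (ι c * l) = c + qc_τ ι x l := qc_inj h (by
  have e : ∀ g : G, x * (ι c * g) * (x : G)⁻¹ = ι c * (x * g * (x : G)⁻¹) := fun g => by
    rw [← mul_assoc, qc_fix h (by rw [U.px]; exact one_mulVec c)]; group
  rw [h.ι_add, qc_ιτ h U hl, qc_ιτ h U (mul_mem (qc_ιL h c) hl), qc_T, e, e, qc_T, mul_assoc, mul_assoc, mul_assoc,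
    qc_cen h (qc_cj h x hl), ← mul_assoc (ι c) (ι c), qc_ιι h, one_mul, mul_assoc l])

theorem qc_τ1 : qc_τ ι x 1 = 0 := qc_inj h (by rw [qc_ιτ h U (one_mem _), qc_ι0 h]; simp [qc_T])

theorem qc_τmul {a b : G} (ha : a ∈ L) (hb : b ∈ L) (a2 : φ a 2 = 0) (b2 : φ b 2 = 0) :
    ∃ e, qc_τ ι x (a * b) = Pi.single 2 e + (qc_τ ι x a + qc_τ ι x b) := by
  have e : ∀ a b : G, x * (a * b) * (x : G)⁻¹ = x * a * (x : G)⁻¹ * (x * b * (x : G)⁻¹) := fun a b => by group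
  have k : ∀ {a : G}, a ∈ L → φ a 2 = 0 → φ (x * a * (x : G)⁻¹) 2 = 0 := fun ha a2 => by
    rw [qc_φx h U ha]; simp [a2]
  have a' := qc_cj h x ha
  have b' := qc_cj h x hb
  obtain ⟨t, ht⟩ := qc_six h ha hb a' (qc_cj h x a') b' b2 (k ha a2) (k a' (k ha a2)) (k hb b2)
    (x * (x * b * (x : G)⁻¹) * (x : G)⁻¹)
  refine ⟨t, qc_inj h ?_⟩
  rw [h.ι_add, h.ι_add, qc_ιτ h U ha, qc_ιτ h U hb, qc_ιτ h U (mul_mem ha hb), qc_T, qc_T, qc_T, e, e, ht]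

omit h in
theorem qc_pW (i j : F) : p (qc_W u v i j) = (1, qc_g i j) := by
  rw [qc_W, map_mul, map_pow, map_pow, U.pu, U.pv]; simp [qc_g]

omit h in
theorem qc_Wmul (i j i' j' : F) : (qc_W u v i j : G) * qc_W u v i' j' = qc_W u v (i + i') (j + j') := by
  have e : ∀ {w : K}, w * w = 1 → ∀ i j : F, w ^ (i + j).val = w ^ i.val * w ^ j.val := fun {w} hw i j => by
    rw [ZMod.val_add, ← pow_add, ← pow_eq_pow_mod _ ((pow_two w).trans hw)]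
  rw [← coe_mul, qc_W, qc_W, qc_W, e U.uu, e U.vv, (U.uv.pow_pow _ _).symm.mul_mul_mul_comm]

omit h in
theorem qc_xW (i j : F) : Commute x (qc_W u v i j) := (U.xu.pow_right _).mul_right (U.xv.pow_right _)

theorem qc_Wz (i j e : F) : qc_W u v i j * ι (Pi.single 2 e) = ι (Pi.single 2 e) * qc_W u v i j :=
  qc_fix h (by rw [qc_pW U, qc_gvec]; simp)

theorem qc_χ (i j : F) {l : G} (hl : l ∈ L) (l2 : φ l 2 = 0) :
    qc_W u v i j * l = ι (Pi.single 2 (i * qc_τ ι x l 0 + j * qc_τ ι x l 1)) * l * qc_W u v i j := by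
  have a := qc_cj h (qc_W u v i j) hl
  obtain ⟨c, e⟩ := h.mem_Z.1 ((h.φ_zero (mul_mem a (inv_mem hl))).1 (by
    rw [h.φ_mul a (inv_mem hl), h.φ_conj _ hl, qc_pW U, map_one, qc_actg _ _ l2, ← h.φ_mul hl (inv_mem hl),
      mul_inv_cancel, qc_φ1 h]))
  have k := qc_τcj h U (qc_xW U i j) hl
  rw [eq_mul_inv_iff_mul_eq] at e
  rw [← e, qc_τι h U c hl, qc_pW U, qc_gvec, add_left_inj] at k
  rw [← k, e, inv_mul_cancel_right]

theorem qc_prod {a b : G} (ha : a ∈ L) (hb : b ∈ L) (b2 : φ b 2 = 0) (i j i' j' : F) :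
    a * qc_W u v i j * (b * qc_W u v i' j') =
      ι (Pi.single 2 (i * qc_τ ι x b 0 + j * qc_τ ι x b 1)) * (a * b) * qc_W u v (i + i') (j + j') := by
  rw [mul_assoc, ← mul_assoc _ b, qc_χ h U i j hb b2, mul_assoc, mul_assoc, qc_Wmul U, qc_cen h ha, mul_assoc,
    mul_assoc]

theorem qc_cz (e : F) {l : G} (hl : l ∈ L) (i j : F) : qc_c φ ι x (ι (Pi.single 2 e) * l) i j = qc_c φ ι x l i j := by
  simp [qc_c, qc_τι h U _ hl, qc_φι h _ hl]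

theorem qc_πe {l : G} (hl : l ∈ L) (i j : F) : qc_π p φ ι x u v (l * qc_W u v i j) = qc_c φ ι x l i j := by
  have hg : l * qc_W u v i j ∈ K := mul_mem (h.LK hl) (qc_W u v i j).2
  have e : p ⟨_, hg⟩ = (1, qc_g i j) := by
    rw [← qc_pW U, ← one_mul (p (qc_W u v i j)), ← (h.ker ⟨l, h.LK hl⟩).2 hl, ← map_mul]; rfl
  rw [qc_π, dif_pos hg, e, (by decide +kernel : ∀ i j, (qc_g i j).1 2 0 = i) i j,
    (by decide +kernel : ∀ i j, (qc_g i j).1 2 1 = j) i j, mul_inv_cancel_right]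

theorem qc_dW (i j : F) : ∃ e, d * qc_W u v i j * (d : G)⁻¹ = ι (Pi.single 2 e) * qc_W u v j (i + j) := by
  have e1 : (d : G) * u * (d : G)⁻¹ = qc_W u v 0 1 := by
    simpa [qc_W, ZMod.val_one] using congrArg Subtype.val U.du
  obtain ⟨e, e2⟩ : ∃ e, (d : G) * v * (d : G)⁻¹ = ι (Pi.single 2 e) * qc_W u v 1 1 := by
    rcases U.dv with k | k
    · exact ⟨0, by simpa [qc_W, ZMod.val_one, qc_ι0 h] using k⟩
    · exact ⟨1, by rw [← qc_Wz h U]; simpa [qc_W, ZMod.val_one, z0] using k⟩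
  have e0 : (qc_W u v 0 0 : G) = 1 := by simp [qc_W]
  rcases (by decide : ∀ i : F, i = 0 ∨ i = 1) i with rfl | rfl <;>
    rcases (by decide : ∀ i : F, i = 0 ∨ i = 1) j with rfl | rfl
  · exact ⟨0, by simp [e0, qc_ι0 h]⟩
  · exact ⟨e, by simpa [qc_W, ZMod.val_one] using e2⟩
  · exact ⟨0, by simpa [qc_W, ZMod.val_one, qc_ι0 h] using e1⟩
  · refine ⟨e, ?_⟩
    rw [show (d : G) * qc_W u v 1 1 * (d : G)⁻¹ = d * u * (d : G)⁻¹ * (d * v * (d : G)⁻¹) by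
      simp [qc_W, ZMod.val_one, mul_assoc], e1, e2, ← mul_assoc, qc_Wz h U, mul_assoc, qc_Wmul U, zero_add]

end

theorem qc (ha : QA.{u}) (hb : QB.{u}) : QC.{u} := fun G _ _ K L Z p α φ ι h => by
  obtain ⟨x, d, u, v, U⟩ := ha G K L Z p α φ ι h
  obtain ⟨Q, m, nQ⟩ := hb G K L Z p α φ ι x d u v h U
  replace m : ∀ {g}, g ∈ Q ↔ ∃ l ∈ L, φ l 2 = 0 ∧ ∃ i j : F, g = l * qc_W u v i j := m _
  have e0 : (qc_W u v 0 0 : G) = 1 := by simp [qc_W]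
  have π0 : ∀ {l}, l ∈ L → qc_π p φ ι x u v l = qc_c φ ι x l 0 0 := fun hl => by
    rw [← qc_πe h U hl, e0, mul_one]
  have τι : ∀ c, qc_τ ι x (ι c) = c := fun c => by
    rw [← mul_one (ι c), qc_τι h U c (one_mem _), qc_τ1 h U, add_zero]
  have φι : ∀ c, φ (ι c) = 0 := fun c => by rw [← mul_one (ι c), qc_φι h c (one_mem _), qc_φ1 h]
  have πz : ∀ e, qc_π p φ ι x u v (ι (Pi.single 2 e)) = 0 := fun e => by
    rw [π0 (qc_ιL h _), qc_c, τι, φι]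
    exact funext fun k => by fin_cases k <;> rfl
  have w1 : ∀ {e : F}, ι (Pi.single 2 e) = 1 ↔ e = 0 :=
    ⟨fun k => by simpa using congrFun (h.ι_inj k) 2, by rintro rfl; simpa using qc_ι0 h⟩
  have pa : ∀ {l} (hl : l ∈ L) i j hg, p ⟨l * qc_W u v i j, hg⟩ = (1, qc_g i j) := fun {l} hl i j hg => by
    rw [← qc_pW U, ← one_mul (p (qc_W u v i j)), ← (h.ker ⟨l, h.LK hl⟩).2 hl, ← map_mul]; rfl
  refine ⟨Q, qc_π p φ ι x u v, ⟨q0_nd, qc_ιι h _, fun k => one_ne_zero (w1.1 k),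
    m.2 ⟨z0 ι, qc_ιL h _, by rw [z0, φι]; rfl, 0, 0, by rw [e0, mul_one]⟩, fun hq hq' => ?_, fun w => ?_, fun hq => ?_,
    fun hq => ?_, fun hq hq' => ?_, fun hq => ?_⟩, fun g hg => ?_, fun g hg => ⟨hg.2, nQ hg⟩, fun hl => ⟨fun k => ?_,
    fun k => m.2 ⟨_, hl, k, 0, 0, by rw [e0, mul_one]⟩⟩, fun hl _ => ?_, fun c => ?_, fun a hq => ?_,
    ⟨x, U.px, fun a hq => ?_⟩, ⟨d, U.pd, U.d3, fun a hq => ?_⟩⟩
  · obtain ⟨a, ha, a2, i, j, rfl⟩ := m.1 hq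
    obtain ⟨b, hb, b2, i', j', rfl⟩ := m.1 hq'
    obtain ⟨e, k⟩ := qc_τmul h U ha hb a2 b2
    rw [qc_prod h U ha hb b2, qc_πe h U (mul_mem (qc_ιL h _) (mul_mem ha hb)), qc_cz h U _ (mul_mem ha hb),
      qc_πe h U ha, qc_πe h U hb, qc_c, qc_c, qc_c, ← qc_add, k, h.φ_mul ha hb]
    simp
  · obtain ⟨l, hl, e⟩ := h.φ_surj ![n1 w, n2 w, 0]
    have k := mul_mem (qc_ιL h ![w 1 - qc_τ ι x l 0, w 0 - qc_τ ι x l 1, 0]) hl
    refine ⟨_, m.2 ⟨_, k, by rw [qc_φι h _ hl, e]; rfl, w 10, w 11, rfl⟩, ?_⟩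
    rw [qc_πe h U k, qc_c, qc_τι h U _ hl, qc_φι h _ hl, e]
    simpa using qc_eta w
  · refine ⟨fun k => ?_, by rintro (rfl | rfl); exacts [w1.2 rfl ▸ πz 0, πz 1]⟩
    obtain ⟨a, ha, a2, i, j, rfl⟩ := m.1 hq
    rw [qc_πe h U ha] at k
    obtain ⟨c, rfl⟩ := h.mem_Z.1 ((h.φ_zero ha).1 (funext fun t => by
      fin_cases t
      exacts [by simpa [qc_c, qc_n1, show n1 0 = 0 by decide] using congrArg n1 k,
        by simpa [qc_c, qc_n2, show n2 0 = 0 by decide] using congrArg n2 k, a2]))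
    obtain rfl : i = 0 := congrFun k 10
    obtain rfl : j = 0 := congrFun k 11
    rw [qc_c, τι] at k
    rw [e0, mul_one]
    rcases (by decide : ∀ c : W3, c 1 = 0 → c 0 = 0 → c = 0 ∨ c = Pi.single 2 1) c (congrFun k 0) (congrFun k 1)
      with rfl | rfl
    exacts [.inl (qc_ι0 h), .inr rfl]
  · obtain ⟨a, ha, a2, i, j, rfl⟩ := m.1 hq
    rw [z0, mul_assoc, qc_Wz h U, qc_cen h ha]
  · obtain ⟨a, ha, a2, i, j, rfl⟩ := m.1 hq
    obtain ⟨b, hb, b2, i', j', rfl⟩ := m.1 hq'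
    rw [qc_prod h U ha hb b2, qc_prod h U hb ha a2, qc_πe h U ha, qc_πe h U hb, polar_q0, qc_c, qc_c, qc_n1, qc_n2,
      qc_n1, qc_n2, add_comm i', add_comm j', mul_left_inj, ← mul_one (a * b), mul_assoc, qc_sw h ha hb a2 b2,
      mul_one, ← mul_assoc, mul_left_inj, ← h.ι_add, (qc_inj h).eq_iff, ← Pi.single_add, Pi.single_inj]
    change qc_τ ι x a 1 * j' + j * qc_τ ι x b 1 + qc_τ ι x a 0 * i' + i * qc_τ ι x b 0 + _ + _ = 0 ↔ _
    have h2 : (2 : F) = 0 := rfl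
    exact ⟨fun k => by linear_combination k - (i' * qc_τ ι x a 0 + j' * qc_τ ι x a 1) * h2,
      fun k => by linear_combination k + (i' * qc_τ ι x a 0 + j' * qc_τ ι x a 1) * h2⟩
  · obtain ⟨a, ha, a2, i, j, rfl⟩ := m.1 hq
    rw [qc_prod h U ha ha a2, qc_πe h U ha, q0_apply, qc_c, qc_n1, qc_n2, CharTwo.add_self_eq_zero,
      CharTwo.add_self_eq_zero, e0, mul_one, h.sq ha, show sq0 (φ a) = (Pi.single 2 (fN (φ a 0) (φ a 1)) : W3) from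
        funext fun k => by fin_cases k <;> simp [sq0, fN, a2], ← h.ι_add, ← Pi.single_add, w1]
    change qc_τ ι x a 1 * j + qc_τ ι x a 0 * i + _ = 0 ↔ _
    constructor <;> intro k <;> linear_combination k
  · obtain ⟨a, ha, -, i, j, rfl⟩ := m.1 hg
    exact mul_mem (h.LK ha) (qc_W u v i j).2
  · obtain ⟨a, ha, a2, i, j, rfl⟩ := m.1 k
    have e := (pa ha i j (h.LK hl)).symm.trans ((h.ker _).2 hl)
    obtain ⟨rfl, rfl⟩ := (by decide +kernel : ∀ i j, (qc_g i j).1 = 1 → i = 0 ∧ j = 0) i j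
      (congrArg (fun t => t.2.1) e)
    rwa [e0, mul_one]
  · rw [π0 hl]
    exact ⟨qc_n1 .., qc_n2 .., rfl, rfl⟩
  · rw [π0 (qc_ιL h c), qc_c, τι]
    exact ⟨rfl, rfl⟩
  · obtain ⟨a, hK⟩ := a
    obtain ⟨a, ha, -, i, j, rfl⟩ := m.1 hq
    rw [pa ha, qc_πe h U ha]
    exact ⟨rfl, qc_gval i j⟩
  · obtain ⟨a, ha, -, i, j, rfl⟩ := m.1 hq
    have e : (x : G) * qc_W u v i j = qc_W u v i j * x := congrArg Subtype.val (qc_xW U i j).eq
    rw [show (x : G) * (a * qc_W u v i j) * (x : G)⁻¹ = x * a * (x : G)⁻¹ * (x * qc_W u v i j) * (x : G)⁻¹ by group,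
      e, ← mul_assoc, mul_inv_cancel_right, qc_πe h U (qc_cj h x ha), qc_πe h U ha, qc_c, qc_c, qc_xO,
      qc_τcj h U (Commute.refl x) ha, U.px, qc_φx h U ha]
    simp
  · obtain ⟨a, ha, -, i, j, rfl⟩ := m.1 hq
    obtain ⟨e, k⟩ := qc_dW h U i j
    have b := qc_cj h d ha
    rw [show (d : G) * (a * qc_W u v i j) * (d : G)⁻¹ = d * a * (d : G)⁻¹ * (d * qc_W u v i j * (d : G)⁻¹) by group,
      k, qc_cen h b, ← mul_assoc, qc_πe h U (mul_mem (qc_ιL h _) b), qc_cz h U _ b, qc_πe h U ha, qc_c, qc_c, qc_dO,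
      qc_τcj h U U.xd ha, h.φ_conj d ha, U.pd, map_one, qc_actd,
      (by decide +kernel : ∀ t : W3, d3.1 *ᵥ t = ![t 1 + t 0, t 0, t 2])]
    rfl

end CL.Pen
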