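/-
Project PEN (S3321): the action of `C_K(z)` on `Q / ⟨z⟩`.
-/
import Cfsg.Agent.Pen.D

set_option autoImplicit false

namespace CL.Pen

open Cfsg Subgroup Matrix CL.Cls CL.Grp CL.Even CL.L10 CL.Mx QuadraticMap
open scoped MatrixGroups

universe u

namespace Rho

/-- the shape of the matrices centralising `e 2` and `W / e 2` -/
def uM (i j : F) : Matrix (Fin 3) (Fin 3) F := !![1, 0, 0; 0, 1, 0; i, j, 1]

theorem uM_eq (i j : F) : (1 : Matrix (Fin 3) (Fin 3) F) + single 2 0 i + single 2 1 j = uM i j := by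
  revert i j; decide

theorem inv_uM {γ : SL3} {i j : F} (h : γ.1 = uM i j) : (γ⁻¹).1 = uM i j := by
  have : γ⁻¹ = γ := inv_eq_of_mul_eq_one_left (Subtype.ext (by
    rw [Matrix.SpecialLinearGroup.coe_mul, h, Matrix.SpecialLinearGroup.coe_one]; clear h; revert i j; decide))
  rw [this, h]

theorem actM_uM {γ : SL3} {i j : F} (h : γ.1 = uM i j) (A : M4) (a : M43) :
    actM A γ a 0 = A *ᵥ a 0 + i • A *ᵥ a 2 ∧ actM A γ a 1 = A *ᵥ a 1 + j • A *ᵥ a 2 ∧ actM A γ a 2 = A *ᵥ a 2 := by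
  simp [actM, inv_uM h, Fin.sum_univ_three, uM]

theorem actM_d3 (a : M43) : actM 1 d3 a 2 = a 2 := by
  have : (d3⁻¹).1 = !![0, 1, 0; 1, 1, 0; 0, 0, 1] := by decide
  simp [actM, this, Fin.sum_univ_three]

theorem aaN (n : N4) : n + n = 0 := funext fun _ => CharTwo.add_self_eq_zero _

/-- the vector of an element of `Z` -/
def zv (c : W3) : V0 := ![c 1, c 0, 0, 0, 0, 0, 0, 0, 0, 0, 0, 0]

theorem eq_zv {v : V0} {c : W3} (h0 : v 0 = c 1) (h1 : v 1 = c 0) (a : n1 v = 0) (b : n2 v = 0) (h10 : v 10 = 0)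
    (h11 : v 11 = 0) : v = zv c := by
  have a' := congrFun a
  have b' := congrFun b
  funext i
  fin_cases i
  exacts [h0, h1, a' 0, a' 1, a' 2, a' 3, b' 0, b' 1, b' 2, b' 3, h10, h11]

theorem inZ_zv (c : W3) : inZ (zv c) := by revert c; unfold inZ; decide

theorem inZ_n {v : V0} (h : inZ v) : n1 v = 0 ∧ n2 v = 0 ∧ v 10 = 0 ∧ v 11 = 0 := by
  refine ⟨?_, ?_, h _ (by decide), h _ (by decide)⟩ <;> funext i <;> fin_cases i <;> exact h _ (by decide)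

variable {G : Type u} [Group G] {K L Z : Subgroup G} {p : K →* S5 × SL3} {α : S5 →* M4} {φ : G → M43} {ι : W3 → G}
  {Q : Subgroup G} {π : G → V0}

section
variable (m : KM K L Z p α φ ι)
include m

theorem ι_zero : ι 0 = 1 := by
  have := m.ι_add 0 0
  rw [add_zero] at this
  exact mul_eq_left.1 this.symm

theorem ι_inj {c c' : W3} (e : ι c = ι c') : c = c' := by
  have aa : ∀ c : W3, c + c = 0 := by decide
  have := m.ι_inj (c := c + c') (by rw [m.ι_add, e, ← m.ι_add, aa, ι_zero m])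
  rw [← add_zero c, ← aa c', ← add_assoc, this, zero_add]

theorem ι_L (c : W3) : ι c ∈ L := m.ZL (m.mem_Z.2 ⟨c, rfl⟩)

theorem φ_ι (c : W3) : φ (ι c) = 0 := (m.φ_zero (ι_L m c)).2 (m.mem_Z.2 ⟨c, rfl⟩)

theorem conj_L (k : K) {l : G} (hl : l ∈ L) : k * l * (k : G)⁻¹ ∈ L := by
  refine (m.ker (k * ⟨l, m.LK hl⟩ * k⁻¹)).1 ?_
  rw [map_mul, map_mul, (m.ker ⟨l, m.LK hl⟩).2 hl, mul_one, map_inv, mul_inv_cancel]

theorem φ_inv {l : G} (hl : l ∈ L) : φ l⁻¹ = φ l := by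
  have aa : ∀ a : M43, a + a = 0 := fun a => funext fun _ => aaN _
  have k := m.φ_mul (inv_mem hl) hl
  rw [inv_mul_cancel, (m.φ_zero (one_mem _)).2 (one_mem _)] at k
  rw [← add_zero (φ l⁻¹), ← aa (φ l), ← add_assoc, ← k, zero_add]

theorem mem_C (k : K) : (k : G) ∈ centralizer {z0 ι} ↔ (p k).2.1 *ᵥ Pi.single 2 1 = Pi.single 2 1 := by
  rw [mem_centralizer_singleton_iff, ← mul_inv_eq_iff_eq_mul, z0, m.ι_conj]
  exact ⟨ι_inj m, fun e => by rw [e]⟩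

variable (h : QC0 K L p φ ι Q π)
include h

theorem ι_Q (c : W3) : ι c ∈ Q := (h.memL (ι_L m c)).2 (by rw [φ_ι m]; rfl)

theorem π_ι (c : W3) : π (ι c) = zv c := by
  obtain ⟨a, b, d, e⟩ := h.πL (ι_L m c) (by rw [φ_ι m]; rfl)
  rw [φ_ι m] at a b
  exact eq_zv (h.πι c).1 (h.πι c).2 a b d e

theorem mem_L {a : G} (ha : a ∈ Q) (h10 : π a 10 = 0) (h11 : π a 11 = 0) : a ∈ L := by
  obtain ⟨b, c⟩ := h.pQ ⟨a, h.QK ha⟩ ha
  refine (m.ker ⟨a, h.QK ha⟩).1 (Prod.ext b (Subtype.ext ?_))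
  rw [c]
  simp [h10, h11]

theorem inZ_π {a : G} (ha : a ∈ Q) : inZ (π a) ↔ a ∈ Z := by
  refine ⟨fun k => ?_, fun k => ?_⟩
  · obtain ⟨b, c, d, e⟩ := inZ_n k
    have hl := mem_L m h ha d e
    have h2 := (h.memL hl).1 ha
    obtain ⟨b', c', -⟩ := h.πL hl h2
    refine (m.φ_zero hl).1 (funext fun i => ?_)
    fin_cases i
    exacts [b'.symm.trans b, c'.symm.trans c, h2]
  · obtain ⟨c, rfl⟩ := m.mem_Z.1 k
    rw [π_ι m h]; exact inZ_zv c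

variable {ρ : KK (z0 ι) Q →* OG q0} (r : QM q0 (z0 ι) Q π ρ)
include r

omit m h in
theorem ρ_eq {c : KK (z0 ι) Q} {g : OG q0} (e : ∀ a ∈ Q, π (c * a * (c : G)⁻¹) = g.1 (π a)) : ρ c = g :=
  OG.ext' fun v => by
    obtain ⟨a, ha, rfl⟩ := r.surj v
    rw [← r.π_conj c ha, e a ha]

omit m h in
theorem ρ_Q {c : KK (z0 ι) Q} (hc : (c : G) ∈ Q) : ρ c = 1 := ρ_eq r fun a ha => by
  rw [r.π_mul (mul_mem hc ha) (inv_mem hc), r.π_mul hc ha, r.toQP.π_inv hc, add_comm (π c), add_assoc,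
    r.toQP.aa, add_zero]
  rfl

theorem ρ_zv (c : KK (z0 ι) Q) (hc : (c : G) ∈ K) (w : W3) :
    (ρ c).1 (zv w) = zv ((p ⟨c, hc⟩).2.1 *ᵥ w) := by
  rw [← π_ι m h, ← π_ι m h, ← r.π_conj c (ι_Q m h w), ← m.ι_conj ⟨c, hc⟩]

theorem FZ_iff (c : KK (z0 ι) Q) (hc : (c : G) ∈ K) : ρ c ∈ FZ ↔ ∃ i j, (p ⟨c, hc⟩).2.1 = uM i j := by
  have e1 : vec 1 = zv (Pi.single 1 1) := by decide
  have e2 : vec 2 = zv (Pi.single 0 1) := by decide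
  have k := (mem_C m ⟨c, hc⟩).1 c.2.1
  rw [mem_FZ, e1, e2, ρ_zv m h r c hc, ρ_zv m h r c hc]
  generalize (p ⟨c, hc⟩).2.1 = A at k ⊢
  refine ⟨fun ⟨a, b⟩ => ⟨A 2 0, A 2 1, ?_⟩, ?_⟩
  · have a0 := congrFun a 0
    have a1 := congrFun a 1
    have b0 := congrFun b 0
    have b1 := congrFun b 1
    have k0 := congrFun k 0
    have k1 := congrFun k 1
    have k2 := congrFun k 2
    simp [zv] at a0 a1 b0 b1 k0 k1 k2
    ext i j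
    fin_cases i <;> fin_cases j <;> simp [uM, *]
  · rintro ⟨i, j, rfl⟩
    clear k
    revert i j; decide

theorem act (c : KK (z0 ι) Q) (hc : (c : G) ∈ K) (hf : ρ c ∈ FZ) (v : V0) (h10 : v 10 = 0) (h11 : v 11 = 0) :
    n1 ((ρ c).1 v) = α (p ⟨c, hc⟩).1 *ᵥ n1 v ∧ n2 ((ρ c).1 v) = α (p ⟨c, hc⟩).1 *ᵥ n2 v := by
  obtain ⟨a, ha, rfl⟩ := r.surj v
  obtain ⟨i, j, e⟩ := (FZ_iff m h r c hc).1 hf
  have hl := mem_L m h ha h10 h11
  have h2 := (h.memL hl).1 ha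
  obtain ⟨x, y, w⟩ := actM_uM e (α (p ⟨c, hc⟩).1) (φ a)
  rw [← m.φ_conj ⟨c, hc⟩ hl, h2, mulVec_zero] at x y w
  rw [smul_zero, add_zero] at x y
  obtain ⟨b, d, -⟩ := h.πL hl h2
  obtain ⟨b', d', -⟩ := h.πL (conj_L m ⟨c, hc⟩ hl) w
  rw [← r.π_conj c ha, b, d]
  exact ⟨b'.trans x, d'.trans y⟩

theorem onL (c : KK (z0 ι) Q) (hc : (c : G) ∈ L) :
    ρ c ∈ FZ ∧ n1 ((ρ c).1 (vec 1024)) = φ c 2 ∧ n2 ((ρ c).1 (vec 1024)) = 0 := by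
  refine ⟨(FZ_iff m h r c (m.LK hc)).2 ⟨0, 0, by rw [(m.ker _).2 hc]; decide⟩, ?_⟩
  obtain ⟨u, hu, e⟩ := r.surj (vec 1024)
  obtain ⟨a, b⟩ := h.pQ ⟨u, h.QK hu⟩ hu
  rw [uM_eq] at b
  obtain ⟨x, y, w⟩ := actM_uM b 1 (φ c)
  have k := m.φ_conj ⟨u, h.QK hu⟩ (inv_mem hc)
  rw [a, map_one, φ_inv m hc] at k
  have hl := conj_L m ⟨u, h.QK hu⟩ (inv_mem hc)
  have k2 := m.φ_mul hc hl
  rw [k] at k2
  have e10 : vec 1024 10 = 1 := by decide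
  have e11 : vec 1024 11 = 0 := by decide
  simp only [e, e10, e11, one_mulVec, one_smul, zero_smul, add_zero] at x y w
  have h2 := congrFun k2 2
  rw [Pi.add_apply, w, aaN] at h2
  obtain ⟨s, t, -⟩ := h.πL (mul_mem hc hl) h2
  rw [k2, Pi.add_apply] at s t
  rw [x, ← add_assoc, aaN, zero_add] at s
  rw [y, aaN] at t
  have q : π (c * u * (c : G)⁻¹) = π (c * (u * (c : G)⁻¹ * u⁻¹)) + vec 1024 := by
    rw [← e, ← r.π_mul ((h.memL (mul_mem hc hl)).2 h2) hu]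
    congr 1; group
  have f1 : ∀ v : V0, n1 (v + vec 1024) = n1 v := fun v => by
    funext i; fin_cases i <;> exact add_zero _
  have f2 : ∀ v : V0, n2 (v + vec 1024) = n2 v := fun v => by
    funext i; fin_cases i <;> exact add_zero _
  rw [← e, ← r.π_conj c hu, q, f1, f2]
  exact ⟨s, t⟩

theorem dec (c : KK (z0 ι) Q) (hc : (c : G) ∈ K) (hf : ρ c ∈ FZ) (h1 : (p ⟨c, hc⟩).1 = 1) :
    ∃ l : KK (z0 ι) Q, (l : G) ∈ L ∧ ρ c = ρ l ∧ ((l : G) ∈ Q → (c : G) ∈ Q) := by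
  obtain ⟨i, j, e⟩ := (FZ_iff m h r c hc).1 hf
  obtain ⟨q, hq, eq⟩ := r.surj ![0, 0, 0, 0, 0, 0, 0, 0, 0, 0, i, j]
  obtain ⟨a, b⟩ := h.pQ ⟨q, h.QK hq⟩ hq
  rw [uM_eq] at b
  have pe : p ⟨c, hc⟩ = p ⟨q, h.QK hq⟩ := Prod.ext (h1.trans a.symm) (Subtype.ext (by rw [e, b]; simp only [eq]; rfl))
  refine ⟨c * (⟨q, r.toQP.le_KK hq⟩ : KK (z0 ι) Q)⁻¹, (m.ker (⟨c, hc⟩ * (⟨q, h.QK hq⟩ : K)⁻¹)).1 ?_, ?_, fun k => ?_⟩
  · rw [map_mul, map_inv, pe, mul_inv_cancel]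
  · rw [map_mul, map_inv, ρ_Q r (c := ⟨q, _⟩) hq, inv_one, mul_one]
  · simpa using mul_mem k hq

theorem comm_d (l : KK (z0 ι) Q) (hl : (l : G) ∈ L) : Commute (ρ l) dO := by
  obtain ⟨k, pk, -, hk⟩ := h.d0
  have kC : (k : G) ∈ centralizer {z0 ι} := (mem_C m k).2 (by rw [pk]; decide)
  have e : ρ ⟨k, h.le ⟨k.2, kC⟩⟩ = dO := ρ_eq r hk
  have a := m.φ_mul (conj_L m k hl) (inv_mem hl)
  rw [m.φ_conj k hl, pk, map_one, φ_inv m hl] at a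
  have b := congrFun a 2
  rw [Pi.add_apply, actM_d3, aaN] at b
  have c := ρ_Q r (c := ⟨k, h.le ⟨k.2, kC⟩⟩ * l * (⟨k, h.le ⟨k.2, kC⟩⟩ : KK (z0 ι) Q)⁻¹ * l⁻¹)
    ((h.memL (mul_mem (conj_L m k hl) (inv_mem hl))).2 b)
  rw [map_mul, map_mul, map_mul, map_inv, map_inv, e] at c
  exact (commutatorElement_eq_one_iff_commute.1 c).symm

end

end Rho

open Rho in
theorem rho : RHO.{u} := by
  intro G _ _ K L Z p α φ ι Q π m h ρ r
  refine ⟨⟨m.al, fun γ v hv => ?_, fun γ hf v a b => act m h r _ γ.2.1 hf v a b, fun s => ?_, ?_, ?_, ?_,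
    fun γ hf h1 => ?_, fun n => ?_⟩, fun c hc e => ?_, fun a ha => inZ_π m h ha,
    fun c hc => ⟨(onL m h r c hc).1, (onL m h r c hc).2.1⟩⟩
  · obtain ⟨a, ha, rfl⟩ := r.surj v
    obtain ⟨c, rfl⟩ := m.mem_Z.1 ((inZ_π m h ha).1 hv)
    rw [π_ι m h]
    exact (ρ_zv m h r (inclusion h.le γ) γ.2.1 c).symm ▸ inZ_zv _
  · obtain ⟨k, pk⟩ := m.surj (s, 1)
    have e : (p k).2.1 = uM 0 0 := by rw [pk]; exact (by decide : (1 : SL3).1 = uM 0 0)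
    exact ⟨⟨k, k.2, (mem_C m k).2 (by rw [e]; decide)⟩, (FZ_iff m h r _ k.2).2 ⟨0, 0, e⟩, congrArg Prod.fst pk⟩
  · obtain ⟨k, pk⟩ := m.surj (1, t3 1 0)
    have e1 : vec 1 = zv (Pi.single 1 1) := by decide
    have e : (p k).2.1 = !![1, 0, 0; 1, 1, 0; 0, 0, 1] := by rw [pk]; decide
    refine ⟨⟨k, k.2, (mem_C m k).2 (by rw [e]; decide)⟩, ?_, fun hf => ?_⟩
    · rw [e1]
      exact (ρ_zv m h r _ k.2 _).trans (congrArg zv ((congrArg (· *ᵥ _) e).trans (by decide)))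
    · obtain ⟨i, j, f⟩ := (FZ_iff m h r _ k.2).1 hf
      exact absurd (e.symm.trans f) (by clear f; revert i j; decide)
  · obtain ⟨k, pk, -, hk⟩ := h.d0
    exact ⟨⟨k, k.2, (mem_C m k).2 (by rw [pk]; decide)⟩, congrArg Prod.fst pk, ρ_eq r hk⟩
  · obtain ⟨k, pk, hk⟩ := h.x0
    exact ⟨⟨k, k.2, (mem_C m k).2 (by rw [pk]; decide)⟩, congrArg Prod.fst pk, ρ_eq r hk⟩
  · obtain ⟨l, hl, e, -⟩ := dec m h r (inclusion h.le γ) γ.2.1 hf h1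
    obtain ⟨-, a, b⟩ := onL m h r l hl
    change Commute (ρ _) dO ∧ n2 ((ρ _).1 _) = 0 ∧ (n1 ((ρ _).1 _) = 0 → ρ _ = 1)
    rw [e]
    exact ⟨comm_d m h r l hl, b, fun k => ρ_Q r ((h.memL hl).2 (a.symm.trans k))⟩
  · obtain ⟨l, hl, e⟩ := m.φ_surj ![0, 0, n]
    have pl := (m.ker ⟨l, m.LK hl⟩).2 hl
    have lC : l ∈ centralizer {z0 ι} := (mem_C m ⟨l, m.LK hl⟩).2 (by rw [pl]; decide)
    obtain ⟨a, b, -⟩ := onL m h r ⟨l, h.le ⟨m.LK hl, lC⟩⟩ hl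
    exact ⟨⟨l, m.LK hl, lC⟩, a, congrArg Prod.fst pl, b.trans (congrFun e 2)⟩
  · have hf : ρ c ∈ FZ := e ▸ one_mem _
    have h1 : (p ⟨c, hc⟩).1 = 1 := m.al.inj1 fun n => by
      have k := (act m h r c hc hf ![0, 0, n 0, n 1, n 2, n 3, 0, 0, 0, 0, 0, 0] rfl rfl).1
      have f : n1 ![0, 0, n 0, n 1, n 2, n 3, 0, 0, 0, 0, 0, 0] = n := by funext i; fin_cases i <;> rfl
      rw [e] at k
      exact (f ▸ k :).symm
    obtain ⟨l, hl, e', k⟩ := dec m h r c hc hf h1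
    refine k ((h.memL hl).2 ?_)
    rw [← (onL m h r l hl).2.1, ← e', e]
    decide

end CL.Pen
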