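/-
PEN-SYL / PEN-TIA: counting facts on the module `M43` and on `S5 × SL3`.
-/
import Cfsg.Agent.Pen.D
import Cfsg.Agent.Cls.SLnCard
import Cfsg.Agent.Grp.Cores

set_option autoImplicit false

namespace CL.Pen.SA

open Cfsg Subgroup Matrix CL.Cls CL.Grp CL.Even CL.L10 CL.Mx QuadraticMap
open scoped MatrixGroups

theorem card_add {A B : Type*} [AddGroup A] [AddGroup B] (f : A →+ B) (U : AddSubgroup A) :
    Nat.card U = Nat.card (f.ker ⊓ U :) * Nat.card (U.map f) := by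
  rw [← AddSubgroup.relIndex_ker, ← AddSubgroup.inf_relIndex_right, AddSubgroup.relIndex,
    ← Nat.card_congr (AddSubgroup.addSubgroupOfEquivOfLe (inf_le_right : f.ker ⊓ U ≤ U)).toEquiv,
    AddSubgroup.card_mul_index]

/-- orthogonal subgroups -/
theorem iso_le {V : Type*} [AddCommGroup V] [Module F V] [Finite V] (B : LinearMap.BilinForm F V)
    (nd : B.Nondegenerate) (U W : AddSubgroup V) (h : ∀ u ∈ U, ∀ w ∈ W, B u w = 0) :
    Nat.card U * Nat.card W ≤ Nat.card V := by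
  set U' := AddSubgroup.toZModSubmodule 2 U
  have c2 : Nat.card V = Nat.card U' * Nat.card (B.orthogonal U') := by
    rw [Module.natCard_eq_pow_finrank (K := F), Module.natCard_eq_pow_finrank (K := F) (V := U'),
      Module.natCard_eq_pow_finrank (K := F) (V := B.orthogonal U'),
      LinearMap.BilinForm.finrank_orthogonal nd, ← pow_add, Nat.add_sub_cancel' U'.finrank_le]
  have c3 : Nat.card W ≤ Nat.card (B.orthogonal U') :=
    AddSubgroup.card_le_of_le (K := (B.orthogonal U').toAddSubgroup) fun w hw u hu => h u hu w hw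
  rw [c2]
  exact Nat.mul_le_mul_left _ c3

theorem fN_comm (a b : N4) : fN a b = fN b a := by simp only [fN]; ring

/-- `fN` as a bilinear form -/
def fB : LinearMap.BilinForm F N4 := LinearMap.mk₂ F fN (fun a b c => by simp only [fN, Pi.add_apply]; ring)
  (fun a b c => by simp only [fN, Pi.smul_apply, smul_eq_mul]; ring)
  (fun a b c => by simp only [fN, Pi.add_apply]; ring) fun a b c => by simp only [fN, Pi.smul_apply, smul_eq_mul]; ring

theorem fB_apply (a b : N4) : fB a b = fN a b := rfl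

theorem fN_nd : ∀ a : N4, a ≠ 0 → ∃ n, fN n a = 1 := by decide

theorem fN_eq_zero {a : N4} (h : ∀ n, fN n a = 0) : a = 0 := by
  by_contra e
  obtain ⟨n, k⟩ := fN_nd a e
  exact zero_ne_one ((h n).symm.trans k)

theorem fB_nd : fB.Nondegenerate :=
  ⟨fun _ h => fN_eq_zero fun n => (fN_comm _ _).trans (h n), fun _ h => fN_eq_zero h⟩

/-- the form on pairs -/
def om : LinearMap.BilinForm F (N4 × N4) :=
  fB.compl₁₂ (.fst F N4 N4) (.snd F N4 N4) + fB.compl₁₂ (.snd F N4 N4) (.fst F N4 N4)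

theorem om_apply (a b : N4 × N4) : om a b = fB a.1 b.2 + fB a.2 b.1 := rfl

theorem om_nd : om.Nondegenerate := by
  have k : ∀ a : N4 × N4, (∀ b, om b a = 0) → a = 0 := fun a h =>
    Prod.ext (fN_eq_zero fun n => by simpa [om_apply, fB_apply] using h (0, n))
      (fN_eq_zero fun n => by simpa [om_apply, fB_apply] using h (n, 0))
  refine ⟨fun a h => k a fun b => ?_, k⟩
  rw [← h b, om_apply, om_apply, add_comm]
  simp only [fB_apply, fN_comm]

theorem B0_apply (a b : M43) (k : Fin 3) : B0 a b k = fB (a (k + 1)) (b (k + 2)) + fB (a (k + 2)) (b (k + 1)) := by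
  fin_cases k <;> rfl

/-- projection to two modified columns -/
def pr (f : W3) (i : Fin 3) : M43 →+ N4 × N4 :=
  AddMonoidHom.mk' (fun a => (a (i + 1) + f (i + 1) • a i, a (i + 2) + f (i + 2) • a i)) fun a b => by
    simp only [Pi.add_apply, smul_add, Prod.mk_add_mk]
    congr 1 <;> abel

theorem om_pr {f : W3} {i : Fin 3} (h : f i = 1) (a b : M43) : om (pr f i a) (pr f i b) = f ⬝ᵥ B0 a b := by
  have t : (2 : F) = 0 := rfl
  have s : f ⬝ᵥ B0 a b = f i * B0 a b i + f (i + 1) * B0 a b (i + 1) + f (i + 2) * B0 a b (i + 2) := by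
    rw [dotProduct, Fin.sum_univ_three]
    fin_cases i <;> simp <;> ring
  have e : ∀ i : Fin 3, i + 1 + 1 = i + 2 ∧ i + 1 + 2 = i ∧ i + 2 + 1 = i ∧ i + 2 + 2 = i + 1 := by decide
  rw [s, h, om_apply]
  simp only [B0_apply, pr, AddMonoidHom.mk'_apply, map_add, map_smul, LinearMap.add_apply, LinearMap.smul_apply,
    smul_eq_mul, e i]
  linear_combination (f (i + 1) * f (i + 2) * fB (a i) (b i)) * t

/-- evaluation -/
abbrev ev (i : Fin 3) : M43 →+ N4 := Pi.evalAddMonoidHom (fun _ => N4) i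

theorem card_pr {f : W3} {i : Fin 3} (h : f i = 1) (U : AddSubgroup M43) (hU : ∀ a ∈ U, ∀ b ∈ U, f ⬝ᵥ B0 a b = 0) :
    Nat.card U ≤ 16 * Nat.card (((pr f i).ker ⊓ U).map (ev i)) := by
  have c1 := iso_le om om_nd (U.map (pr f i)) (U.map (pr f i)) (by
    rintro _ ⟨a, ha, rfl⟩ _ ⟨b, hb, rfl⟩
    rw [om_pr h, hU a ha b hb])
  have c2 : Nat.card (N4 × N4) = 256 := by simp
  have c3 : (ev i).ker ⊓ ((pr f i).ker ⊓ U) = ⊥ := by
    rw [eq_bot_iff]
    rintro a ⟨h1, h2, -⟩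
    have h1 : a i = 0 := h1
    have h2 : (a (i + 1) + f (i + 1) • a i, a (i + 2) + f (i + 2) • a i) = 0 := h2
    rw [h1, smul_zero, smul_zero, add_zero, add_zero, Prod.mk_eq_zero] at h2
    refine funext fun j => ?_
    rcases (by decide : ∀ i j : Fin 3, j = i ∨ j = i + 1 ∨ j = i + 2) i j with rfl | rfl | rfl
    exacts [h1, h2.1, h2.2]
  rw [card_add (pr f i) U, card_add (ev i) (_ ⊓ U), c3, AddSubgroup.card_bot, one_mul, mul_comm]
  exact Nat.mul_le_mul_right _ (by nlinarith)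

/-- a proper subgroup of `W3` lies in a plane -/
theorem exists_plane (C : AddSubgroup W3) (h : C ≠ ⊤) : ∃ f : W3, ∃ i, f i = 1 ∧ ∀ c ∈ C, f ⬝ᵥ c = 0 := by
  obtain ⟨f, f0, hf⟩ := (AddSubgroup.toZModSubmodule 2 C).exists_le_ker_of_lt_top
    (lt_top_iff_ne_top.2 fun e => h (by simpa using congrArg Submodule.toAddSubgroup e))
  have e : ∀ c, f c = (fun i => f (Pi.single i 1)) ⬝ᵥ c := fun c => by
    rw [LinearMap.pi_apply_eq_sum_univ, dotProduct]
    refine Finset.sum_congr rfl fun i _ => ?_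
    rw [smul_eq_mul, mul_comm]
    congr 2
    ext j
    simp [Pi.single_apply, eq_comm]
  refine ⟨fun i => f (Pi.single i 1), ?_⟩
  by_contra k
  push Not at k
  refine f0 (LinearMap.ext fun c => ?_)
  have : (fun i => f (Pi.single i 1)) = (0 : W3) := funext fun i => by
    rcases (by decide : ∀ x : F, x = 0 ∨ x = 1) (f (Pi.single i 1)) with z | z
    · exact z
    · obtain ⟨c, hc, n⟩ := k i z
      exact (n ((e c).symm.trans (hf hc))).elim
  rw [e, this, zero_dotProduct, LinearMap.zero_apply]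

theorem card_le_256 (C : AddSubgroup W3) (h : C ≠ ⊤) (U : AddSubgroup M43) (hU : ∀ a ∈ U, ∀ b ∈ U, B0 a b ∈ C) :
    Nat.card U ≤ 256 := by
  obtain ⟨f, i, hi, hf⟩ := exists_plane C h
  have c1 := card_pr hi U fun a ha b hb => hf _ (hU a ha b hb)
  have c2 := (((pr f i).ker ⊓ U).map (ev i)).card_le_card_addGroup
  have c3 : Nat.card N4 = 16 := by simp
  omega

theorem card_le_64 (U : AddSubgroup M43) (hU : ∀ a ∈ U, ∀ b ∈ U, B0 a b = 0) : Nat.card U ≤ 64 := by
  have c0 := card_pr (f := Pi.single 0 1) (i := 0) rfl U fun a ha b hb => by rw [hU a ha b hb, dotProduct_zero]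
  have c2 := card_pr (f := Pi.single 2 1) (i := 2) rfl U fun a ha b hb => by rw [hU a ha b hb, dotProduct_zero]
  have c1 := iso_le fB fB_nd (((pr (Pi.single 0 1) 0).ker ⊓ U).map (ev 0))
    (((pr (Pi.single 2 1) 2).ker ⊓ U).map (ev 2)) (by
    rintro _ ⟨a, ⟨h1, ha⟩, rfl⟩ _ ⟨b, ⟨-, hb⟩, rfl⟩
    have h1 : a 2 = 0 := by simpa [pr] using congrArg Prod.snd (show pr (Pi.single 0 1) 0 a = 0 from h1)
    have k := congrFun (hU a ha b hb) 1
    rw [B0_apply] at k
    simpa [h1] using k)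
  have c3 : Nat.card N4 = 16 := by simp
  nlinarith

theorem card_ge_4 (C : AddSubgroup W3) {m : M43} (h : m ≠ 0) (hC : ∀ b, B0 b m ∈ C) : 4 ≤ Nat.card C := by
  obtain ⟨i, hi⟩ := Function.ne_iff.1 h
  obtain ⟨n, hn⟩ := fN_nd _ hi
  have e : ∀ i : Fin 3, i + 1 + 1 = i + 2 ∧ i + 1 + 2 = i ∧ i + 2 + 1 = i ∧ i + 2 + 2 = i + 1 ∧
    i ≠ i + 1 ∧ i ≠ i + 2 ∧ i + 1 ≠ i + 2 ∧ i + 2 ≠ i + 1 := by decide
  obtain ⟨e1, e2, e3, e4, e5, e6, e7, e8⟩ := e i
  refine le_of_eq_of_le (by simp) (Nat.card_le_card_of_injective (fun s : F × F =>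
    (⟨_, hC (Pi.single (i + 1) (s.1 • n) + Pi.single (i + 2) (s.2 • n))⟩ : C)) fun s t k => ?_)
  have k1 := congrFun (congrArg Subtype.val k) (i + 1)
  have k2 := congrFun (congrArg Subtype.val k) (i + 2)
  simp [B0_apply, e1, e2, e3, e4, e5, e6, e7, e8, show fB n (m i) = 1 from hn] at k1 k2
  exact Prod.ext k2 k1

theorem card_ker_B (m : M43) (U : AddSubgroup M43) (h : ∀ a, B0 a m = 0 → a ∈ U) : 512 ≤ Nat.card U := by
  let T : M43 →+ W3 := AddMonoidHom.mk' (fun a => B0 a m) fun a b => funext fun k => by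
    simp only [B0_apply, Pi.add_apply, map_add, LinearMap.add_apply]; abel
  have c1 := card_add T ⊤
  have c2 := (AddSubgroup.map T ⊤).card_le_card_addGroup
  have c3 := AddSubgroup.card_le_of_le (show T.ker ⊓ ⊤ ≤ U from fun a ha => h a ha.1)
  have c4 : Nat.card W3 = 8 := by simp
  have c5 : Nat.card (⊤ : AddSubgroup M43) = 4096 := by simp
  nlinarith

theorem actM_one (A : M4) (a : M43) : actM A 1 a = fun j => A *ᵥ a j := funext fun j => by
  simp [actM, one_apply]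

theorem card_inv {α : S5 →* M4} (h : AL α) {σ : S5} (e : σ * σ = 1) (e1 : σ ≠ 1) (U W : AddSubgroup M43)
    (hU : ∀ a ∈ U, a + actM (α σ) 1 a ∈ W) : Nat.card U ≤ 64 * Nat.card W := by
  let T : M43 →+ M43 := AddMonoidHom.mk' (fun a => a + actM (α σ) 1 a) fun a b => funext fun k => by
    simp only [actM_one, Pi.add_apply, mulVec_add]; abel
  have c1 : Nat.card (T.ker ⊓ U :) ≤ Nat.card (Fin 3 → {v // α σ *ᵥ v = v}) :=
    Nat.card_le_card_of_injective (fun a j => ⟨a.1 j, by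
      have := congrFun (show a.1 + actM (α σ) 1 a.1 = 0 from a.2.1) j
      rw [actM_one] at this
      exact (CharTwo.add_eq_zero.1 this).symm⟩) fun a b k => Subtype.ext (funext fun j => congrArg Subtype.val (congrFun k j))
  rw [Nat.card_fun, Nat.card_eq_fintype_card (α := {v // α σ *ᵥ v = v}), Fintype.card_subtype, h.fix4 e e1] at c1
  rw [card_add T U]
  refine Nat.mul_le_mul (by simpa using c1) (AddSubgroup.card_le_of_le ?_)
  rintro _ ⟨a, ha, rfl⟩
  exact hU a ha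

theorem exists_off {γ : SL3} (h : γ ≠ 1) : ∃ i j, i ≠ j ∧ γ.1 i j = 1 := by
  by_contra k
  push Not at k
  have z : ∀ i j, i ≠ j → γ.1 i j = 0 := fun i j e => ((by decide : ∀ x : F, x ≠ 1 → x = 0) _ (k i j e))
  have d := γ.2
  rw [det_fin_three, z 0 1 (by decide), z 0 2 (by decide), z 1 2 (by decide)] at d
  obtain ⟨a, b, c⟩ := (by decide : ∀ a b c : F, a * b * c = 1 → a = 1 ∧ b = 1 ∧ c = 1) (γ.1 0 0) (γ.1 1 1) (γ.1 2 2)
    (by linear_combination d)
  refine h (Subtype.ext (Matrix.ext fun i j => ?_))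
  rcases eq_or_ne i j with rfl | e
  · fin_cases i <;> simpa
  · exact (z i j e).trans (one_apply_ne e).symm

theorem card_act {α : S5 →* M4} (h : AL α) {y : S5 × SL3} (e : y * y = 1) (e1 : y ≠ 1) (W : AddSubgroup M43)
    (hW : ∀ a, a + actM (α y.1) y.2 a ∈ W) : 16 ≤ Nat.card W := by
  rcases eq_or_ne y.2 1 with k | k
  · have c := card_inv h (congrArg Prod.fst e) (fun z => e1 (Prod.ext z k)) ⊤ W fun a _ => k ▸ hW a
    have c5 : Nat.card (⊤ : AddSubgroup M43) = 4096 := by simp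
    omega
  · obtain ⟨i, j, ij, o⟩ := exists_off (inv_ne_one.2 k)
    refine le_of_eq_of_le (by simp) (Nat.card_le_card_of_injective (fun n : N4 =>
      (⟨_, hW (Pi.single i n)⟩ : W)) fun s t k => ?_)
    have k1 : ∀ n : N4, (Pi.single i n + actM (α y.1) y.2 (Pi.single i n) : M43) j = α y.1 *ᵥ n := fun n => by
      rw [Pi.add_apply, Pi.single_eq_of_ne ij.symm, zero_add, actM, Finset.sum_eq_single i, o, one_smul,
        Pi.single_eq_same]
      · intro b _ hb; rw [Pi.single_eq_of_ne hb, mulVec_zero, smul_zero]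
      · simp
    have k2 := congrArg (α y.1⁻¹ *ᵥ ·) ((k1 s).symm.trans ((congrFun (congrArg Subtype.val k) j).trans (k1 t)))
    simpa only [mulVec_mulVec, ← map_mul, inv_mul_cancel, map_one, one_mulVec] using k2

theorem ea4 {H : Type*} [Group H] [Finite H] (c : (Nat.card H).factorization 2 = 3) {x : H} (x2 : x * x ≠ 1)
    (x4 : x ^ 2 ^ 2 = 1) (E : Subgroup H) (hE : ∀ e ∈ E, e * e = 1) : Nat.card E ≤ 4 := by
  have pE : IsPGroup 2 E := isPGroup_iff_forall.2 fun e he => ⟨1, by rw [pow_one, pow_two, hE e he]⟩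
  obtain ⟨S, hS, le⟩ := exists_isSylowIn_ge pE le_top
  have cS := hS.card_eq_pow
  rw [card_top, c] at cS
  obtain ⟨g, -, hg⟩ := hS.exists_conj_le (isPGroup_zpowers x4) le_top
  have lt : E ≠ S := by
    rintro rfl
    have := hE _ (hg (conj_mem_conj_smul g (mem_zpowers x)))
    exact x2 (by simpa using this)
  have d := card_dvd_of_le le
  have n : Nat.card E ≠ 8 := fun e => lt (eq_of_le_of_card_ge le (by omega))
  rw [cS] at d
  have := Nat.le_of_dvd (by norm_num) d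
  interval_cases Nat.card E <;> omega

theorem ea_S5 (E : Subgroup S5) (hE : ∀ e ∈ E, e * e = 1) : Nat.card E ≤ 4 :=
  ea4 (by rw [Nat.card_eq_fintype_card, Fintype.card_perm, Fintype.card_fin]; decide +kernel)
    (x := Equiv.swap 0 1 * Equiv.swap 1 2 * Equiv.swap 2 3) (by decide) (by decide) E hE

theorem ea_SL3 (E : Subgroup SL3) (hE : ∀ e ∈ E, e * e = 1) : Nat.card E ≤ 4 :=
  ea4 (by rw [CL.SLn.card_SL_three, ZMod.card]; decide +kernel) (x := t3 0 1 * t3 1 2) (by decide) (by decide) E hE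

theorem ea_prod (Y : Subgroup (S5 × SL3)) (hY : ∀ y ∈ Y, y * y = 1) : Nat.card Y ≤ 16 ∧
    ((∀ y ∈ Y, y.2 = 1) → Nat.card Y ≤ 4) ∧ ((∀ y ∈ Y, y.2 = 1 → y = 1) → Nat.card Y ≤ 4) := by
  have c := card_eq_card_inf_ker_mul_card_map (MonoidHom.snd S5 SL3) Y
  have c1 := ea_SL3 (Y.map (MonoidHom.snd S5 SL3)) (by rintro _ ⟨y, hy, rfl⟩; rw [← map_mul, hY y hy, map_one])
  have c2 := ea_S5 (((MonoidHom.snd S5 SL3).ker ⊓ Y).map (MonoidHom.fst S5 SL3))
    (by rintro _ ⟨y, hy, rfl⟩; rw [← map_mul, hY y hy.2, map_one])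
  have c3 := card_eq_card_inf_ker_mul_card_map (MonoidHom.fst S5 SL3) ((MonoidHom.snd S5 SL3).ker ⊓ Y)
  rw [show (MonoidHom.fst S5 SL3).ker ⊓ ((MonoidHom.snd S5 SL3).ker ⊓ Y) = ⊥ from
    eq_bot_iff.2 fun y hy => Prod.ext hy.1 hy.2.1, card_bot, one_mul] at c3
  refine ⟨by nlinarith, fun k => ?_, fun k => ?_⟩
  · rw [show Y.map (MonoidHom.snd S5 SL3) = ⊥ from eq_bot_iff.2 (by rintro _ ⟨y, hy, rfl⟩; exact k y hy),
      card_bot] at c
    omega
  · rw [show (MonoidHom.snd S5 SL3).ker ⊓ Y = ⊥ from eq_bot_iff.2 fun y hy => k y hy.2 hy.1, card_bot] at c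
    omega

theorem trans3 : ∀ c : W3, c ≠ 0 → ∃ i j k l : Fin 3, (t3 i j * t3 k l * t3 j 2).1 *ᵥ Pi.single 2 1 = c := by
  decide +kernel

end CL.Pen.SA
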