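/-
PEN-SYL / PEN-TIA: group facts in the model `KM`.
-/
import Cfsg.Agent.Pen.SylA

set_option autoImplicit false

namespace CL.Pen

open Cfsg Subgroup Matrix CL.Cls CL.Grp CL.Even CL.L10 CL.Mx QuadraticMap SA
open scoped MatrixGroups

variable {G : Type*} [Group G] {K L Z : Subgroup G} {p : K →* S5 × SL3} {α : S5 →* M4} {φ : G → M43} {ι : W3 → G}

namespace KM

variable (h : KM K L Z p α φ ι)
include h

theorem sι0 : ι 0 = 1 := by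
  have := h.ι_add 0 0
  rw [add_zero] at this
  exact left_eq_mul.1 this

theorem sιZ (c : W3) : ι c ∈ Z := h.mem_Z.2 ⟨c, rfl⟩

theorem sZsq {z : G} (hz : z ∈ Z) : z * z = 1 := by
  obtain ⟨c, rfl⟩ := h.mem_Z.1 hz
  rw [← h.ι_add, CharTwo.add_self_eq_zero, h.sι0]

theorem sι_inj : Function.Injective ι := fun c c' e =>
  CharTwo.add_eq_zero.1 (h.ι_inj (by rw [h.ι_add, ← e, h.sZsq (h.sιZ c)]))

theorem scardZ : Nat.card Z = 8 :=
  (Nat.card_congr (Equiv.ofBijective (fun c => (⟨ι c, h.sιZ c⟩ : Z)) ⟨fun _ _ e => h.sι_inj (congrArg Subtype.val e),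
    fun z => (h.mem_Z.1 z.2).imp fun _ e => Subtype.ext e⟩)).symm.trans (by simp)

theorem sconjZ {k z : G} (hk : k ∈ K) (hz : z ∈ Z) : k * z * k⁻¹ ∈ Z := by
  obtain ⟨c, rfl⟩ := h.mem_Z.1 hz
  exact (h.ι_conj ⟨k, hk⟩ c).symm ▸ h.sιZ _

theorem sconjL {k l : G} (hk : k ∈ K) (hl : l ∈ L) : k * l * k⁻¹ ∈ L :=
  (h.ker (⟨k, hk⟩ * ⟨l, h.LK hl⟩ * ⟨k, hk⟩⁻¹)).1 (by
    rw [map_mul, map_mul, (h.ker ⟨l, h.LK hl⟩).2 hl, mul_one, map_inv, mul_inv_cancel])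

theorem scomm {a b : G} (ha : a ∈ L) (hb : b ∈ L) : a * b * a⁻¹ * b⁻¹ = ι (B0 (φ a) (φ b)) := by
  rw [h.comm ha hb]; group

theorem scommZ {a b : G} (ha : a ∈ L) (hb : b ∈ L) : a * b * a⁻¹ * b⁻¹ ∈ Z := h.scomm ha hb ▸ h.sιZ _

theorem ssqZ {a : G} (ha : a ∈ L) : a * a ∈ Z := h.sq ha ▸ h.sιZ _

theorem sφ1 : φ 1 = 0 := (h.φ_zero (one_mem _)).2 (one_mem _)

theorem sφinv {a : G} (ha : a ∈ L) : φ a⁻¹ = φ a :=
  CharTwo.add_eq_zero.1 (by rw [← h.φ_mul (inv_mem ha) ha, inv_mul_cancel, h.sφ1])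

theorem sφcomm (k : K) {l : G} (hl : l ∈ L) :
    φ (l * k * l⁻¹ * (k : G)⁻¹) = φ l + actM (α (p k).1) (p k).2 (φ l) := by
  rw [show l * k * l⁻¹ * (k : G)⁻¹ = l * (k * l⁻¹ * (k : G)⁻¹) by group, h.φ_mul hl (h.sconjL k.2 (inv_mem hl)),
    h.φ_conj k (inv_mem hl), h.sφinv hl]

theorem scommL {k l : G} (hk : k ∈ K) (hl : l ∈ L) : l * k * l⁻¹ * k⁻¹ ∈ L := by
  rw [show l * k * l⁻¹ * k⁻¹ = l * (k * l⁻¹ * k⁻¹) by group]
  exact mul_mem hl (h.sconjL hk (inv_mem hl))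

theorem scommZ' {k z : G} (hk : k ∈ K) (hz : z ∈ Z) : k * z * k⁻¹ * z⁻¹ ∈ Z := mul_mem (h.sconjZ hk hz) (inv_mem hz)

theorem sp2 (k : K) (e : ∀ z ∈ Z, k * z * (k : G)⁻¹ * z⁻¹ = 1) : (p k).2 = 1 := by
  refine Subtype.ext (Matrix.ext_iff_mulVec.2 fun c => h.sι_inj ?_)
  rw [← h.ι_conj, mul_inv_eq_one.1 (e _ (h.sιZ c))]
  exact congrArg ι (one_mulVec c).symm

theorem scen (k : K) (e : (p k).2 = 1) {z : G} (hz : z ∈ Z) : k * z * (k : G)⁻¹ = z := by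
  obtain ⟨c, rfl⟩ := h.mem_Z.1 hz
  rw [h.ι_conj, e]
  exact congrArg ι (one_mulVec c)

/-- the image of `D ⊓ L` in `L / Z` -/
def sU (D : Subgroup G) : AddSubgroup M43 where
  carrier := {m | ∃ d ∈ D, d ∈ L ∧ φ d = m}
  add_mem' := by
    rintro _ _ ⟨a, ha, ha', rfl⟩ ⟨b, hb, hb', rfl⟩
    exact ⟨_, mul_mem ha hb, mul_mem ha' hb', h.φ_mul ha' hb'⟩
  zero_mem' := ⟨1, one_mem _, one_mem _, h.sφ1⟩
  neg_mem' := by
    rintro _ ⟨a, ha, ha', rfl⟩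
    exact ⟨a, ha, ha', (CharTwo.neg_eq _).symm⟩

theorem scardU {D : Subgroup G} (le : D ≤ L) : Nat.card D = Nat.card (D ⊓ Z :) * Nat.card (h.sU D) := by
  let Φ : D →* Multiplicative M43 := MonoidHom.mk' (fun a => .ofAdd (φ a)) fun a b => by
    rw [coe_mul, h.φ_mul (le a.2) (le b.2), ofAdd_add]
  have k : Φ.ker = (D ⊓ Z).subgroupOf D := Subgroup.ext fun a =>
    (h.φ_zero (le a.2)).trans ⟨fun e => ⟨a.2, e⟩, fun e => e.2⟩
  rw [← Φ.ker.card_mul_index, index_ker, k, Nat.card_congr (subgroupOfEquivOfLe inf_le_left).toEquiv]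
  congr 1
  refine Nat.card_congr (Equiv.subtypeEquiv Multiplicative.toAdd fun m => ⟨?_, ?_⟩)
  · rintro ⟨a, rfl⟩; exact ⟨a, a.2, le a.2, rfl⟩
  · rintro ⟨a, ha, -, e⟩; exact ⟨⟨a, ha⟩, congrArg Multiplicative.ofAdd e⟩

theorem scardU' {D : Subgroup G} (le : D ≤ L) (zl : Z ≤ D) : Nat.card D = 8 * Nat.card (h.sU D) := by
  rw [h.scardU le, inf_eq_right.2 zl, h.scardZ]

theorem scardL : Nat.card L = 32768 := by
  rw [h.scardU' le_rfl h.ZL, show h.sU L = ⊤ from eq_top_iff.2 fun m _ => (h.φ_surj m).imp fun _ e => ⟨e.1, e⟩]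
  simp

theorem sL2 : IsPGroup 2 L := IsPGroup.of_card (n := 15) h.scardL

/-- the preimage of `X` in `W3` -/
def sC (X : Subgroup G) : AddSubgroup W3 where
  carrier := {c | ι c ∈ X}
  add_mem' := fun {a b} ha hb => show ι (a + b) ∈ X from h.ι_add a b ▸ mul_mem ha hb
  zero_mem' := show ι 0 ∈ X from h.sι0 ▸ one_mem _
  neg_mem' := fun {a} ha => by rwa [CharTwo.neg_eq]

theorem scardC [Finite G] (X : Subgroup G) : Nat.card (h.sC X) ≤ Nat.card (X ⊓ Z :) :=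
  Nat.card_le_card_of_injective (fun c => ⟨ι c, c.2, h.sιZ _⟩) fun _ _ e =>
    Subtype.ext (h.sι_inj (congrArg Subtype.val e))

theorem scardU_le [Finite G] {D : Subgroup G} (le : D ≤ L) : Nat.card (h.sU D) ≤ Nat.card D := by
  rw [h.scardU le]
  exact Nat.le_mul_of_pos_left _ Nat.card_pos

theorem scardU_ge [Finite G] {D : Subgroup G} (le : D ≤ L) : Nat.card D ≤ 8 * Nat.card (h.sU D) := by
  rw [h.scardU le, ← h.scardZ]
  exact Nat.mul_le_mul_right _ (card_le_of_le inf_le_right)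

theorem scnt {D : Subgroup G} (le : D ≤ K) (s : ∀ d ∈ D, d * d ∈ L) : Nat.card D ≤ Nat.card (D ⊓ L :) * 16 ∧
    ((∀ d : K, (d : G) ∈ D → (p d).2 = 1) → Nat.card D ≤ Nat.card (D ⊓ L :) * 4) ∧
    ((∀ d : K, (d : G) ∈ D → (p d).2 = 1 → (d : G) ∈ L) → Nat.card D ≤ Nat.card (D ⊓ L :) * 4) := by
  have c := card_eq_card_inf_ker_mul_card_map p (D.subgroupOf K)
  rw [show p.ker ⊓ D.subgroupOf K = (D ⊓ L).subgroupOf K from Subgroup.ext fun a =>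
    ⟨fun e => ⟨e.2, (h.ker a).1 e.1⟩, fun e => ⟨(h.ker a).2 e.2, e.1⟩⟩,
    Nat.card_congr (subgroupOfEquivOfLe le).toEquiv,
    Nat.card_congr (subgroupOfEquivOfLe (inf_le_left.trans le)).toEquiv] at c
  obtain ⟨c1, c2, c3⟩ := ea_prod ((D.subgroupOf K).map p) (by
    rintro _ ⟨d, hd, rfl⟩
    rw [← map_mul]
    exact (h.ker _).2 (s d hd))
  rw [c]
  refine ⟨Nat.mul_le_mul_left _ c1, fun k => Nat.mul_le_mul_left _ (c2 ?_), fun k => Nat.mul_le_mul_left _ (c3 ?_)⟩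
  · rintro _ ⟨d, hd, rfl⟩; exact k d hd
  · rintro _ ⟨d, hd, rfl⟩ e; exact (h.ker _).2 (k d hd e)

theorem strans {z : G} (hz : z ∈ Z) (z1 : z ≠ 1) : ∃ k ∈ K, k * z0 ι * k⁻¹ = z := by
  obtain ⟨c, rfl⟩ := h.mem_Z.1 hz
  obtain ⟨i, j, k, l, e⟩ := trans3 c fun e => z1 (e ▸ h.sι0)
  obtain ⟨x, hx⟩ := h.surj (1, t3 i j * t3 k l * t3 j 2)
  exact ⟨x, x.2, by rw [z0, h.ι_conj, hx, e]⟩

theorem scenK (c : centralizer {z0 ι} ≤ K) {z g : G} (hz : z ∈ Z) (z1 : z ≠ 1) (e : g * z * g⁻¹ ∈ Z) : g ∈ K := by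
  obtain ⟨a, ha, rfl⟩ := h.strans hz z1
  obtain ⟨b, hb, k⟩ := h.strans e (by simpa using z1)
  have : b⁻¹ * g * a ∈ K := c (mem_centralizer_singleton_iff.2 (by
    rw [show b⁻¹ * g * a * z0 ι = b⁻¹ * (g * (a * z0 ι * a⁻¹) * g⁻¹) * (g * a) by group, ← k]; group))
  simpa [mul_assoc] using mul_mem (mul_mem hb this) (inv_mem ha)

/-- the conjugate model -/
theorem sconj (g : G) : ∃ p', KM (cj g K) (cj g L) (cj g Z) p' α (fun x => φ (g⁻¹ * x * g)) fun c => g * ι c * g⁻¹ := by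
  have m : ∀ a b : G, g⁻¹ * (a * b) * g = g⁻¹ * a * g * (g⁻¹ * b * g) := fun a b => by group
  let e : cj g K →* K := MonoidHom.mk' (fun x => ⟨g⁻¹ * x * g, mem_cj.1 x.2⟩) fun a b => Subtype.ext (m a b)
  refine ⟨p.comp e, h.al, cj_mono g h.LK, cj_mono g h.ZL, fun y => ?_, fun k => (h.ker (e k)).trans mem_cj.symm,
    fun c c' => by rw [h.ι_add]; group, fun {c} k => h.ι_inj (by simpa using k), fun {x} => ?_, fun k c => ?_,
    fun {a b} ha hb => ?_, fun y => ?_, fun {l} hl => (h.φ_zero (mem_cj.1 hl)).trans mem_cj.symm, fun k {l} hl => ?_,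
    fun {a b} ha hb => ?_, fun {l} hl => ?_⟩
  · obtain ⟨k, rfl⟩ := h.surj y
    exact ⟨⟨_, conj_mem_cj g k.2⟩, congrArg p (Subtype.ext (show g⁻¹ * (g * k * g⁻¹) * g = k by group))⟩
  · rw [mem_cj, h.mem_Z]
    exact exists_congr fun c => ⟨fun k => by rw [k]; group, fun k => by rw [← k]; group⟩
  · rw [MonoidHom.comp_apply, ← h.ι_conj]
    change _ = g * (g⁻¹ * k * g * ι c * (g⁻¹ * k * g)⁻¹) * g⁻¹
    group
  · rw [m, h.φ_mul (mem_cj.1 ha) (mem_cj.1 hb)]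
  · obtain ⟨l, hl, rfl⟩ := h.φ_surj y
    exact ⟨_, conj_mem_cj g hl, congrArg φ (by group)⟩
  · rw [MonoidHom.comp_apply, ← h.φ_conj _ (mem_cj.1 hl)]
    change φ _ = φ (g⁻¹ * k * g * _ * (g⁻¹ * k * g)⁻¹)
    exact congrArg φ (by group)
  · rw [← h.scomm (mem_cj.1 ha) (mem_cj.1 hb)]; group
  · rw [← h.sq (mem_cj.1 hl)]; group

end KM

end CL.Pen
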