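/-
PEN-SYL: a Sylow 2-subgroup of `K = N(Z)` is a Sylow 2-subgroup of `G`.
-/
import Cfsg.Agent.Pen.SylB

set_option autoImplicit false

namespace CL.Pen

open Cfsg Subgroup Matrix CL.Cls CL.Grp CL.Even CL.L10 CL.Mx QuadraticMap SA
open scoped MatrixGroups

universe u

section
variable {G : Type*} [Group G] [Finite G] {K L Z K' L' Z' : Subgroup G} {p : K →* S5 × SL3} {p' : K' →* S5 × SL3}
  {α α' : S5 →* M4} {φ φ' : G → M43} {ι ι' : W3 → G}

theorem syl_one (h : KM K L Z p α φ ι) (h' : KM K' L' Z' p' α' φ' ι') (a : L' ≤ K) (b : L ≤ K') : Z' ≤ L := by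
  intro y hy
  by_contra n
  have yK := a (h'.ZL hy)
  have c1 := card_act h.al (y := p ⟨y, yK⟩) (by
      rw [← map_mul]
      exact (h.ker _).2 (show y * y ∈ L from h'.sZsq hy ▸ one_mem _)) (fun o => n ((h.ker ⟨y, yK⟩).1 o))
      (h.sU (Z' ⊓ L)) fun m => by
    obtain ⟨l, hl, rfl⟩ := h.φ_surj m
    have := h.scommL yK hl
    exact ⟨_, ⟨h'.scommZ' (b hl) hy, this⟩, this, h.sφcomm ⟨y, yK⟩ hl⟩
  have c2 := h.scardU_le (inf_le_right : Z' ⊓ L ≤ L)
  have c3 := card_le_of_le (inf_le_left : Z' ⊓ L ≤ Z')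
  have := h'.scardZ
  omega

theorem syl_two (h : KM K L Z p α φ ι) (h' : KM K' L' Z' p' α' φ' ι') (a : L' ≤ K) (b : L ≤ K') : Z' ≤ Z := by
  have a1 := syl_one h h' a b
  have a2 := syl_one h' h b a
  intro y hy
  by_contra n
  have c1 := (card_ge_4 (h.sC Z') (fun e => n ((h.φ_zero (a1 hy)).1 e)) fun m => by
    obtain ⟨l, hl, rfl⟩ := h.φ_surj m
    exact show ι _ ∈ Z' from h.scomm hl (a1 hy) ▸ h'.scommZ' (b hl) hy).trans (h.scardC Z')
  have c2 := h.scardU a1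
  rw [h'.scardZ] at c2
  have c3 : Nat.card (h.sU Z') ≤ 2 := by nlinarith
  have c4 := h.scardU' (inf_le_right : L' ⊓ L ≤ L) (le_inf a2 h.ZL)
  have c5 := card_le_256 (h.sC Z') (fun e => n ((eq_of_le_of_card_ge (show Z ≤ Z' from fun z hz => by
      obtain ⟨c, rfl⟩ := h.mem_Z.1 hz
      exact (e.ge (AddSubgroup.mem_top c) :)) (h'.scardZ.trans h.scardZ.symm).le).ge hy)) (h.sU (L' ⊓ L)) (by
    rintro _ ⟨x, hx, hx', rfl⟩ _ ⟨w, hw, hw', rfl⟩
    exact show ι _ ∈ Z' from h.scomm hx' hw' ▸ h'.scommZ hx.1 hw.1)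
  obtain ⟨c6, -, c7⟩ := h.scnt a fun x hx => a1 (h'.ssqZ hx)
  rw [h'.scardL] at c6 c7
  by_cases k : ∀ d : K, (d : G) ∈ L' → (p d).2 = 1 → (d : G) ∈ L
  · have := c7 k
    omega
  push Not at k
  obtain ⟨d, hd, e, dn⟩ := k
  have c8 := card_inv h.al (σ := (p d).1) (by
      have : p (d * d) = 1 := (h.ker _).2 (a1 (h'.ssqZ hd))
      rw [map_mul] at this
      exact congrArg Prod.fst this) (fun o => dn ((h.ker d).1 (Prod.ext o e))) (h.sU (L' ⊓ L)) (h.sU Z') (by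
    rintro _ ⟨l, ⟨hl', hl⟩, -, rfl⟩
    exact ⟨_, h'.scommZ hl' hd, h.scommL d.2 hl, e ▸ h.sφcomm d hl⟩)
  omega

end

theorem syl : SYL.{u} := by
  intro G _ _ K L Z p α φ ι h hK S hS
  have LS : L ≤ S := hS.le_of_normalized h.sL2 h.LK fun k hk => mem_normalizer_fintype fun _ hl => h.sconjL hk hl
  have N : 𝒩(S) ≤ K := fun g hg => by
    obtain ⟨p', h'⟩ := h.sconj g
    exact hK ▸ mem_norm_of_cj_le (syl_two h h' ((cj_le_of_le LS hg).trans hS.le)
      (LS.trans ((cj_eq hg).ge.trans (cj_mono g hS.le))))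
  refine isSylowIn_of_maximal le_top hS.isPGroup fun U hU SU _ => ?_
  by_contra n
  have lt := lt_inf_normalizer_of_isPGroup hU (lt_of_le_of_ne SU (Ne.symm n))
  exact lt.ne' (hS.eq_of_le (hU.to_le inf_le_left) lt.le (inf_le_right.trans N))

end CL.Pen
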