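/-
PEN-TIA: if `C(z) ≤ K` then `Z` is a TI-subgroup, weakly closed in `K`.
-/
import Cfsg.Agent.Pen.SylB

set_option autoImplicit false

namespace CL.Pen

open Cfsg Subgroup Matrix CL.Cls CL.Grp CL.Even CL.L10 CL.Mx QuadraticMap SA
open scoped MatrixGroups

universe u

section
variable {G : Type*} [Group G] [Finite G] {K L Z K' L' Z' : Subgroup G} {p : K →* S5 × SL3} {p' : K' →* S5 × SL3}
  {α α' : S5 →* M4} {φ φ' : G → M43} {ι ι' : W3 → G}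

theorem tia_ex (h' : KM K' L' Z' p' α' φ' ι') (c : Nat.card Z' ≤ Nat.card (Z' ⊓ L :) * 4) :
    ∃ z ∈ Z', z ∈ L ∧ z ≠ 1 := by
  by_contra k
  push Not at k
  rw [show Z' ⊓ L = ⊥ from eq_bot_iff.2 fun z hz => k z hz.1 hz.2, card_bot, h'.scardZ] at c
  omega

theorem tia_one (h : KM K L Z p α φ ι) (h' : KM K' L' Z' p' α' φ' ι')
    (c' : ∀ z ∈ Z', z ≠ 1 → ∀ g, g * z * g⁻¹ = z → g ∈ K') (d : ∀ z ∈ Z, z ∈ Z' → z = 1) (le : Z' ≤ K) :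
    Z ≤ K' ∧ Z' ≤ L ∧ 4096 ≤ Nat.card (L ⊓ K' :) := by
  obtain ⟨-, c1, c2⟩ := h.scnt le fun z hz => h'.sZsq hz ▸ one_mem _
  have e1 : ∃ z : K, (z : G) ∈ Z' ∧ (z : G) ≠ 1 ∧ (p z).2 = 1 := by
    by_contra k
    push Not at k
    obtain ⟨z, a, b, c⟩ := tia_ex h' (c2 fun z hz e => by
      by_contra n
      exact k z hz (fun o => n (o ▸ one_mem _)) e)
    exact k ⟨z, le a⟩ a c (congrArg Prod.snd ((h.ker ⟨z, le a⟩).2 b))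
  obtain ⟨z, hz, z1, e1⟩ := e1
  have ZK : Z ≤ K' := fun y hy => c' z hz z1 y (by
    rw [mul_inv_eq_iff_eq_mul, eq_comm, ← mul_inv_eq_iff_eq_mul, h.scen z e1 hy])
  have e2 : ∀ z : K, (z : G) ∈ Z' → (p z).2 = 1 := fun z hz => h.sp2 z fun y hy => d _ (h.scommZ' z.2 hy) (by
    rw [show z * y * (z : G)⁻¹ * y⁻¹ = (y * z * y⁻¹ * (z : G)⁻¹)⁻¹ by group]
    exact inv_mem (h'.scommZ' (ZK hy) hz))
  obtain ⟨w, hw, wL, w1⟩ := tia_ex h' (c1 e2)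
  have c3 : 512 ≤ Nat.card (h.sU (L ⊓ K')) := card_ker_B (φ w) _ fun a ha => by
    obtain ⟨l, hl, rfl⟩ := h.φ_surj a
    refine ⟨l, ⟨hl, c' w hw w1 l (mul_inv_eq_one.1 ?_)⟩, hl, rfl⟩
    rw [h.scomm hl wL, ha, h.sι0]
  refine ⟨ZK, fun y hy => ?_, by rw [h.scardU' inf_le_left (le_inf h.ZL ZK)]; omega⟩
  by_contra n
  have e3 := e2 ⟨y, le hy⟩ hy
  have c4 := card_inv h.al (σ := (p ⟨y, le hy⟩).1) (by
      have : p (⟨y, le hy⟩ * ⟨y, le hy⟩) = 1 := (h.ker _).2 (show y * y ∈ L from h'.sZsq hy ▸ one_mem _)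
      rw [map_mul] at this
      exact congrArg Prod.fst this) (fun o => n ((h.ker ⟨y, le hy⟩).1 (Prod.ext o e3))) (h.sU (L ⊓ K')) (h.sU (Z' ⊓ L)) (by
    rintro _ ⟨l, ⟨hl, hl'⟩, -, rfl⟩
    have := h.scommL (le hy) hl
    exact ⟨_, ⟨h'.scommZ' hl' hy, this⟩, this, e3 ▸ h.sφcomm ⟨y, le hy⟩ hl⟩)
  have c5 := h.scardU_le (inf_le_right : Z' ⊓ L ≤ L)
  have c6 : Nat.card (Z' ⊓ L :) < 8 := by
    rw [← h'.scardZ]
    by_contra k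
    exact n ((eq_of_le_of_card_ge (inf_le_left : Z' ⊓ L ≤ Z') (not_lt.1 k)).ge hy).2
  omega

theorem tia_two (h : KM K L Z p α φ ι) (h' : KM K' L' Z' p' α' φ' ι')
    (c : ∀ z ∈ Z, z ≠ 1 → ∀ g, g * z * g⁻¹ = z → g ∈ K)
    (c' : ∀ z ∈ Z', z ≠ 1 → ∀ g, g * z * g⁻¹ = z → g ∈ K') (d : ∀ z ∈ Z, z ∈ Z' → z = 1) (le : Z' ≤ K) : False := by
  obtain ⟨a1, a2, a3⟩ := tia_one h h' c' d le
  obtain ⟨-, b2, -⟩ := tia_one h' h c (fun z a b => d z b a) a1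
  have c1 := (h'.scnt (inf_le_right : L ⊓ K' ≤ K') fun x hx => b2 (h.ssqZ hx.1)).2.1 fun x hx =>
    h'.sp2 x fun z hz => d _ (h.scommZ hx.1 (a2 hz)) (h'.scommZ' x.2 hz)
  have c2 := h.scardU_ge (D := L ⊓ K' ⊓ L') (inf_le_left.trans inf_le_left)
  have c3 := card_le_64 (h.sU (L ⊓ K' ⊓ L')) (by
    rintro _ ⟨a, ha, ha', rfl⟩ _ ⟨b, hb, hb', rfl⟩
    exact h.ι_inj ((h.scomm ha' hb').symm.trans (d _ (h.scommZ ha' hb') (h'.scommZ ha.2 hb.2))))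
  omega

end

theorem tia : TIA.{u} := by
  intro G _ _ K L Z p α φ ι h hK c
  have ti : ∀ g : G, cj g Z = Z ∨ cj g Z ⊓ Z = ⊥ := fun g => by
    refine or_iff_not_imp_right.2 fun n => ?_
    obtain ⟨⟨z, hz, hz'⟩, z1⟩ := (ne_bot_iff_exists_ne_one).1 n
    have := h.scenK c (g := g⁻¹) hz' (fun e => z1 (Subtype.ext e)) (by simpa using mem_cj.1 hz)
    exact cj_eq (hK ▸ (inv_mem_iff.1 this))
  refine ⟨ti, fun g le => (ti g).resolve_right fun e => ?_⟩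
  obtain ⟨p', h'⟩ := h.sconj g
  refine tia_two h h' (fun z hz z1 x k => h.scenK c hz z1 (k.symm ▸ hz)) (fun z hz z1 x k => mem_cj.2 ?_)
    (fun z a b => mem_bot.1 (e ▸ mem_inf.2 ⟨b, a⟩)) le
  refine h.scenK c (mem_cj.1 hz) (fun o => z1 (by rw [show z = g * (g⁻¹ * z * g) * g⁻¹ by group, o]; group)) ?_
  rw [show g⁻¹ * x * g * (g⁻¹ * z * g) * (g⁻¹ * x * g)⁻¹ = g⁻¹ * (x * z * x⁻¹) * g by group, k]
  exact mem_cj.1 hz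

end CL.Pen
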